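import Cfsg.Agent.H54.RadFour.Basic

/-!
# An involution acting on a homocyclic group of type `(4,4,4,4)`

If an element squaring into an abelian normal subgroup of type `(4,4,4,4)` centralises exactly a
four-group modulo two, a section of order thirty two appears.
-/

set_option autoImplicit false
set_option linter.style.haveILetI false

namespace Cfsg.Agent.H54.RadFour

variable {Y : Type*} [Group Y] [Finite Y]

theorem false_of_homocyclic (h4 : Cfsg.SectionalPRankLE 2 4 Y) (R : Subgroup Y)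
    (hab : ∀ a ∈ R, ∀ b ∈ R, a * b = b * a) (hcard : Nat.card R = 256)
    (hexp : ∀ a ∈ R, a * a * (a * a) = 1) (hroot : ∀ a ∈ R, a * a = 1 → ∃ b ∈ R, b * b = a)
    (g : Y) (hgR : g ∉ R) (hg2 : g * g ∈ R) (hgn : ∀ a ∈ R, g * a * g⁻¹ ∈ R)
    (hC : Nat.card {a : R // (g * a * g⁻¹ * (a : Y)⁻¹) * (g * a * g⁻¹ * (a : Y)⁻¹) = 1} = 64) :
    False := by
  classical
  letI : CommGroup R :=
    { (inferInstance : Group R) with mul_comm := fun a b => Subtype.ext (hab a a.2 b b.2) }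
  let θ : R →* R :=
    { toFun := fun a => ⟨g * a * g⁻¹, hgn a a.2⟩
      map_one' := Subtype.ext (by simp)
      map_mul' := fun a b => Subtype.ext (by
        show g * ((a : Y) * b) * g⁻¹ = g * a * g⁻¹ * (g * b * g⁻¹)
        group) }
  let f : R →* R :=
    { toFun := fun a => θ a * a⁻¹
      map_one' := by simp
      map_mul' := fun a b => by rw [map_mul, mul_inv, mul_mul_mul_comm] }
  let sq : R →* R :=
    { toFun := fun a => a * a
      map_one' := one_mul 1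
      map_mul' := fun a b => mul_mul_mul_comm a b a b }
  set Ω : Subgroup R := sq.ker with hΩdef
  have hΩ : ∀ {a : R}, a ∈ Ω ↔ a * a = 1 := fun {a} => Iff.rfl
  have hrange : sq.range = Ω := by
    ext a
    constructor
    · rintro ⟨b, rfl⟩
      exact hΩ.2 (Subtype.ext (hexp b b.2))
    · intro ha
      obtain ⟨b, hb, e⟩ := hroot a a.2 (congrArg Subtype.val (hΩ.1 ha))
      exact ⟨⟨b, hb⟩, Subtype.ext e⟩
  have hΩ16 : Nat.card Ω = 16 := by
    have h1 := Subgroup.card_mul_index Ω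
    rw [hΩdef, Subgroup.index_ker, hrange, hcard] at h1
    nlinarith [h1]
  set C : Subgroup R := Ω.comap f with hCdef
  have hC' : ∀ {a : R}, a ∈ C ↔ f a * f a = 1 := fun {a} => Iff.rfl
  have hC64 : Nat.card C = 64 := by
    rw [← hC]
    exact Nat.card_congr (Equiv.subtypeEquivRight fun a =>
      ⟨fun ha => congrArg Subtype.val ha, fun ha => Subtype.ext ha⟩)
  have hff : ∀ a, f (f a) * (f a * f a) = 1 := by
    intro a
    have h1 : θ (θ a) = a := Subtype.ext (by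
      show g * (g * (a : Y) * g⁻¹) * g⁻¹ = a
      calc g * (g * (a : Y) * g⁻¹) * g⁻¹ = (g * g) * a * (g * g)⁻¹ := by group
        _ = a := by rw [hab _ hg2 a a.2, mul_inv_cancel_right])
    show θ (θ a * a⁻¹) * (θ a * a⁻¹)⁻¹ * (θ a * a⁻¹ * (θ a * a⁻¹)) = 1
    rw [map_mul, h1, map_inv, mul_inv, inv_inv]
    calc a * (θ a)⁻¹ * ((θ a)⁻¹ * a) * (θ a * a⁻¹ * (θ a * a⁻¹))
        = ((θ a)⁻¹ * θ a) * ((θ a)⁻¹ * θ a) * ((a * a⁻¹) * (a * a⁻¹)) := by ac_rfl
      _ = 1 := by simp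
  have hfΩ : ∀ {w : R}, w ∈ Ω → f w ∈ Ω := fun {w} hw => hΩ.2 (by
    rw [← map_mul, hΩ.1 hw, map_one])
  have hΩC : Ω ≤ C := fun w hw => hfΩ hw
  have hfC : ∀ a, f a ∈ C := fun a => hC'.2 (by
    have h1 := hff a
    rw [mul_eq_one_iff_eq_inv] at h1
    rw [h1, ← mul_inv, inv_eq_one]
    exact Subtype.ext (hexp _ (f a).2))
  -- every element of `C` is a commutator times an involution
  have hCform : ∀ c ∈ C, ∃ a, ∃ w ∈ Ω, c = f a * w := by
    let ι : (R ⧸ C) × Ω → C := fun x => ⟨f x.1.out * x.2, mul_mem (hfC _) (hΩC x.2.2)⟩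
    have hι : Function.Injective ι := by
      rintro ⟨x, w⟩ ⟨y, v⟩ e
      have e' : f x.out * w = f y.out * v := congrArg Subtype.val e
      have h1 : x = y := by
        rw [← QuotientGroup.out_eq' x, ← QuotientGroup.out_eq' y, QuotientGroup.eq]
        show f (x.out⁻¹ * y.out) ∈ Ω
        rw [map_mul, map_inv, show (f x.out)⁻¹ * f y.out = (w : R) * (v : R)⁻¹ by
          rw [eq_mul_inv_iff_mul_eq, mul_assoc, inv_mul_eq_iff_eq_mul, ← e']]
        exact mul_mem w.2 (inv_mem v.2)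
      subst h1
      exact Prod.ext rfl (Subtype.ext (mul_left_cancel e'))
    have h4' : Nat.card (R ⧸ C) = 4 := by
      have h1 := Subgroup.card_eq_card_quotient_mul_card_subgroup C
      rw [hC64, hcard] at h1
      omega
    have hbij := Function.Injective.bijective_of_nat_card_le hι
      (by rw [Nat.card_prod, h4', hΩ16, hC64])
    intro c hc
    obtain ⟨⟨x, w⟩, e⟩ := hbij.2 ⟨c, hc⟩
    exact ⟨x.out, w, w.2, (congrArg Subtype.val e).symm⟩
  -- adjust the involution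
  set k : R := ⟨g * g, hg2⟩ with hk
  have hfk : f k = 1 := by
    show θ k * k⁻¹ = 1
    rw [mul_inv_eq_one]
    exact Subtype.ext (by show g * (g * g) * g⁻¹ = g * g; group)
  obtain ⟨a, w, hw, hkw⟩ := hCform k (hC'.2 (by rw [hfk, one_mul]))
  obtain ⟨y, rfl⟩ : w ∈ sq.range := hrange ▸ hw
  set t : R := a⁻¹ * y with ht
  have htC : t ∈ C := hC'.2 (by
    have h1 : f (f a) * (f y * f y) = 1 := by
      rw [← hfk, hkw, map_mul]; congr 1; exact (map_mul f y y).symm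
    have h2 := hff a
    rw [ht, map_mul, map_inv]
    calc (f a)⁻¹ * f y * ((f a)⁻¹ * f y)
        = (f (f a) * (f y * f y)) * (f (f a) * (f a * f a))⁻¹ := by
          rw [mul_inv, mul_inv]
          calc (f a)⁻¹ * f y * ((f a)⁻¹ * f y) = (f y * f y) * ((f a)⁻¹ * (f a)⁻¹) := by ac_rfl
            _ = (f (f a) * (f (f a))⁻¹) * ((f y * f y) * ((f a)⁻¹ * (f a)⁻¹)) := by
              rw [mul_inv_cancel, one_mul]
            _ = f (f a) * (f y * f y) * ((f (f a))⁻¹ * ((f a)⁻¹ * (f a)⁻¹)) := by ac_rfl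
      _ = 1 := by rw [h1, h2, inv_one, one_mul])
  set g' : Y := g * (a : Y)⁻¹ with hg'
  have hsq' : g' * g' = ((t * t : R) : Y) := by
    have e : g' * g' = ((θ a⁻¹ * k * a⁻¹ : R) : Y) := by
      show g * (a : Y)⁻¹ * (g * (a : Y)⁻¹) = g * ((a⁻¹ : R) : Y) * g⁻¹ * (g * g) * ((a⁻¹ : R) : Y)
      rw [Subgroup.coe_inv]; group
    rw [e, hkw, ht]
    congr 1
    show θ a⁻¹ * (θ a * a⁻¹ * (y * y)) * a⁻¹ = a⁻¹ * y * (a⁻¹ * y)
    calc θ a⁻¹ * (θ a * a⁻¹ * (y * y)) * a⁻¹ = (θ a⁻¹ * θ a) * (a⁻¹ * y * (a⁻¹ * y)) := by ac_rfl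
      _ = a⁻¹ * y * (a⁻¹ * y) := by rw [← map_mul, inv_mul_cancel, map_one, one_mul]
  set N₀ : Subgroup R := C.map sq with hN₀
  set N : Subgroup Y := N₀.map R.subtype with hN
  have hNmem : ∀ c : R, c ∈ C → ((c * c : R) : Y) ∈ N := fun c hc => ⟨c * c, ⟨c, hc, rfl⟩, rfl⟩
  have hfC2 : ∀ c : R, c ∈ C → f c ∈ N₀ := by
    intro c hc
    obtain ⟨y, hy⟩ : f c ∈ sq.range := hrange ▸ hΩ.2 (hC'.1 hc)
    refine ⟨y, hC'.2 ?_, hy⟩
    have h1 := hff c
    rw [hC'.1 hc, mul_one, ← hy] at h1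
    rw [← map_mul]
    exact h1
  have hN₀C : N₀ ≤ C := by rintro _ ⟨c, hc, rfl⟩; exact mul_mem hc hc
  have hcardN : Nat.card N = 4 := by
    have h1 := Subgroup.relIndex_mul_relIndex ⊥ Ω C bot_le hΩC
    rw [Subgroup.relIndex_bot_left, Subgroup.relIndex_bot_left, hΩ16, hC64, hΩdef,
      Subgroup.relIndex_ker] at h1
    rw [hN, Subgroup.card_map_of_injective R.subtype_injective, hN₀]
    omega
  set CY : Subgroup Y := C.map R.subtype with hCY
  have hCYmem : ∀ {c : R}, c ∈ C → (c : Y) ∈ CY := fun {c} hc => ⟨c, hc, rfl⟩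
  have hg'R : g' ∉ R := fun h => hgR (by
    have := mul_mem h a.2
    rwa [hg', inv_mul_cancel_right] at this)
  have hgc : ∀ c : R, g' * (c : Y) * g'⁻¹ = ((θ c : R) : Y) := fun c => by
    show g * (a : Y)⁻¹ * c * (g * (a : Y)⁻¹)⁻¹ = g * c * g⁻¹
    calc g * (a : Y)⁻¹ * c * (g * (a : Y)⁻¹)⁻¹ = g * ((a : Y)⁻¹ * c * a) * g⁻¹ := by group
      _ = g * c * g⁻¹ := by rw [hab _ (inv_mem a.2) c c.2, inv_mul_cancel_right]
  have hgnorm : g' ∈ Subgroup.normalizer (N : Set Y) := by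
    have h1 : ∀ n ∈ N, g' * n * g'⁻¹ ∈ N := by
      rintro _ ⟨n, hn, rfl⟩
      refine ⟨θ n, ?_, (hgc n).symm⟩
      rw [show θ n = f n * n by show θ n = θ n * n⁻¹ * n; rw [inv_mul_cancel_right]]
      exact mul_mem (hfC2 n (hN₀C hn)) hn
    refine Subgroup.mem_normalizer_iff.2 fun n => ⟨h1 n, fun hn => ?_⟩
    have h2 : g' * g' * n * (g' * g')⁻¹ ∈ N := by
      have := h1 _ hn
      convert this using 1
      group
    obtain ⟨m, hm, e⟩ := h2
    have hgg : g' * g' ∈ R := hsq'.symm ▸ (t * t).2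
    have hnR : n ∈ R := by
      have h3 : g' * g' * n * (g' * g')⁻¹ ∈ R := e ▸ m.2
      have := mul_mem (mul_mem (inv_mem hgg) h3) hgg
      convert this using 1
      group
    rw [hab _ hgg n hnR, mul_inv_cancel_right] at e
    exact ⟨m, hm, e⟩
  refine false_of_generators h4 N ((CY : Set Y) ∪ {g'}) ?_ ?_ ?_ ?_ ?_
  · rintro s (⟨c, hc, rfl⟩ | rfl)
    · refine Subgroup.mem_normalizer_iff.2 fun n => ⟨?_, fun hn => ?_⟩
      · rintro ⟨m, hm, rfl⟩
        exact ⟨m, hm, by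
          show (m : Y) = c * m * (c : Y)⁻¹
          rw [hab _ c.2 m m.2, mul_inv_cancel_right]⟩
      · obtain ⟨m, hm, e⟩ := hn
        change (m : Y) = (c : Y) * n * (c : Y)⁻¹ at e
        have hnR : n ∈ R := by
          have := mul_mem (mul_mem (inv_mem c.2) (e ▸ m.2 : (c : Y) * n * (c : Y)⁻¹ ∈ R)) c.2
          convert this using 1
          group
        rw [hab _ c.2 n hnR, mul_inv_cancel_right] at e
        exact ⟨m, hm, e⟩
    · exact hgnorm
  · rintro s (⟨c, hc, rfl⟩ | rfl)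
    · exact hNmem c hc
    · rw [hsq']; exact hNmem t htC
  · have hone : ∀ {x y : Y}, x ∈ R → y ∈ R → x * y * x⁻¹ * y⁻¹ = 1 := fun {x y} hx hy => by
      rw [hab x hx y hy, mul_inv_cancel_right, mul_inv_cancel]
    rintro s (⟨c, hc, rfl⟩ | rfl) u (⟨d, hd, rfl⟩ | rfl)
    · rw [show R.subtype c = (c : Y) from rfl, show R.subtype d = (d : Y) from rfl, hone c.2 d.2]
      exact one_mem N
    · show (c : Y) * g' * (c : Y)⁻¹ * g'⁻¹ ∈ N
      have h1 : (c : Y) * g' * (c : Y)⁻¹ * g'⁻¹ = (((f c)⁻¹ : R) : Y) := by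
        show _ = (((θ c * c⁻¹ : R) : Y))⁻¹
        rw [Subgroup.coe_mul, ← hgc c, Subgroup.coe_inv]
        group
      rw [h1]
      exact ⟨_, inv_mem (hfC2 c hc), rfl⟩
    · show g' * (d : Y) * g'⁻¹ * (d : Y)⁻¹ ∈ N
      rw [hgc d]
      exact ⟨f d, hfC2 d hd, rfl⟩
    · rw [mul_inv_cancel_right, mul_inv_cancel]
      exact one_mem N
  · rintro x ⟨c, hc, rfl⟩
    exact Or.inl ⟨c, hN₀C hc, rfl⟩
  · have hlt : CY < Subgroup.closure ((CY : Set Y) ∪ {g'}) := by
      refine lt_of_le_of_ne (fun x hx => Subgroup.subset_closure (Or.inl hx)) fun e => hg'R ?_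
      have : g' ∈ CY := e.symm ▸ Subgroup.subset_closure (Or.inr rfl)
      obtain ⟨c, -, e'⟩ := this
      exact e' ▸ c.2
    have h1 : Nat.card CY < Nat.card (Subgroup.closure ((CY : Set Y) ∪ {g'})) := by
      refine lt_of_le_of_ne (Subgroup.card_le_of_le hlt.le) fun e => hlt.ne ?_
      exact Subgroup.eq_of_le_of_card_ge hlt.le e.ge
    rw [hCY, Subgroup.card_map_of_injective R.subtype_injective, hC64] at h1
    rw [hcardN]
    exact h1

end Cfsg.Agent.H54.RadFour
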