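import Cfsg.Agent.H54.RadFour.Basic
import Cfsg.Agent.H50.AutGLEmbed
import Cfsg.Agent.H19.Misc

/-!
# A normal two-subgroup with faithful action on its Frattini quotient

The quotient maps, the passage to factor groups, and the squaring map from the Frattini quotient
to a central elementary abelian Frattini subgroup.
-/

set_option autoImplicit false
set_option linter.style.haveILetI false

namespace Cfsg.Agent.H54.RadFour

variable {Y Q : Type*} [Group Y] [Group Q] {π : Y →* Q}

/-- The Frattini subgroup of the kernel. -/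
def Phi (π : Y →* Q) : Subgroup Y := (frattini π.ker).map π.ker.subtype

/-- The standing situation. -/
structure Sit (π : Y →* Q) : Prop where
  surj : Function.Surjective π
  pgroup : IsPGroup 2 π.ker
  faithful : ∀ g : Y, (∀ v ∈ π.ker, g * v * g⁻¹ * v⁻¹ ∈ Phi π) → g ∈ π.ker
  rank : Cfsg.SectionalPRankLE 2 4 Y

/-- The Frattini quotient of the kernel. -/
abbrev VQ (π : Y →* Q) := π.ker ⧸ frattini π.ker

theorem Phi_le_ker : Phi π ≤ π.ker := Subgroup.map_subtype_le _

theorem Phi_normal : (Phi π).Normal := ConjAct.normal_of_characteristic_of_normal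

theorem coe_mem_Phi {r : π.ker} : (r : Y) ∈ Phi π ↔ r ∈ frattini π.ker :=
  ⟨fun ⟨_, hs, e⟩ => Subtype.ext e ▸ hs, fun h => ⟨r, h, rfl⟩⟩

namespace Sit

variable [Finite Y] (h : Sit π)
include h

theorem sq_mem {r : Y} (hr : r ∈ π.ker) : r * r ∈ Phi π := by
  have := (H19.commutator_pow_mem_frattini h.pgroup).2 ⟨r, hr⟩
  rw [pow_two] at this
  exact ⟨_, this, rfl⟩

theorem comm_mem {r s : Y} (hr : r ∈ π.ker) (hs : s ∈ π.ker) :
    r * s * r⁻¹ * s⁻¹ ∈ Phi π :=
  ⟨_, (H19.commutator_pow_mem_frattini h.pgroup).1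
    (Subgroup.commutator_mem_commutator (Subgroup.mem_top ⟨r, hr⟩) (Subgroup.mem_top ⟨s, hs⟩)), rfl⟩

/-- The Frattini subgroup is generated by squares. -/
theorem Phi_le (L : Subgroup Y) (hL : ∀ r ∈ π.ker, r * r ∈ L) : Phi π ≤ L := by
  rintro _ ⟨x, hx, rfl⟩
  refine Subgroup.mem_subgroupOf.1 ((?_ : frattini π.ker ≤ L.subgroupOf π.ker) hx)
  have hsq : ∀ r : π.ker, r * r ∈ L.subgroupOf π.ker := fun r =>
    Subgroup.mem_subgroupOf.2 (hL r r.2)
  refine H19.frattini_le_of_commutator_pow (p := 2) _ ?_ (fun r => by rw [pow_two]; exact hsq r)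
  rw [commutator_def, Subgroup.commutator_le]
  intro a _ b _
  rw [commutatorElement_def, show a * b * a⁻¹ * b⁻¹ =
    (a * b) * (a * b) * ((b⁻¹ * a⁻¹ * b) * (b⁻¹ * a⁻¹ * b)) * (b⁻¹ * b⁻¹) by group]
  exact mul_mem (mul_mem (hsq _) (hsq _)) (hsq _)

/-- Passing to a factor group by a normal subgroup of the Frattini subgroup. -/
theorem quotient (N : Subgroup Y) [N.Normal] (hN : N ≤ Phi π) :
    Sit (QuotientGroup.lift N π (hN.trans Phi_le_ker)) ∧
      (QuotientGroup.lift N π (hN.trans Phi_le_ker)).ker = π.ker.map (QuotientGroup.mk' N) ∧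
      Phi (QuotientGroup.lift N π (hN.trans Phi_le_ker)) = (Phi π).map (QuotientGroup.mk' N) := by
  set π' := QuotientGroup.lift N π (hN.trans Phi_le_ker) with hπ'
  set mk := QuotientGroup.mk' N with hmk
  have hker : π'.ker = π.ker.map mk := QuotientGroup.ker_lift _ _ _
  have hp' : IsPGroup 2 π'.ker := hker ▸ h.pgroup.map _
  have hmem : ∀ {g : Y}, mk g ∈ π'.ker ↔ g ∈ π.ker := fun {g} => Iff.rfl
  have hNn : N.Normal := inferInstance
  have hmkPhi : ∀ {g : Y}, mk g ∈ (Phi π).map mk → g ∈ Phi π := by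
    rintro g ⟨w, hw, e⟩
    have h1 : w⁻¹ * g ∈ N := QuotientGroup.eq.1 e
    have := mul_mem hw (hN h1)
    rwa [mul_inv_cancel_left] at this
  have hPhi : Phi π' = (Phi π).map mk := by
    refine le_antisymm ?_ ?_
    · rintro _ ⟨x, hx, rfl⟩
      refine Subgroup.mem_subgroupOf.1 ((?_ : frattini π'.ker ≤
        ((Phi π).map mk).subgroupOf π'.ker) hx)
      refine H19.frattini_le_of_commutator_pow (p := 2) _ ?_ ?_
      · rw [commutator_def, Subgroup.commutator_le]
        rintro ⟨a, ha⟩ _ ⟨b, hb⟩ _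
        obtain ⟨a, rfl⟩ := QuotientGroup.mk'_surjective N a
        obtain ⟨b, rfl⟩ := QuotientGroup.mk'_surjective N b
        refine Subgroup.mem_subgroupOf.2 ⟨_, h.comm_mem (hmem.1 ha) (hmem.1 hb), ?_⟩
        simp [commutatorElement_def, hmk]
      · rintro ⟨a, ha⟩
        obtain ⟨a, rfl⟩ := QuotientGroup.mk'_surjective N a
        refine Subgroup.mem_subgroupOf.2 ⟨_, h.sq_mem (hmem.1 ha), ?_⟩
        simp [pow_two, hmk]
    · rw [Subgroup.map_le_iff_le_comap]
      refine h.Phi_le _ fun r hr => ?_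
      have hr' := (H19.commutator_pow_mem_frattini hp').2 ⟨mk r, hmem.2 hr⟩
      rw [pow_two] at hr'
      exact ⟨_, hr', (map_mul mk r r).symm⟩
  refine ⟨⟨fun x => ?_, hp', ?_, ?_⟩, hker, hPhi⟩
  · obtain ⟨y, rfl⟩ := h.surj x
    exact ⟨mk y, rfl⟩
  · intro g hg
    obtain ⟨g, rfl⟩ := QuotientGroup.mk'_surjective N g
    refine hmem.2 (h.faithful g fun v hv => hmkPhi ?_)
    rw [map_mul, map_mul, map_mul, map_inv, map_inv, ← hPhi]
    exact hg (mk v) (hmem.2 hv)
  · intro H M hM A hA hAp
    haveI := hM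
    let r : ↥(H.comap mk) →* H := mk.subgroupComap H
    have hr : Function.Surjective r :=
      mk.subgroupComap_surjective_of_surjective H (QuotientGroup.mk'_surjective N)
    let ρ : ↥(H.comap mk) →* H ⧸ M := (QuotientGroup.mk' M).comp r
    let e : ↥(H.comap mk) ⧸ ρ.ker ≃* H ⧸ M :=
      QuotientGroup.quotientKerEquivOfSurjective ρ ((QuotientGroup.mk'_surjective M).comp hr)
    have h' := h.rank (H.comap mk) ρ.ker (A.map e.symm.toMonoidHom) ?_ ?_
    · rwa [Subgroup.card_map_of_injective e.symm.injective] at h'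
    · refine ⟨⟨fun a b => Subtype.ext ?_⟩⟩
      obtain ⟨_, a, ha, rfl⟩ := a
      obtain ⟨_, b, hb, rfl⟩ := b
      show e.symm a * e.symm b = e.symm b * e.symm a
      rw [← map_mul, ← map_mul, show a * b = b * a from
        congrArg Subtype.val (mul_comm' (⟨a, ha⟩ : A) ⟨b, hb⟩)]
    · rintro _ ⟨a, ha, rfl⟩
      rw [← map_pow, hAp a ha, map_one]

theorem card_ker_eq : Nat.card π.ker = Nat.card (VQ π) * Nat.card (Phi π) := by
  rw [Phi, Subgroup.card_map_of_injective π.ker.subtype_injective]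
  exact Subgroup.card_eq_card_quotient_mul_card_subgroup _

theorem card_VQ_le : Nat.card (VQ π) ≤ 16 := by
  by_contra hlt
  refine false_of_section h.rank π.ker (Phi π)
    (le_top.trans (Subgroup.normalizer_eq_top_iff.2 Phi_normal).ge) (fun r hr => h.sq_mem hr)
    Phi_le_ker ?_
  rw [h.card_ker_eq]
  exact Nat.mul_lt_mul_of_pos_right (by omega) Nat.card_pos

theorem mk_mul_self (r : π.ker) : (r : VQ π) * r = 1 := by
  rw [← QuotientGroup.mk_mul, QuotientGroup.eq_one_iff, ← coe_mem_Phi]
  exact h.sq_mem r.2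

/-- The Frattini quotient is elementary abelian. -/
@[reducible] noncomputable def commV : CommGroup (VQ π) :=
  { (inferInstance : Group (VQ π)) with
    mul_comm := fun a b => by
      have hinv : ∀ x : VQ π, x⁻¹ = x := fun x => inv_eq_of_mul_eq_one_left (by
        induction x using QuotientGroup.induction_on with
        | _ x => exact h.mk_mul_self x)
      rw [← hinv (a * b), mul_inv_rev, hinv, hinv] }

theorem mk_eq_one {r : π.ker} : (r : VQ π) = 1 ↔ (r : Y) ∈ Phi π := by
  rw [QuotientGroup.eq_one_iff, coe_mem_Phi]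

/-- The action of `Q` on the Frattini quotient of the kernel. -/
noncomputable def actV : Q →* MulAut (VQ π) :=
  (QuotientGroup.lift π.ker ((H50.quotientAutHom (frattini π.ker)).comp MulAut.conjNormal)
      (fun g hg => MulEquiv.ext fun v => by
        induction v using QuotientGroup.induction_on with
        | _ v =>
          show ((MulAut.conjNormal g v : π.ker) : VQ π) = (v : VQ π)
          rw [QuotientGroup.eq, ← coe_mem_Phi, Subgroup.coe_mul, Subgroup.coe_inv,
            MulAut.conjNormal_apply]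
          have := h.comm_mem hg (inv_mem v.2)
          rw [inv_inv] at this
          convert this using 1
          group)).comp
    (QuotientGroup.quotientKerEquivOfSurjective π h.surj).symm.toMonoidHom

theorem actV_apply (g : Y) (r : π.ker) :
    h.actV (π g) r = ((MulAut.conjNormal g r : π.ker) : VQ π) := by
  have e : (QuotientGroup.quotientKerEquivOfSurjective π h.surj).symm (π g) = (g : Y ⧸ π.ker) := by
    rw [MulEquiv.symm_apply_eq]
    rfl
  unfold actV
  rw [MonoidHom.comp_apply, MulEquiv.toMonoidHom_eq_coe, MonoidHom.coe_coe, e]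
  rfl

theorem actV_injective : Function.Injective h.actV := by
  rw [injective_iff_map_eq_one]
  intro x hx
  obtain ⟨g, rfl⟩ := h.surj x
  refine MonoidHom.mem_ker.1 (h.faithful g fun v hv => ?_)
  have h1 : h.actV (π g) ((⟨v, hv⟩ : π.ker) : VQ π) = ((⟨v, hv⟩ : π.ker) : VQ π) := by
    rw [hx]; rfl
  rw [h.actV_apply, eq_comm, QuotientGroup.eq, ← coe_mem_Phi, Subgroup.coe_mul, Subgroup.coe_inv,
    MulAut.conjNormal_apply] at h1
  have h2 := (Phi_normal (π := π)).conj_mem _ h1 v
  convert h2 using 1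
  group

/-- A minimal normal subgroup inside the kernel is central and elementary. -/
theorem central_of_minimal' (N : Subgroup Y) [N.Normal] (hNle : N ≤ π.ker)
    (hmin : ∀ L : Subgroup Y, L.Normal → L ≤ N → L = ⊥ ∨ L = N) :
    (∀ w ∈ N, ∀ r ∈ π.ker, w * r = r * w) ∧ ∀ w ∈ N, w * w = 1 := by
  haveI := Fact.mk Nat.prime_two
  rcases eq_or_ne (N) ⊥ with hb | hb
  · rw [hb]
    exact ⟨fun w hw r _ => by rw [Subgroup.mem_bot.1 hw, one_mul, mul_one],
      fun w hw => by rw [Subgroup.mem_bot.1 hw, one_mul]⟩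
  have hcen : N ≤ Subgroup.centralizer (π.ker : Set Y) := by
    have hC : (Subgroup.centralizer (π.ker : Set Y) ⊓ N).Normal := inferInstance
    rcases hmin _ hC inf_le_right with h1 | h1
    · exfalso
      have hne : (N).subgroupOf π.ker ≠ ⊥ := fun e => hb (by
        rw [← Subgroup.map_subgroupOf_eq_of_le hNle, e, Subgroup.map_bot])
      haveI : Nontrivial ↥((N).subgroupOf π.ker) := (Subgroup.nontrivial_iff_ne_bot _).2 hne
      haveI := h.pgroup.isNilpotent
      have hz : (N).subgroupOf π.ker ⊓ Subgroup.center π.ker ≠ ⊥ :=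
        H19.inf_center_ne_bot _ hne
      refine hz ((Subgroup.eq_bot_iff_forall _).2 fun x hx => ?_)
      obtain ⟨hx1, hx2⟩ := Subgroup.mem_inf.1 hx
      have hx3 : (x : Y) ∈ Subgroup.centralizer (π.ker : Set Y) ⊓ N :=
        Subgroup.mem_inf.2 ⟨Subgroup.mem_centralizer_iff.2 fun y hy =>
          congrArg Subtype.val (Subgroup.mem_center_iff.1 hx2 ⟨y, hy⟩), Subgroup.mem_subgroupOf.1 hx1⟩
      rw [h1] at hx3
      exact Subtype.ext (Subgroup.mem_bot.1 hx3)
    · exact inf_eq_right.1 h1
  have hc : ∀ w ∈ N, ∀ r ∈ π.ker, w * r = r * w := fun w hw r hr =>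
    (Subgroup.mem_centralizer_iff.1 (hcen hw) r hr).symm
  refine ⟨hc, ?_⟩
  set L : Subgroup Y :=
    { carrier := {w | w ∈ N ∧ w * w = 1}
      one_mem' := ⟨one_mem _, one_mul 1⟩
      mul_mem' := fun {a b} ha hb => ⟨mul_mem ha.1 hb.1, by
        calc a * b * (a * b) = a * (b * a) * b := by group
          _ = a * (a * b) * b := by rw [hc b hb.1 a (hNle ha.1)]
          _ = a * a * (b * b) := by group
          _ = 1 := by rw [ha.2, hb.2, one_mul]⟩
      inv_mem' := fun {a} ha => ⟨inv_mem ha.1, by rw [← mul_inv_rev, ha.2, inv_one]⟩ } with hL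
  have hLn : L.Normal := ⟨fun w hw g => ⟨(inferInstance : N.Normal).conj_mem w hw.1 g, by
    rw [show g * w * g⁻¹ * (g * w * g⁻¹) = g * (w * w) * g⁻¹ by group, hw.2, mul_one,
      mul_inv_cancel]⟩⟩
  rcases hmin L hLn (fun w hw => hw.1) with h1 | h1
  · exfalso
    have hpP : IsPGroup 2 (N) := h.pgroup.to_le hNle
    obtain ⟨w, hw⟩ : ∃ w : N, orderOf w = 2 := by
      refine exists_prime_orderOf_dvd_card' 2 ?_
      obtain ⟨j, hj⟩ := hpP.exists_card_eq
      rcases j with _ | j
      · exact absurd (Subgroup.card_eq_one.1 (by rw [hj, pow_zero])) hb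
      · rw [hj]; exact Dvd.intro_left _ (pow_succ 2 j).symm
    have hwL : (w : Y) ∈ L := ⟨w.2, by
      rw [← pow_two, ← Subgroup.coe_pow, ← hw, pow_orderOf_eq_one, Subgroup.coe_one]⟩
    rw [h1] at hwL
    have hw1 : w = 1 := Subtype.ext (Subgroup.mem_bot.1 hwL)
    rw [hw1, orderOf_one] at hw
    omega
  · intro w hw
    rw [← h1] at hw
    exact hw.2

/-- A minimal Frattini subgroup is central and elementary. -/
theorem central_of_minimal (hmin : ∀ L : Subgroup Y, L.Normal → L ≤ Phi π → L = ⊥ ∨ L = Phi π) :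
    (∀ w ∈ Phi π, ∀ r ∈ π.ker, w * r = r * w) ∧ ∀ w ∈ Phi π, w * w = 1 :=
  haveI := Phi_normal (π := π)
  h.central_of_minimal' (Phi π) Phi_le_ker hmin

/-- The action of `Q` on a normal subgroup centralised by the kernel. -/
noncomputable def actOn (N : Subgroup Y) [N.Normal] (hN : ∀ w ∈ N, ∀ r ∈ π.ker, w * r = r * w) :
    Q →* MulAut N :=
  (QuotientGroup.lift π.ker (MulAut.conjNormal (H := N))
      (fun g hg => MulEquiv.ext fun w => Subtype.ext (by
        show g * (w : Y) * g⁻¹ = w
        rw [← hN w w.2 g hg, mul_inv_cancel_right]))).comp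
    (QuotientGroup.quotientKerEquivOfSurjective π h.surj).symm.toMonoidHom

theorem actOn_apply (N : Subgroup Y) [N.Normal] (hN : ∀ w ∈ N, ∀ r ∈ π.ker, w * r = r * w)
    (g : Y) (w : N) : ((h.actOn N hN (π g) w : N) : Y) = g * w * g⁻¹ := by
  have e : (QuotientGroup.quotientKerEquivOfSurjective π h.surj).symm (π g) = (g : Y ⧸ π.ker) := by
    rw [MulEquiv.symm_apply_eq]
    rfl
  unfold actOn
  rw [MonoidHom.comp_apply, MulEquiv.toMonoidHom_eq_coe, MonoidHom.coe_coe, e]
  rfl

section Central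

variable (hcen : ∀ w ∈ Phi π, ∀ r ∈ π.ker, w * r = r * w)
include hcen

/-- The Frattini subgroup as a commutative group. -/
@[reducible] noncomputable def commW : CommGroup (Phi π) :=
  { (inferInstance : Group (Phi π)) with
    mul_comm := fun a b => Subtype.ext (hcen a a.2 b (Phi_le_ker b.2)) }

/-- The action of `Q` on a central Frattini subgroup. -/
noncomputable def actW : Q →* MulAut (Phi π) :=
  haveI := Phi_normal (π := π)
  (QuotientGroup.lift π.ker (MulAut.conjNormal (H := Phi π))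
      (fun g hg => MulEquiv.ext fun w => Subtype.ext (by
        show g * (w : Y) * g⁻¹ = w
        rw [← hcen w w.2 g hg, mul_inv_cancel_right]))).comp
    (QuotientGroup.quotientKerEquivOfSurjective π h.surj).symm.toMonoidHom

theorem actW_apply (g : Y) (w : Phi π) :
    ((h.actW hcen (π g) w : Phi π) : Y) = g * w * g⁻¹ := by
  haveI := Phi_normal (π := π)
  have e : (QuotientGroup.quotientKerEquivOfSurjective π h.surj).symm (π g) = (g : Y ⧸ π.ker) := by
    rw [MulEquiv.symm_apply_eq]
    rfl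
  unfold actW
  rw [MonoidHom.comp_apply, MulEquiv.toMonoidHom_eq_coe, MonoidHom.coe_coe, e]
  rfl

variable (h2 : ∀ w ∈ Phi π, w * w = 1)
include h2

/-- Squaring, from the Frattini quotient to the Frattini subgroup. -/
noncomputable def sqMap : VQ π → Phi π :=
  fun v => Quotient.liftOn' v (fun r => (⟨(r : Y) * r, h.sq_mem r.2⟩ : Phi π))
    (fun r s hrs => Subtype.ext (by
      rw [QuotientGroup.leftRel_apply, ← coe_mem_Phi, Subgroup.coe_mul, Subgroup.coe_inv] at hrs
      show (r : Y) * r = s * s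
      set w := (r : Y)⁻¹ * s with hw
      have e : (s : Y) = r * w := by rw [hw, mul_inv_cancel_left]
      rw [e]
      calc (r : Y) * r = r * r * (w * w) := by rw [h2 w hrs, mul_one]
        _ = r * (r * w) * w := by group
        _ = r * (w * r) * w := by rw [hcen w hrs r r.2]
        _ = r * w * (r * w) := by group))

theorem sqMap_mk (r : π.ker) : ((h.sqMap hcen h2 (r : VQ π) : Phi π) : Y) = r * r := rfl

theorem qmap : @QMap Q (VQ π) (Phi π) _ h.commV (commW hcen) h.actV (h.actW hcen)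
    (h.sqMap hcen h2) := by
  letI := h.commV
  letI := commW hcen
  refine ⟨⟨fun v => ?_, fun w => Subtype.ext (h2 w w.2), fun x v => ?_, fun x y z => ?_⟩, ?_⟩
  · induction v using QuotientGroup.induction_on with
    | _ v => exact h.mk_mul_self v
  · obtain ⟨g, rfl⟩ := h.surj x
    induction v using QuotientGroup.induction_on with
    | _ v =>
      apply Subtype.ext
      rw [h.actV_apply, h.sqMap_mk, h.actW_apply, h.sqMap_mk, MulAut.conjNormal_apply]
      group
  · induction x using QuotientGroup.induction_on with | _ x =>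
    induction y using QuotientGroup.induction_on with | _ y =>
    induction z using QuotientGroup.induction_on with | _ z =>
    -- the commutator is bilinear
    let κ : Y → Y → Y := fun r s => r⁻¹ * s * r * s⁻¹
    have hκ : ∀ {r s : Y}, r ∈ π.ker → s ∈ π.ker → κ r s ∈ Phi π := fun {r s} hr hs => by
      have := h.comm_mem (inv_mem hr) hs
      rwa [inv_inv] at this
    have hsq : ∀ {r s : Y}, r ∈ π.ker → s ∈ π.ker →
        r * s * (r * s) = (r * r) * (s * s) * κ r s := fun {r s} hr hs => by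
      calc r * s * (r * s) = r * r * κ r s * (s * s) := by simp only [κ]; group
        _ = (r * r) * (s * s) * κ r s := by
          rw [mul_assoc, hcen _ (hκ hr hs) _ (mul_mem hs hs), ← mul_assoc]
    have hbil : κ (x * y : Y) z = κ x z * κ y z := by
      calc κ (x * y : Y) z = (y : Y)⁻¹ * κ x z * (z * y * (z : Y)⁻¹) := by simp only [κ]; group
        _ = κ x z * (y : Y)⁻¹ * (z * y * (z : Y)⁻¹) := by
          rw [hcen _ (hκ x.2 z.2) _ (inv_mem y.2)]
        _ = κ x z * κ y z := by simp only [κ]; group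
    let a : Phi π := ⟨_, h.sq_mem x.2⟩
    let b : Phi π := ⟨_, h.sq_mem y.2⟩
    let c : Phi π := ⟨_, h.sq_mem z.2⟩
    let kxy : Phi π := ⟨_, hκ x.2 y.2⟩
    let kxz : Phi π := ⟨_, hκ x.2 z.2⟩
    let kyz : Phi π := ⟨_, hκ y.2 z.2⟩
    have qx : h.sqMap hcen h2 (x : VQ π) = a := rfl
    have qy : h.sqMap hcen h2 (y : VQ π) = b := rfl
    have qz : h.sqMap hcen h2 (z : VQ π) = c := rfl
    have qxy : h.sqMap hcen h2 ((x : VQ π) * y) = a * b * kxy := Subtype.ext (hsq x.2 y.2)
    have qyz : h.sqMap hcen h2 ((y : VQ π) * z) = b * c * kyz := Subtype.ext (hsq y.2 z.2)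
    have qxz : h.sqMap hcen h2 ((x : VQ π) * z) = a * c * kxz := Subtype.ext (hsq x.2 z.2)
    have qxyz : h.sqMap hcen h2 ((x : VQ π) * y * z) = a * b * kxy * c * (kxz * kyz) :=
      Subtype.ext ((hsq (mul_mem x.2 y.2) z.2).trans (by rw [hbil, hsq x.2 y.2]; rfl))
    rw [qx, qy, qz, qxy, qyz, qxz, qxyz]
    ac_rfl
  · intro L hL
    refine eq_top_iff.2 fun w _ => ?_
    have : Phi π ≤ L.map (Phi π).subtype := h.Phi_le _ fun r hr =>
      ⟨_, hL ((⟨r, hr⟩ : π.ker) : VQ π), rfl⟩
    obtain ⟨w', hw', e⟩ := this w.2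
    exact Subtype.ext e ▸ hw'

end Central

end Sit

end Cfsg.Agent.H54.RadFour
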