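import Cfsg.Agent.H54.RadFour.AltFiveQuad
import Cfsg.Agent.H54.RadFour.Sit
import Cfsg.Agent.H54.RadFour.Homocyclic
import Cfsg.Agent.H6.GroupLemmas

/-!
# The two-radical when the factor group is the alternating group on five letters
-/

set_option autoImplicit false
set_option linter.style.haveILetI false

namespace Cfsg.Agent.H54.RadFour.Five

open Equiv

theorem isSimpleGroup_A5 : IsSimpleGroup A5 := alternatingGroup.isSimpleGroup (α := Fin 5) (by simp)

section Reps

variable {W : Type*} [CommGroup W] [Finite W]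

/-- An action on a small elementary group is faithful on sixteen points or trivial. -/
theorem trivial_or_mod (ψ : A5 →* MulAut W) (h2 : ∀ w : W, w * w = 1) (hle : Nat.card W ≤ 16) :
    (∀ g w, ψ g w = w) ∨ Mod ψ := by
  haveI := isSimpleGroup_A5
  rcases IsSimpleGroup.eq_bot_or_eq_top_of_normal ψ.ker inferInstance with hb | hb
  · right
    refine ⟨(MonoidHom.ker_eq_bot_iff ψ).1 hb, ?_, h2⟩
    haveI : Fact (Nat.Prime 5) := ⟨by norm_num⟩
    have h1 := card_modEq_fix ψ pf_pow
    rw [Nat.ModEq] at h1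
    obtain ⟨n, hn⟩ := card_pow_two h2
    obtain ⟨m, hm⟩ := card_subgroup_cases h2 (fixSet ψ {pf})
    have hdvd := Subgroup.card_subgroup_dvd_card (fixSet ψ {pf})
    have hne : Nat.card (fixSet ψ {pf}) ≠ Nat.card W := fun e => pf_ne ((MonoidHom.ker_eq_bot_iff ψ).1 hb (by
      rw [map_one]
      exact MulEquiv.ext fun w =>
        (mem_fixSet_singleton ψ).1 ((Subgroup.eq_top_of_card_eq _ e).symm ▸ Subgroup.mem_top w)))
    rw [hn] at h1 hdvd hne hle ⊢
    rw [hm] at h1 hdvd hne
    have hn4 : n ≤ 4 := by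
      by_contra hlt
      have := Nat.pow_le_pow_right (show 2 > 0 by norm_num) (show 5 ≤ n by omega)
      omega
    have hmn : m ≤ n := (Nat.pow_dvd_pow_iff_le_right (by norm_num)).1 hdvd
    interval_cases n <;> interval_cases m <;> simp_all
  · left
    intro g w
    rw [MonoidHom.mem_ker.1 (show g ∈ ψ.ker from hb ▸ Subgroup.mem_top g)]
    rfl

end Reps

variable {Y : Type*} [Group Y] [Finite Y] {π : Y →* A5}

theorem mod_actV (h : Sit π) : @Mod (VQ π) h.commV h.actV := by
  letI := h.commV
  refine (trivial_or_mod h.actV (fun v => ?_) h.card_VQ_le).resolve_left fun htriv => pf_ne ?_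
  · induction v using QuotientGroup.induction_on with
    | _ v => exact h.mk_mul_self v
  · refine h.actV_injective ?_
    rw [map_one]
    exact MulEquiv.ext fun v => htriv pf v

/-- An invariant subgroup of index at most two is everything. -/
theorem eq_top_of_index_two {V : Type*} [CommGroup V] [Finite V] {φ : A5 →* MulAut V} (M : Mod φ)
    (K : Subgroup V) (hinv : ∀ v ∈ K, φ pf v ∈ K) (h2 : ∀ x y, x ∉ K → y ∉ K → x⁻¹ * y ∈ K) :
    K = ⊤ := by
  refine (M.irreducible K hinv).resolve_left fun hb => ?_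
  subst hb
  have hsub : ∀ x y : V, x ≠ 1 → y ≠ 1 → x = y := fun x y hx hy =>
    inv_mul_eq_one.1 (Subgroup.mem_bot.1 (h2 x y hx hy))
  have : Nat.card V ≤ 2 := by
    classical
    haveI := Fintype.ofFinite V
    rw [Nat.card_eq_fintype_card]
    refine Fintype.card_le_of_injective (fun x : V => decide (x = 1)) ?_ |>.trans (by simp)
    intro x y e
    have e' : (x = 1 ↔ y = 1) := by simpa using e
    by_cases hx : x = 1
    · rw [hx, e'.1 hx]
    · exact hsub x y hx (fun hy => hx (e'.2 hy))
  rw [M.card] at this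
  omega

/-- When the Frattini subgroup is a chief factor it has order two. -/
theorem card_Phi_of_minimal (h : Sit π)
    (hmin : ∀ L : Subgroup Y, L.Normal → L ≤ Phi π → L = ⊥ ∨ L = Phi π) (hne : Phi π ≠ ⊥) :
    Nat.card (Phi π) = 2 := by
  classical
  obtain ⟨hcen, h2⟩ := h.central_of_minimal hmin
  letI := h.commV
  letI := Sit.commW hcen
  have Mv := mod_actV h
  have Q := h.qmap hcen h2
  have hW1 : (∀ w : Phi π, w = 1) → False := fun hall => hne ((Subgroup.eq_bot_iff_forall _).2
    fun w hw => congrArg Subtype.val (hall ⟨w, hw⟩))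
  have hcard16 : Nat.card (Phi π) ≤ 16 := by
    by_contra hlt
    refine false_of_section h.rank (Phi π) ⊥
      (le_top.trans (Subgroup.normalizer_eq_top_iff.2 inferInstance).ge)
      (fun w hw => Subgroup.mem_bot.2 (h2 w hw)) bot_le ?_
    rw [Subgroup.card_bot]
    omega
  rcases trivial_or_mod (h.actW hcen) Q.w2 hcard16 with htriv | Mw
  · rcases Mv.point_or_linear with ⟨v, hv⟩ | hl
    · obtain ⟨B, -, -, hB⟩ := q_point_trivial Q Mv htriv hv
      have hW2 := Q.card_le_two_of_range hB
      haveI := Fintype.ofFinite (Phi π)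
      have h1 : Nat.card (Phi π) ≤ 2 := by
        rw [Nat.card_eq_fintype_card]
        refine (Fintype.card_le_of_injective (fun w : Phi π => decide (w = 1)) ?_).trans (by simp)
        intro x y e
        have e' : (x = 1 ↔ y = 1) := by simpa using e
        rcases hW2 x with hx | hx
        · rw [hx, e'.1 hx]
        · rcases hW2 y with hy | hy
          · rw [e'.2 hy, hy]
          · rw [hx, hy]
      have h3 : 1 < Nat.card (Phi π) := (Subgroup.one_lt_card_iff_ne_bot _).2 hne
      omega
    · exact (hW1 (Q.subsingleton_of_q (q_linear_trivial Q Mv htriv hl))).elim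
  exfalso
  rcases q_faithful Q Mv Mw with ⟨hpol, hbij⟩ | ⟨L, hL, w, hw⟩
  · obtain ⟨g, hg⟩ := h.surj pa
    have hgker : g ∉ π.ker := fun hk => (show pa ≠ 1 by decide +kernel) (hg ▸ MonoidHom.mem_ker.1 hk)
    have hab : ∀ a ∈ π.ker, ∀ b ∈ π.ker, a * b = b * a := by
      intro a ha b hb
      have h1 := congrArg Subtype.val (Q.q_mul_of_polar hpol ((⟨a, ha⟩ : π.ker) : VQ π)
        ((⟨b, hb⟩ : π.ker) : VQ π))
      rw [← QuotientGroup.mk_mul, h.sqMap_mk] at h1
      have h2' : a * b * (a * b) = a * a * (b * b) := h1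
      have h3 : b * a = a * b := by
        calc b * a = a⁻¹ * (a * b * (a * b)) * b⁻¹ := by group
          _ = a⁻¹ * (a * a * (b * b)) * b⁻¹ := by rw [h2']
          _ = a * b := by group
      exact h3.symm
    refine false_of_homocyclic h.rank π.ker hab ?_ ?_ ?_ g hgker ?_ ?_ ?_
    · rw [h.card_ker_eq, Mv.card, Mw.card]
    · exact fun a ha => h2 _ (h.sq_mem ha)
    · intro a ha ha2
      have h1 : h.sqMap hcen h2 ((⟨a, ha⟩ : π.ker) : VQ π) = 1 := Subtype.ext ha2
      have hPhi : a ∈ Phi π := h.mk_eq_one.1 (hbij.1 (h1.trans Q.q_one.symm))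
      obtain ⟨v, hv⟩ := hbij.2 ⟨a, hPhi⟩
      induction v using QuotientGroup.induction_on with
      | _ v => exact ⟨v, v.2, congrArg Subtype.val hv⟩
    · rw [MonoidHom.mem_ker, map_mul, hg, pa_sq]
    · exact fun a ha => (inferInstance : π.ker.Normal).conj_mem a ha g
    · let K : Subgroup π.ker := (fixSet h.actV {pa}).comap (QuotientGroup.mk' (frattini π.ker))
      have hmem : ∀ a : π.ker, (g * a * g⁻¹ * (a : Y)⁻¹) * (g * a * g⁻¹ * (a : Y)⁻¹) = 1 ↔ a ∈ K := by
        intro a
        have hgr : g * a * g⁻¹ * (a : Y)⁻¹ ∈ π.ker :=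
          mul_mem ((inferInstance : π.ker.Normal).conj_mem _ a.2 g) (inv_mem a.2)
        have hiff : (g * a * g⁻¹ * (a : Y)⁻¹) ∈ Phi π ↔
            (g * a * g⁻¹ * (a : Y)⁻¹) * (g * a * g⁻¹ * (a : Y)⁻¹) = 1 := by
          refine ⟨h2 _, fun e => ?_⟩
          have h1 : h.sqMap hcen h2 ((⟨_, hgr⟩ : π.ker) : VQ π) = 1 := Subtype.ext e
          exact h.mk_eq_one.1 (hbij.1 (h1.trans Q.q_one.symm))
        rw [← hiff, Subgroup.mem_comap, mem_fixSet_singleton, ← hg, QuotientGroup.mk'_apply,
          h.actV_apply, eq_comm, QuotientGroup.eq, ← coe_mem_Phi, Subgroup.coe_mul, Subgroup.coe_inv,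
          MulAut.conjNormal_apply]
        have hn := Phi_normal (π := π)
        constructor
        · intro e
          have := hn.conj_mem _ e (a : Y)⁻¹
          convert this using 1
          group
        · intro e
          have := hn.conj_mem _ e (a : Y)
          convert this using 1
          group
      rw [Nat.card_congr (Equiv.subtypeEquivRight hmem)]
      have h1 := Subgroup.card_mul_index K
      rw [Subgroup.index_comap_of_surjective _ (QuotientGroup.mk'_surjective _), h.card_ker_eq,
        Mv.card, Mw.card] at h1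
      have h3 := Subgroup.card_mul_index (fixSet h.actV {pa})
      rw [Mv.card_fix_pa, Mv.card] at h3
      have h5 : (fixSet h.actV {pa}).index = 4 := by omega
      rw [h5] at h1
      show Nat.card K = 64
      omega
  · let H0 : Subgroup π.ker := L.comap (QuotientGroup.mk' (frattini π.ker))
    let H : Subgroup Y := H0.map π.ker.subtype
    let N : Subgroup Y := Subgroup.zpowers (w : Y)
    have hwc : ∀ r ∈ π.ker, (w : Y) * r = r * w := hcen w w.2
    have hNle : N ≤ Phi π := Subgroup.zpowers_le.2 w.2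
    refine false_of_section h.rank H N ?_ ?_ ?_ ?_
    · rintro _ ⟨r, -, rfl⟩
      refine Subgroup.centralizer_le_normalizer _ (Subgroup.mem_centralizer_iff.2 fun n hn => ?_)
      exact hcen n (hNle hn) _ r.2
    · rintro _ ⟨r, hr, rfl⟩
      rcases hw _ hr with e | e
      · exact (show (r : Y) * r = 1 from congrArg Subtype.val e).symm ▸ one_mem N
      · exact (show (r : Y) * r = w from congrArg Subtype.val e).symm ▸ Subgroup.mem_zpowers _
    · refine hNle.trans ?_
      rintro _ ⟨x, hx, rfl⟩
      refine ⟨x, ?_, rfl⟩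
      show (x : VQ π) ∈ L
      rw [h.mk_eq_one.2 ⟨x, hx, rfl⟩]
      exact one_mem L
    · have hN : Nat.card N ≤ 2 := by
        rw [Nat.card_zpowers]
        exact Nat.le_of_dvd (by norm_num) (orderOf_dvd_of_pow_eq_one (by rw [pow_two]; exact h2 _ w.2))
      have h1 : Nat.card H = 64 := by
        have h3 := Subgroup.card_mul_index H0
        rw [Subgroup.index_comap_of_surjective _ (QuotientGroup.mk'_surjective _), h.card_ker_eq,
          Mv.card, Mw.card] at h3
        have h5 := Subgroup.card_mul_index L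
        rw [hL, Mv.card] at h5
        rw [show Nat.card H = Nat.card H0 from
          Subgroup.card_map_of_injective π.ker.subtype_injective]
        have h6 : L.index = 4 := by omega
        rw [h6] at h3
        omega
      omega

/-- The Frattini subgroup has no further chief factor. -/
theorem false_of_two_steps (h : Sit π) (N : Subgroup Y) [N.Normal] (hN : N ≤ Phi π) (hne : N ≠ ⊥)
    (hidx : Nat.card (Phi π) = 2 * Nat.card N)
    (hmin : ∀ L : Subgroup Y, L.Normal → L ≤ N → L = ⊥ ∨ L = N) : False := by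
  classical
  obtain ⟨hcN, h2N⟩ := h.central_of_minimal' N (hN.trans Phi_le_ker) hmin
  have Mv := mod_actV h
  obtain ⟨z, hz, hzN⟩ : ∃ z ∈ Phi π, z ∉ N := by
    by_contra hall
    push Not at hall
    have := Subgroup.card_le_of_le hall
    have := Nat.card_pos (α := N)
    omega
  -- the nontrivial coset
  have hcoset : ∀ w ∈ Phi π, w ∉ N → z⁻¹ * w ∈ N := by
    have hi : (N.subgroupOf (Phi π)).index = 2 := by
      have h1 := Subgroup.card_mul_index (N.subgroupOf (Phi π))
      rw [Nat.card_congr (Subgroup.subgroupOfEquivOfLe hN).toEquiv, hidx] at h1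
      have := Nat.card_pos (α := N)
      nlinarith
    intro w hw hwN
    have := (Subgroup.mul_mem_iff_of_index_two hi (a := ⟨z, hz⟩⁻¹) (b := ⟨w, hw⟩)).2 (by
      simp only [Subgroup.inv_mem_iff]
      exact iff_of_false (fun e => hzN (Subgroup.mem_subgroupOf.1 e))
        (fun e => hwN (Subgroup.mem_subgroupOf.1 e)))
    exact Subgroup.mem_subgroupOf.1 this
  have hform : ∀ w ∈ Phi π, w ∈ N ∨ ∃ n ∈ N, w = z * n := fun w hw => by
    by_cases hwN : w ∈ N
    · exact Or.inl hwN
    · exact Or.inr ⟨_, hcoset w hw hwN, (mul_inv_cancel_left z w).symm⟩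
  have hzk : z ∈ π.ker := Phi_le_ker hz
  have hconj : ∀ g : Y, ∃ n ∈ N, g * z * g⁻¹ = z * n := fun g =>
    (hform _ (Phi_normal.conj_mem z hz g)).resolve_left fun hc => hzN (by
      have := (inferInstance : N.Normal).conj_mem _ hc g⁻¹
      convert this using 1
      group)
  have hab : ∀ a ∈ Phi π, ∀ b ∈ Phi π, a * b = b * a := by
    intro a ha b hb
    rcases hform a ha with ha' | ⟨n, hn, rfl⟩
    · exact hcN a ha' b (Phi_le_ker hb)
    rcases hform b hb with hb' | ⟨m, hm, rfl⟩
    · exact (hcN b hb' _ (Phi_le_ker ha)).symm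
    calc z * n * (z * m) = z * (n * z) * m := by group
      _ = z * z * (n * m) := by rw [hcN n hn z hzk]; group
      _ = z * z * (m * n) := by rw [hcN n hn m (Phi_le_ker (hN hm))]
      _ = z * (m * z) * n := by rw [hcN m hm z hzk]; group
      _ = z * m * (z * n) := by group
  have hzz : z * z ∈ N := by
    by_contra hzz
    have h1 := hcoset _ (mul_mem hz hz) hzz
    rw [inv_mul_cancel_left] at h1
    exact hzN h1
  have hsqz : ∀ n ∈ N, z * n * (z * n) = z * z := fun n hn => by
    calc z * n * (z * n) = z * (n * z) * n := by group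
      _ = z * z * (n * n) := by rw [hcN n hn z hzk]; group
      _ = z * z := by rw [h2N n hn, mul_one]
  have hfixzz : ∀ g : Y, g * (z * z) * g⁻¹ = z * z := fun g => by
    obtain ⟨n, hn, e⟩ := hconj g
    rw [show g * (z * z) * g⁻¹ = (g * z * g⁻¹) * (g * z * g⁻¹) by group, e, hsqz n hn]
  letI : CommGroup N :=
    { (inferInstance : Group N) with
      mul_comm := fun a b => Subtype.ext (hcN a a.2 b ((hN.trans Phi_le_ker) b.2)) }
  have hN16 : Nat.card N ≤ 16 := by
    by_contra hlt
    refine false_of_section h.rank N ⊥ (le_top.trans (Subgroup.normalizer_eq_top_iff.2 inferInstance).ge)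
      (fun w hw => Subgroup.mem_bot.2 (h2N w hw)) bot_le ?_
    rw [Subgroup.card_bot]
    omega
  rcases trivial_or_mod (h.actOn N hcN) (fun w => Subtype.ext (h2N w w.2)) hN16 with htriv | MN
  swap
  · -- an elementary abelian subgroup of order thirty two
    have hz1 : z * z = 1 := by
      obtain ⟨g, hg⟩ := h.surj pf
      have h1 : h.actOn N hcN pf ⟨z * z, hzz⟩ = ⟨z * z, hzz⟩ := Subtype.ext (by
        rw [← hg, h.actOn_apply]
        exact hfixzz g)
      exact congrArg Subtype.val (MN.eq_one_of_fixed h1)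
    refine false_of_section h.rank (Phi π) ⊥
      (le_top.trans (Subgroup.normalizer_eq_top_iff.2 inferInstance).ge) ?_ bot_le ?_
    · intro w hw
      rw [Subgroup.mem_bot]
      rcases hform w hw with hw' | ⟨n, hn, rfl⟩
      · exact h2N w hw'
      · rw [hsqz n hn, hz1]
    · rw [Subgroup.card_bot, hidx, MN.card]
      norm_num
  -- now `N` is central in `Y`, of order two
  have hNc : ∀ n ∈ N, ∀ g : Y, g * n * g⁻¹ = n := fun n hn g => by
    have h1 := congrArg Subtype.val (htriv (π g) ⟨n, hn⟩)
    rwa [h.actOn_apply] at h1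
  obtain ⟨w, hw, hw1⟩ := (Subgroup.bot_or_exists_ne_one N).resolve_left hne
  have hNw : ∀ n ∈ N, n = 1 ∨ n = w := by
    intro n hn
    have hLn : (Subgroup.zpowers w).Normal := ⟨fun x hx g => by
      obtain ⟨i, rfl⟩ := hx
      rw [hNc _ (zpow_mem hw i) g]
      exact Subgroup.zpow_mem_zpowers w i⟩
    rcases hmin _ hLn (Subgroup.zpowers_le.2 hw) with e | e
    · exact absurd (Subgroup.zpowers_eq_bot.1 e) hw1
    rw [← e] at hn
    obtain ⟨i, rfl⟩ := hn
    rcases Int.even_or_odd i with ⟨j, rfl⟩ | ⟨j, rfl⟩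
    · left
      show w ^ (j + j) = 1
      rw [zpow_add, ← (Commute.refl w).mul_zpow, h2N w hw, one_zpow]
    · right
      show w ^ (2 * j + 1) = w
      rw [zpow_add, zpow_mul, zpow_two, h2N w hw, one_zpow, one_mul, zpow_one]
  have hN2 : Nat.card N = 2 := by
    haveI := Fintype.ofFinite N
    have h1 : Nat.card N ≤ 2 := by
      rw [Nat.card_eq_fintype_card]
      refine (Fintype.card_le_of_injective (fun x : N => decide ((x : Y) = 1)) ?_).trans (by simp)
      intro x y e
      have e' : ((x : Y) = 1 ↔ (y : Y) = 1) := by simpa using e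
      apply Subtype.ext
      rcases hNw x x.2 with hx | hx
      · rw [hx, e'.1 hx]
      · rcases hNw y y.2 with hy | hy
        · rw [e'.2 hy, hy]
        · rw [hx, hy]
    have h3 : 1 < Nat.card N := (Subgroup.one_lt_card_iff_ne_bot _).2 hne
    omega
  letI := h.commV
  -- the kernel centralises `z`
  have hzc : ∀ r ∈ π.ker, z * r = r * z := by
    let C : Subgroup π.ker := (Subgroup.centralizer ({z} : Set Y)).subgroupOf π.ker
    let K : Subgroup (VQ π) := C.map (QuotientGroup.mk' (frattini π.ker))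
    have hCmem : ∀ {r : π.ker}, r ∈ C ↔ (r : Y) * z = z * r := fun {r} =>
      Subgroup.mem_centralizer_singleton_iff
    have hKmem : ∀ {r : π.ker}, (r : VQ π) ∈ K ↔ r ∈ C := fun {r} => by
      refine ⟨?_, fun hr => ⟨r, hr, rfl⟩⟩
      rintro ⟨s, hs, e⟩
      have h1 : (((s⁻¹ * r : π.ker) : π.ker) : Y) ∈ Phi π := coe_mem_Phi.2 (QuotientGroup.eq.1 e)
      have h3 : s⁻¹ * r ∈ C := hCmem.2 (hab _ h1 z hz)
      have := mul_mem hs h3
      rwa [mul_inv_cancel_left] at this
    have hK : K = ⊤ := by
      refine eq_top_of_index_two Mv K ?_ ?_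
      · intro v hv
        obtain ⟨g, hg⟩ := h.surj pf
        induction v using QuotientGroup.induction_on with
        | _ r =>
          rw [← hg, h.actV_apply, hKmem, hCmem, MulAut.conjNormal_apply]
          obtain ⟨n, hn, e⟩ := hconj g⁻¹
          rw [inv_inv] at e
          have hr := hCmem.1 (hKmem.1 hv)
          calc g * (r : Y) * g⁻¹ * z = g * ((r : Y) * (g⁻¹ * z * g)) * g⁻¹ := by group
            _ = g * ((g⁻¹ * z * g) * r) * g⁻¹ := by
              rw [e]
              congr 2
              calc (r : Y) * (z * n) = z * ((r : Y) * n) := by rw [← mul_assoc, hr, mul_assoc]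
                _ = z * n * r := by rw [← hcN n hn r r.2, mul_assoc]
            _ = z * (g * r * g⁻¹) := by group
      · intro x y hx hy
        induction x using QuotientGroup.induction_on with | _ r =>
        induction y using QuotientGroup.induction_on with | _ s =>
        rw [← QuotientGroup.mk_inv, ← QuotientGroup.mk_mul, hKmem, hCmem]
        have key : ∀ {r : π.ker}, r ∉ C → (r : Y) * z * (r : Y)⁻¹ = z * w := by
          intro r hr
          obtain ⟨n, hn, e⟩ := hconj r
          rcases hNw n hn with rfl | rfl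
          · exact absurd (hCmem.2 (by rw [mul_one, mul_inv_eq_iff_eq_mul] at e; exact e)) hr
          · exact e
        have e1 := key (fun hh => hx (hKmem.2 hh))
        have e2 := key (fun hh => hy (hKmem.2 hh))
        rw [Subgroup.coe_mul, Subgroup.coe_inv]
        calc (r : Y)⁻¹ * s * z = (r : Y)⁻¹ * ((s : Y) * z * (s : Y)⁻¹) * s := by group
          _ = (r : Y)⁻¹ * ((r : Y) * z * (r : Y)⁻¹) * s := by rw [e1, e2]
          _ = z * ((r : Y)⁻¹ * s) := by group
    intro r hr
    exact (hCmem.1 (hKmem.1 (show ((⟨r, hr⟩ : π.ker) : VQ π) ∈ K from hK ▸ Subgroup.mem_top _))).symm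
  have hcen : ∀ a ∈ Phi π, ∀ r ∈ π.ker, a * r = r * a := by
    intro a ha r hr
    rcases hform a ha with ha' | ⟨n, hn, rfl⟩
    · exact hcN a ha' r hr
    · calc z * n * r = z * (n * r) := by group
        _ = z * r * n := by rw [hcN n hn r hr]; group
        _ = r * z * n := by rw [hzc r hr]
        _ = r * (z * n) := by group
  letI := Sit.commW hcen
  have hFtriv : ∀ g (a : Phi π), h.actW hcen g a = a := by
    intro g
    haveI := isSimpleGroup_A5
    rcases IsSimpleGroup.eq_bot_or_eq_top_of_normal (h.actW hcen).ker inferInstance with hb | hb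
    swap
    · intro a
      rw [MonoidHom.mem_ker.1 (show g ∈ (h.actW hcen).ker from hb ▸ Subgroup.mem_top g)]
      rfl
    exfalso
    -- a fixed element of order five on four points
    have hinj := (MonoidHom.ker_eq_bot_iff _).1 hb
    haveI : Fact (Nat.Prime 5) := ⟨by norm_num⟩
    have h1 := card_modEq_fix (h.actW hcen) pf_pow
    rw [hidx, hN2, Nat.ModEq] at h1
    have h3 : Nat.card (fixSet (h.actW hcen) {pf}) ≤ 4 := by
      have := Subgroup.card_le_card_group (fixSet (h.actW hcen) {pf})
      rw [hidx, hN2] at this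
      omega
    refine pf_ne (hinj ?_)
    rw [map_one]
    refine MulEquiv.ext fun a => (mem_fixSet_singleton _).1 ?_
    rw [Subgroup.eq_top_of_card_eq (fixSet (h.actW hcen) {pf}) (by rw [hidx, hN2]; omega)]
    exact Subgroup.mem_top a
  -- `z` is an involution
  have hz1 : z * z = 1 := by
    rcases hNw _ hzz with e | e
    · exact e
    exfalso
    have hcommN : ∀ a ∈ π.ker, ∀ b ∈ π.ker, a⁻¹ * b * a * b⁻¹ ∈ N := by
      intro a ha b hb
      have hc : a⁻¹ * b * a * b⁻¹ ∈ Phi π := by
        have := h.comm_mem (inv_mem ha) hb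
        rwa [inv_inv] at this
      have hcsq : (a⁻¹ * b * a * b⁻¹) * (a⁻¹ * b * a * b⁻¹) = 1 := by
        set c := a⁻¹ * b * a * b⁻¹ with hc'
        calc c * c = a⁻¹ * c * a * c := by
              rw [show a⁻¹ * c * a = c by rw [mul_assoc, hcen c hc a ha, inv_mul_cancel_left]]
          _ = (a * a)⁻¹ * b * (a * a) * b⁻¹ := by rw [hc']; group
          _ = 1 := by
            rw [mul_assoc ((a * a)⁻¹) b (a * a), ← hcen _ (h.sq_mem ha) b hb, inv_mul_cancel_left,
              mul_inv_cancel]
      rcases hform _ hc with hh | ⟨n, hn, hh⟩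
      · exact hh
      · rw [hh, hsqz n hn, e] at hcsq
        exact absurd hcsq hw1
    let K : Subgroup π.ker :=
      { carrier := {r | (r : Y) * r ∈ N}
        one_mem' := by simp
        mul_mem' := fun {a b} ha hb => by
          show (a : Y) * b * ((a : Y) * b) ∈ N
          rw [show (a : Y) * b * ((a : Y) * b) =
            (a : Y) * a * ((a : Y)⁻¹ * b * a * (b : Y)⁻¹) * ((b : Y) * b) by group]
          exact mul_mem (mul_mem ha (hcommN a a.2 b b.2)) hb
        inv_mem' := fun {a} ha => by
          show (a : Y)⁻¹ * (a : Y)⁻¹ ∈ N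
          rw [← mul_inv_rev]
          exact inv_mem ha }
    have hPK : ∀ {r : π.ker}, (r : Y) ∈ Phi π → r ∈ K := fun {r} hr => by
      show (r : Y) * r ∈ N
      rcases hform _ hr with hh | ⟨n, hn, hh⟩
      · exact mul_mem hh hh
      · rw [hh, hsqz n hn]; exact hzz
    let KV : Subgroup (VQ π) := K.map (QuotientGroup.mk' (frattini π.ker))
    have hKmem : ∀ {r : π.ker}, (r : VQ π) ∈ KV ↔ r ∈ K := fun {r} => by
      refine ⟨?_, fun hr => ⟨r, hr, rfl⟩⟩
      rintro ⟨s, hs, e'⟩
      have h1 : s⁻¹ * r ∈ K := hPK (coe_mem_Phi.2 (QuotientGroup.eq.1 e'))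
      have := mul_mem hs h1
      rwa [mul_inv_cancel_left] at this
    have hKV : KV = ⊤ := by
      refine eq_top_of_index_two Mv KV ?_ ?_
      · intro v hv
        obtain ⟨g, hg⟩ := h.surj pf
        induction v using QuotientGroup.induction_on with
        | _ r =>
          rw [← hg, h.actV_apply, hKmem]
          show ((MulAut.conjNormal g r : π.ker) : Y) * (MulAut.conjNormal g r : π.ker) ∈ N
          rw [MulAut.conjNormal_apply,
            show g * (r : Y) * g⁻¹ * (g * r * g⁻¹) = g * ((r : Y) * r) * g⁻¹ by group]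
          exact (inferInstance : N.Normal).conj_mem _ (hKmem.1 hv) g
      · intro x y hx hy
        induction x using QuotientGroup.induction_on with | _ r =>
        induction y using QuotientGroup.induction_on with | _ s =>
        rw [← QuotientGroup.mk_inv, ← QuotientGroup.mk_mul, hKmem]
        show ((r⁻¹ * s : π.ker) : Y) * (r⁻¹ * s : π.ker) ∈ N
        have e1 : z⁻¹ * ((r : Y) * r) ∈ N := hcoset _ (h.sq_mem r.2) (fun hh => hx (hKmem.2 hh))
        have e2 : z⁻¹ * ((s : Y) * s) ∈ N := hcoset _ (h.sq_mem s.2) (fun hh => hy (hKmem.2 hh))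
        rw [Subgroup.coe_mul, Subgroup.coe_inv,
          show (r : Y)⁻¹ * s * ((r : Y)⁻¹ * s) =
            ((r : Y) * r)⁻¹ * ((r : Y) * s * (r : Y)⁻¹ * (s : Y)⁻¹) * ((s : Y) * s) by group]
        have hc := hcommN _ (inv_mem r.2) _ s.2
        rw [inv_inv] at hc
        rw [← hcen _ (hN hc) _ (inv_mem (mul_mem r.2 r.2)), mul_assoc]
        refine mul_mem hc ?_
        have := mul_mem (inv_mem e1) e2
        rwa [mul_inv_rev, inv_inv, mul_assoc, mul_inv_cancel_left] at this
    have hle : Phi π ≤ N := h.Phi_le N fun r hr =>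
      hKmem.1 (show ((⟨r, hr⟩ : π.ker) : VQ π) ∈ KV from hKV ▸ Subgroup.mem_top _)
    exact hzN (hle hz)
  have h2 : ∀ a ∈ Phi π, a * a = 1 := by
    intro a ha
    rcases hform a ha with ha' | ⟨n, hn, rfl⟩
    · exact h2N a ha'
    · rw [hsqz n hn, hz1]
  have Q := h.qmap hcen h2
  have hW : ∀ B : Phi π, (∀ x, h.sqMap hcen h2 x = 1 ∨ h.sqMap hcen h2 x = B) → False := by
    intro B hB
    haveI := Fintype.ofFinite (Phi π)
    have hW2 := Q.card_le_two_of_range hB
    have h1 : Nat.card (Phi π) ≤ 2 := by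
      rw [Nat.card_eq_fintype_card]
      refine (Fintype.card_le_of_injective (fun w : Phi π => decide (w = 1)) ?_).trans (by simp)
      intro x y e
      have e' : (x = 1 ↔ y = 1) := by simpa using e
      rcases hW2 x with hx | hx
      · rw [hx, e'.1 hx]
      · rcases hW2 y with hy | hy
        · rw [e'.2 hy, hy]
        · rw [hx, hy]
    omega
  rcases Mv.point_or_linear with ⟨v, hv⟩ | hl
  · obtain ⟨B, -, -, hB⟩ := q_point_trivial Q Mv hFtriv hv
    exact hW B hB
  · exact hW 1 fun x => Or.inl (q_linear_trivial Q Mv hFtriv hl x)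

/-- The Frattini subgroup has order at most two. -/
theorem Phi_small (h : Sit π) : Phi π = ⊥ ∨ Nat.card (Phi π) = 2 := by
  classical
  by_contra hcon
  rw [not_or] at hcon
  obtain ⟨hne, hcard⟩ := hcon
  obtain ⟨N, ⟨hNn, hNlt⟩, hNmax⟩ := Set.Finite.exists_maximal
    (Set.toFinite {N : Subgroup Y | N.Normal ∧ N < Phi π})
    ⟨⊥, inferInstance, bot_lt_iff_ne_bot.2 hne⟩
  haveI := hNn
  obtain ⟨h', hker, hPhi⟩ := h.quotient N hNlt.le
  set mk := QuotientGroup.mk' N with hmk
  have hcomap : (Phi (QuotientGroup.lift N π (hNlt.le.trans Phi_le_ker))).comap mk = Phi π := by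
    rw [hPhi, Subgroup.comap_map_eq, QuotientGroup.ker_mk', sup_eq_left.2 hNlt.le]
  have hsurj := QuotientGroup.mk'_surjective N
  have hmin' : ∀ L : Subgroup (Y ⧸ N), L.Normal →
      L ≤ Phi (QuotientGroup.lift N π (hNlt.le.trans Phi_le_ker)) →
      L = ⊥ ∨ L = Phi (QuotientGroup.lift N π (hNlt.le.trans Phi_le_ker)) := by
    intro L hLn hL
    have hL' : L.comap mk ≤ Phi π := hcomap ▸ Subgroup.comap_mono hL
    have hNL : N ≤ L.comap mk := fun x hx => by
      rw [Subgroup.mem_comap, show mk x = 1 from (QuotientGroup.eq_one_iff x).2 hx]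
      exact one_mem L
    by_cases he : L.comap mk = Phi π
    · right
      rw [← Subgroup.map_comap_eq_self_of_surjective hsurj L, he, hPhi]
    · left
      have hle : L.comap mk ≤ N := hNmax ⟨hLn.comap mk, lt_of_le_of_ne hL' he⟩ hNL
      rw [← Subgroup.map_comap_eq_self_of_surjective hsurj L, le_antisymm hle hNL]
      exact (Subgroup.map_eq_bot_iff _).2 (by rw [QuotientGroup.ker_mk'])
  have hne' : Phi (QuotientGroup.lift N π (hNlt.le.trans Phi_le_ker)) ≠ ⊥ := by
    intro e
    rw [e, MonoidHom.comap_bot, QuotientGroup.ker_mk'] at hcomap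
    exact hNlt.ne hcomap
  have h2 := card_Phi_of_minimal h' hmin' hne'
  have hidx : Nat.card (Phi π) = 2 * Nat.card N := by
    have h1 : N.relIndex (Phi π) = 2 := by
      rw [← h2, hPhi, ← Subgroup.relIndex_ker, QuotientGroup.ker_mk']
    have h3 := Subgroup.relIndex_mul_relIndex ⊥ N (Phi π) bot_le hNlt.le
    rw [Subgroup.relIndex_bot_left, Subgroup.relIndex_bot_left, h1] at h3
    omega
  have hNne : N ≠ ⊥ := fun e => hcard (by rw [hidx, e, Subgroup.card_bot])
  obtain ⟨M, ⟨hMn, hMlt⟩, hMmax⟩ := Set.Finite.exists_maximal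
    (Set.toFinite {M : Subgroup Y | M.Normal ∧ M < N}) ⟨⊥, inferInstance, bot_lt_iff_ne_bot.2 hNne⟩
  haveI := hMn
  obtain ⟨h'', hker2, hPhi2⟩ := h.quotient M (hMlt.le.trans hNlt.le)
  set mk2 := QuotientGroup.mk' M with hmk2
  have hsurj2 := QuotientGroup.mk'_surjective M
  haveI : (N.map mk2).Normal := hNn.map mk2 hsurj2
  have hcN : (N.map mk2).comap mk2 = N := by
    rw [Subgroup.comap_map_eq, QuotientGroup.ker_mk', sup_eq_left.2 hMlt.le]
  refine false_of_two_steps h'' (N.map mk2) (hPhi2 ▸ Subgroup.map_mono hNlt.le) ?_ ?_ ?_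
  · intro e
    rw [e, MonoidHom.comap_bot, QuotientGroup.ker_mk'] at hcN
    exact hMlt.ne hcN
  · have e1 : Nat.card (N.map mk2) * Nat.card M = Nat.card N := by
      have h1 : M.relIndex N = Nat.card (N.map mk2) := by
        rw [← Subgroup.relIndex_ker, QuotientGroup.ker_mk']
      have h3 := Subgroup.relIndex_mul_relIndex ⊥ M N bot_le hMlt.le
      rw [Subgroup.relIndex_bot_left, Subgroup.relIndex_bot_left, h1] at h3
      rw [← h3, mul_comm]
    have e2 : Nat.card ((Phi π).map mk2) * Nat.card M = Nat.card (Phi π) := by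
      have h1 : M.relIndex (Phi π) = Nat.card ((Phi π).map mk2) := by
        rw [← Subgroup.relIndex_ker, QuotientGroup.ker_mk']
      have h3 := Subgroup.relIndex_mul_relIndex ⊥ M (Phi π) bot_le (hMlt.le.trans hNlt.le)
      rw [Subgroup.relIndex_bot_left, Subgroup.relIndex_bot_left, h1] at h3
      rw [← h3, mul_comm]
    rw [hPhi2]
    refine Nat.eq_of_mul_eq_mul_right (Nat.card_pos (α := M)) ?_
    rw [e2, hidx, mul_assoc, e1]
  · intro L hLn hL
    have hL' : L.comap mk2 ≤ N := hcN ▸ Subgroup.comap_mono hL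
    have hML : M ≤ L.comap mk2 := fun x hx => by
      rw [Subgroup.mem_comap, show mk2 x = 1 from (QuotientGroup.eq_one_iff x).2 hx]
      exact one_mem L
    by_cases he : L.comap mk2 = N
    · right
      rw [← he, Subgroup.map_comap_eq_self_of_surjective hsurj2]
    · left
      have hle : L.comap mk2 ≤ M := hMmax ⟨hLn.comap mk2, lt_of_le_of_ne hL' he⟩ hML
      rw [← Subgroup.map_comap_eq_self_of_surjective hsurj2 L, le_antisymm hle hML]
      exact (Subgroup.map_eq_bot_iff _).2 (by rw [QuotientGroup.ker_mk'])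

end Cfsg.Agent.H54.RadFour.Five
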