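import Mathlib

/-!
# Explicit elements of the alternating group on five letters
-/

set_option autoImplicit false
set_option linter.style.haveILetI false

namespace Cfsg.Agent.H54.RadFour.Five

open Equiv

/-- The alternating group on five letters. -/
abbrev A5 := ↥(alternatingGroup (Fin 5))

/-- The five-cycle. -/
def pf : A5 := ⟨swap 0 1 * swap 1 2 * swap 2 3 * swap 3 4, by rw [Equiv.Perm.mem_alternatingGroup]; decide⟩

/-- A double transposition fixing `4`. -/
def pa : A5 := ⟨swap 0 1 * swap 2 3, by rw [Equiv.Perm.mem_alternatingGroup]; decide⟩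

/-- A double transposition fixing `4`. -/
def pb : A5 := ⟨swap 0 2 * swap 1 3, by rw [Equiv.Perm.mem_alternatingGroup]; decide⟩

/-- The three-cycle on `0 1 2`. -/
def ph : A5 := ⟨swap 0 1 * swap 1 2, by rw [Equiv.Perm.mem_alternatingGroup]; decide⟩

/-- A double transposition inverting `ph`. -/
def ps : A5 := ⟨swap 0 1 * swap 3 4, by rw [Equiv.Perm.mem_alternatingGroup]; decide⟩

/-- The three-cycle on `1 2 4`. -/
def pk : A5 := ⟨swap 1 2 * swap 2 4, by rw [Equiv.Perm.mem_alternatingGroup]; decide⟩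

theorem pf_pow : pf ^ 5 = 1 := by decide +kernel
theorem pf_ne : pf ≠ 1 := by decide +kernel
theorem ph_pow : ph ^ 3 = 1 := by decide +kernel
theorem ph_ne : ph ≠ 1 := by decide +kernel
theorem pa_sq : pa * pa = 1 := by decide +kernel
theorem pb_sq : pb * pb = 1 := by decide +kernel
theorem pa_pb : pa * pb = pb * pa := by decide +kernel
theorem conj_pa : ph * pa * ph⁻¹ = pa * pb := by decide +kernel
theorem conj_pb : ph * pb * ph⁻¹ = pa := by decide +kernel
theorem pf_apply : ∀ i : Fin 5, (pf : Perm (Fin 5)) i = i + 1 := by decide +kernel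
theorem ps_pk : ps * pk ≠ 1 := by decide +kernel

/-- The value of a word in given elements and their inverses, coded by indices. -/
def ev (l : List A5) (w : List ℕ) : A5 :=
  (w.map fun j => (1 :: (l ++ l.map (·⁻¹))).getD j 1).prod

theorem ev_mem {H : Subgroup A5} {l : List A5} (hl : ∀ x ∈ l, x ∈ H) (w : List ℕ) : ev l w ∈ H := by
  refine list_prod_mem fun y hy => ?_
  obtain ⟨j, -, rfl⟩ := List.mem_map.1 hy
  by_cases hj : j < (1 :: (l ++ l.map (·⁻¹))).length
  · rw [List.getD_eq_getElem _ _ hj]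
    rcases List.mem_cons.1 (List.getElem_mem hj) with h | h
    · rw [h]; exact one_mem H
    rcases List.mem_append.1 h with h | h
    · exact hl _ h
    · obtain ⟨z, hz, e⟩ := List.mem_map.1 h
      rw [← e]; exact inv_mem (hl z hz)
  · rw [List.getD_eq_default _ _ (le_of_not_gt hj)]
    exact one_mem H

/-- Witness words for pairs of four-groups. -/
def fourW : List (List ℕ × List ℕ) :=
  [([3, 1, 2, 1, 2], [2, 1, 3, 1]),
    ([1, 2, 1, 3, 1, 3], [1, 3, 1, 2, 3]),
    ([3, 1, 2, 3, 1, 2], [3, 1, 2, 3]),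
    ([2, 1, 2, 1, 3], [1, 2, 1, 3, 1])]

/-- Witness words for pairs of three-cycles. -/
def threeW : List (ℕ × List ℕ × List ℕ) :=
  [(0, [], []),
    (3, [2, 1], [1, 4]),
    (3, [4], [3, 2]),
    (0, [], []),
    (4, [1], [1, 2]),
    (4, [1], [1, 4, 1]),
    (3, [4, 3, 2, 1], [1, 4, 1, 2]),
    (1, [3, 4, 1], [2, 3, 2, 1]),
    (1, [2], [1, 4, 3, 4]),
    (3, [1, 4], [1, 4, 1]),
    (4, [1], [1, 4]),
    (3, [1, 4], [1, 4, 1]),
    (1, [3, 2, 1], [3, 2, 1, 2]),
    (4, [1], [3, 2]),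
    (4, [1], [2, 1]),
    (4, [1], [1, 4, 1]),
    (3, [2], [2, 1]),
    (3, [4, 3, 2, 1], [1, 4, 1, 2]),
    (3, [4, 1], [1, 2]),
    (1, [4], [1, 2, 3, 2])]

theorem card_A5 : Nat.card A5 = 60 := by
  rw [Nat.card_eq_fintype_card]
  decide +kernel

/-- The chosen generators. -/
theorem eq_top_of_gens {H : Subgroup A5} (h1 : pf ∈ H) (h2 : pa ∈ H) (h3 : ph ∈ H) : H = ⊤ := by
  have h5 : 5 ∣ Nat.card H := by
    have := Subgroup.orderOf_dvd_natCard H h1
    rwa [orderOf_eq_prime (hp := ⟨by norm_num⟩) pf_pow pf_ne] at this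
  have h2' : 2 ∣ Nat.card H := by
    have := Subgroup.orderOf_dvd_natCard H h2
    rwa [orderOf_eq_prime (hp := ⟨Nat.prime_two⟩) (by rw [pow_two]; exact pa_sq) (by decide)] at this
  have h3' : 3 ∣ Nat.card H := by
    have := Subgroup.orderOf_dvd_natCard H h3
    rwa [orderOf_eq_prime (hp := ⟨Nat.prime_three⟩) ph_pow ph_ne] at this
  have h30 : 30 ∣ Nat.card H := by omega
  have hmul := Subgroup.card_mul_index H
  rw [card_A5] at hmul
  have hidx : H.index = 1 ∨ H.index = 2 := by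
    obtain ⟨k, hk⟩ := h30
    rw [hk] at hmul
    have hk2 : k * H.index = 2 := by nlinarith
    exact (Nat.dvd_prime Nat.prime_two).1 ⟨k, by rw [← hk2, mul_comm]⟩
  rcases hidx with h | h
  · exact Subgroup.index_eq_one.1 h
  · haveI := Subgroup.normal_of_index_eq_two h
    haveI := alternatingGroup.isSimpleGroup (α := Fin 5) (by simp)
    exact (Subgroup.Normal.eq_bot_or_eq_top (inferInstance : H.Normal)).resolve_left fun hb => by
      rw [hb, Subgroup.card_bot] at h30
      omega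

/-- The conjugating element attached to a point. -/
def cp (i : Fin 5) : A5 := pf ^ (i.1 + 1)

theorem cp_apply : ∀ i : Fin 5, (cp i : Perm (Fin 5)) 4 = i := by decide +kernel

/-- Elements of the stabiliser of `4`. -/
def stab4 : List A5 :=
  [1, pa, pb, pa * pb, ph, pa * ph, pb * ph, pa * pb * ph, ph * ph, pa * (ph * ph), pb * (ph * ph),
    pa * pb * (ph * ph)]

theorem stab4_gens : ∀ i : Fin 5, (cp ((pa : Perm (Fin 5)) i))⁻¹ * pa * cp i ∈ stab4 ∧
    (cp ((ph : Perm (Fin 5)) i))⁻¹ * ph * cp i ∈ stab4 ∧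
    (cp ((pf : Perm (Fin 5)) i))⁻¹ * pf * cp i ∈ stab4 := by decide +kernel

/-- The element conjugating the three-cycle to another one. -/
def trans (m : Fin 5) (j j' : Fin 2) : A5 := (pk ^ j.1)⁻¹ * pf ^ m.1 * pk ^ j'.1

/-- The witnesses attached to two conjugates of the three-cycle. -/
def threeAt (m : Fin 5) (j j' : Fin 2) : ℕ × List ℕ × List ℕ :=
  threeW.getD (4 * m.1 + 2 * j.1 + j'.1) (0, [], [])

/-- Two conjugates of the three-cycle generate a subgroup containing a point stabiliser. -/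
theorem two_threes : ∀ m : Fin 5, ∀ j j' : Fin 2, (m = 0 ∧ j = j') ∨
    ∀ i : Fin 5, i.1 = (threeAt m j j').1 →
      ev [ph, trans m j j' * ph * (trans m j j')⁻¹] (threeAt m j j').2.1 = cp i * ph * (cp i)⁻¹ ∧
      ev [ph, trans m j j' * ph * (trans m j j')⁻¹] (threeAt m j j').2.2 = cp i * pa * (cp i)⁻¹ := by
  decide +kernel

theorem threeAt_lt : ∀ m : Fin 5, ∀ j j' : Fin 2, (threeAt m j j').1 < 5 := by decide +kernel

/-- Two different four-groups generate the group. -/
theorem two_fours : ∀ i : Fin 5, i = 4 ∨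
    (ev [pa, cp i * pa * (cp i)⁻¹, cp i * pb * (cp i)⁻¹] (fourW.getD i.1 ([], [])).1 = pf ∧
      ev [pa, cp i * pa * (cp i)⁻¹, cp i * pb * (cp i)⁻¹] (fourW.getD i.1 ([], [])).2 = ph) := by
  decide +kernel

theorem stab4_conj : cp 3 * pa * (cp 3)⁻¹ ∈ [ps * pa * ps⁻¹, ps * pb * ps⁻¹, ps * (pa * pb) * ps⁻¹] := by
  decide +kernel

/-- Transitivity on unordered pairs. -/
theorem pairs : ∀ i j : Fin 5, i = j ∨ ∃ m : Fin 5, ∃ e : Fin 2,
    ((pf ^ m.1 * pk ^ e.1 : A5) : Perm (Fin 5)) 3 = i ∧ ((pf ^ m.1 * pk ^ e.1 : A5) : Perm (Fin 5)) 4 = j ∨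
      ((pf ^ m.1 * pk ^ e.1 : A5) : Perm (Fin 5)) 3 = j ∧ ((pf ^ m.1 * pk ^ e.1 : A5) : Perm (Fin 5)) 4 = i := by
  decide +kernel

end Cfsg.Agent.H54.RadFour.Five
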