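import Cfsg.Agent.H54.RadFour.AltFive
import Cfsg.Agent.H54.RankFour.Radical

/-!
# Shape of the radical: elementary of order sixteen or a central product of `Q₈` and `D₈`
-/

set_option autoImplicit false
set_option linter.style.haveILetI false

namespace Cfsg.Agent.H54.RadFour

/-- Sectional rank bounds pass to subgroups. -/
theorem sectional_subgroup {X : Type*} [Group X] [Finite X] {p k : ℕ}
    (h : Cfsg.SectionalPRankLE p k X) (Y : Subgroup X) : Cfsg.SectionalPRankLE p k Y := by
  intro H N hN A hA hAp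
  haveI := hN
  let e : H ≃* H.map Y.subtype := H.equivMapOfInjective _ Y.subtype_injective
  haveI : (N.map e.toMonoidHom).Normal := hN.map _ e.surjective
  let c : H ⧸ N ≃* H.map Y.subtype ⧸ N.map e.toMonoidHom := QuotientGroup.congr N _ e rfl
  have h' := h (H.map Y.subtype) (N.map e.toMonoidHom) (A.map c.toMonoidHom) ?_ ?_
  · exact (le_of_eq (Subgroup.card_map_of_injective c.injective).symm).trans h'
  · exact Subgroup.map_isMulCommutative _ _
  · rintro _ ⟨a, ha, rfl⟩
    rw [← map_pow, hAp a ha, map_one]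

/-- The restriction to the preimage of a subgroup of the factor group by the radical. -/
theorem exists_sit {X : Type*} [Group X] [Finite X] (hc : Cfsg.IsPConstrained 2 X)
    (hO : Cfsg.oddCore X = ⊥) (h4 : Cfsg.SectionalPRankLE 2 4 X) [(Cfsg.pCore 2 X).Normal]
    {Q : Type*} [Group Q] (A : Subgroup (X ⧸ Cfsg.pCore 2 X)) (e : A ≃* Q) :
    ∃ (Y : Subgroup X) (π : Y →* Q), Sit π ∧ Nonempty (π.ker ≃* Cfsg.pCore 2 X) := by
  set P := Cfsg.pCore 2 X with hP
  set Y := A.comap (QuotientGroup.mk' P) with hY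
  let π : Y →* Q := e.toMonoidHom.comp ((QuotientGroup.mk' P).subgroupComap A)
  have hPY : P ≤ Y := fun x hx => by
    rw [hY, Subgroup.mem_comap, show QuotientGroup.mk' P x = 1 from (QuotientGroup.eq_one_iff x).2 hx]
    exact one_mem A
  have hker : π.ker = P.subgroupOf Y := by
    ext y
    rw [MonoidHom.mem_ker, Subgroup.mem_subgroupOf]
    show e _ = 1 ↔ _
    rw [MulEquiv.map_eq_one_iff, ← Subtype.coe_inj, Subgroup.coe_one]
    exact QuotientGroup.eq_one_iff _
  have hPp : IsPGroup 2 P := Cfsg.Agent.H40.isPGroup_pCore 2 X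
  haveI : Fact (Nat.Prime 2) := ⟨Nat.prime_two⟩
  have hpk : IsPGroup 2 π.ker := by
    rw [hker]; exact hPp.of_equiv (Subgroup.subgroupOfEquivOfLe hPY).symm
  obtain ⟨-, hpow⟩ := Cfsg.Agent.H19.commutator_pow_mem_frattini hPp
  refine ⟨Y, π, ⟨e.surjective.comp ((QuotientGroup.mk' P).subgroupComap_surjective_of_surjective A
    (QuotientGroup.mk'_surjective P)), hpk, fun g hg => ?_, sectional_subgroup h4 Y⟩,
    ⟨(MulEquiv.subgroupCongr hker).trans (Subgroup.subgroupOfEquivOfLe hPY)⟩⟩
  rw [hker, Subgroup.mem_subgroupOf]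
  refine RankFour.mem_pCore_of_centralizes_mod_frattini hc hO fun v => ?_
  set L : Subgroup Y := ((frattini P).map P.subtype).comap Y.subtype with hL
  have hsq : ∀ r ∈ π.ker, r * r ∈ L := fun r hr => by
    rw [hker, Subgroup.mem_subgroupOf] at hr
    refine ⟨⟨r, hr⟩ * ⟨r, hr⟩, ?_, rfl⟩
    have := hpow ⟨r, hr⟩
    rwa [pow_two] at this
  have hle : Phi π ≤ L := by
    rintro _ ⟨x, hx, rfl⟩
    refine Subgroup.mem_subgroupOf.1 ((?_ : frattini π.ker ≤ L.subgroupOf π.ker) hx)
    refine Cfsg.Agent.H19.frattini_le_of_commutator_pow (p := 2) _ ?_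
      (fun r => by rw [pow_two]; exact Subgroup.mem_subgroupOf.2 (hsq r r.2))
    rw [commutator_def, Subgroup.commutator_le]
    intro a _ b _
    rw [commutatorElement_def, show a * b * a⁻¹ * b⁻¹ =
      (a * b) * (a * b) * ((b⁻¹ * a⁻¹ * b) * (b⁻¹ * a⁻¹ * b)) * (b⁻¹ * b⁻¹) by group]
    exact mul_mem (mul_mem (Subgroup.mem_subgroupOf.2 (hsq _ (a * b).2))
      (Subgroup.mem_subgroupOf.2 (hsq _ (b⁻¹ * a⁻¹ * b).2)))
      (Subgroup.mem_subgroupOf.2 (hsq _ (b⁻¹).2))
  have hv : (⟨(v : X), hPY v.2⟩ : Y) ∈ π.ker := by rw [hker, Subgroup.mem_subgroupOf]; exact v.2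
  obtain ⟨w, hw, e⟩ := hle (hg _ hv)
  have hconj : v⁻¹ * w * v ∈ frattini P := by
    have h1 := (inferInstance : (frattini P).Normal).conj_mem w hw v⁻¹
    rwa [inv_inv] at h1
  refine ⟨v⁻¹ * w * v, hconj, ?_⟩
  have e' : (w : X) = (g : X) * v * (g : X)⁻¹ * (v : X)⁻¹ := e
  rw [Subgroup.coe_mul, Subgroup.coe_mul, Subgroup.coe_inv, e']
  group

namespace Five

open Equiv

/-- Elementary of order sixteen, or a central product of quaternion and dihedral of order eight. -/
def Good (R : Type*) [Group R] : Prop :=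
  ((∀ a b : R, a * b = b * a) ∧ (∀ a : R, a ^ 2 = 1) ∧ Nat.card R = 16) ∨
    (Nat.card R = 32 ∧ ∃ A B : Subgroup R, Nonempty (A ≃* QuaternionGroup 2) ∧
      Nonempty (B ≃* DihedralGroup 4) ∧ (∀ a ∈ A, ∀ b ∈ B, a * b = b * a) ∧
        A ⊔ B = ⊤ ∧ A ⊓ B = Subgroup.center R)

theorem Good.of_equiv {R S : Type*} [Group R] [Group S] (e : R ≃* S) (h : Good R) : Good S := by
  rcases h with ⟨hc, h2, hcard⟩ | ⟨hcard, A, B, ⟨eA⟩, ⟨eB⟩, hAB, hsup, hinf⟩
  · left
    refine ⟨fun a b => ?_, fun a => ?_, by rw [← hcard, Nat.card_congr e.toEquiv]⟩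
    · obtain ⟨a, rfl⟩ := e.surjective a
      obtain ⟨b, rfl⟩ := e.surjective b
      rw [← map_mul, ← map_mul, hc]
    · obtain ⟨a, rfl⟩ := e.surjective a
      rw [← map_pow, h2, map_one]
  · right
    refine ⟨by rw [← hcard, Nat.card_congr e.toEquiv], A.map e.toMonoidHom, B.map e.toMonoidHom,
      ⟨(A.equivMapOfInjective _ e.injective).symm.trans eA⟩,
      ⟨(B.equivMapOfInjective _ e.injective).symm.trans eB⟩, ?_, ?_, ?_⟩
    · rintro _ ⟨a, ha, rfl⟩ _ ⟨b, hb, rfl⟩
      rw [← map_mul, ← map_mul, hAB a ha b hb]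
    · rw [← Subgroup.map_sup, hsup, Subgroup.map_top_of_surjective _ e.surjective]
    · rw [← Subgroup.map_inf _ _ _ e.injective, hinf]
      ext x
      constructor
      · rintro ⟨y, hy, rfl⟩
        refine Subgroup.mem_center_iff.2 fun u => ?_
        obtain ⟨u, rfl⟩ := e.surjective u
        exact ((map_mul e u y).symm.trans (congrArg e (Subgroup.mem_center_iff.1 hy u))).trans
          (map_mul e y u)
      · intro hx
        obtain ⟨y, rfl⟩ := e.surjective x
        refine ⟨y, Subgroup.mem_center_iff.2 fun u => e.injective ?_, rfl⟩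
        rw [map_mul, map_mul]
        exact Subgroup.mem_center_iff.1 hx (e u)

/-- A non-split or split extension of a cyclic group of order four by an inverting element. -/
theorem card_closure_pair {G : Type*} [Group G] [Finite G] {c w : G} (hc : orderOf c = 4)
    (hww : w * w ∈ Subgroup.zpowers c) (hwc : w * c * w⁻¹ = c⁻¹) (hw' : w ∉ Subgroup.zpowers c) :
    Nat.card (Subgroup.closure ({c, w} : Set G)) = 8 := by
  set H := Subgroup.closure ({c, w} : Set G) with hH
  have hcH : c ∈ H := Subgroup.subset_closure (Set.mem_insert _ _)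
  have hwH : w ∈ H := Subgroup.subset_closure (Set.mem_insert_of_mem _ rfl)
  set c' : H := ⟨c, hcH⟩
  set w' : H := ⟨w, hwH⟩
  have hmem : ∀ {x : H}, x ∈ Subgroup.zpowers c' ↔ (x : G) ∈ Subgroup.zpowers c := by
    intro x
    constructor
    · rintro ⟨i, rfl⟩
      exact ⟨i, by simp [c']⟩
    · rintro ⟨i, hi⟩
      exact ⟨i, Subtype.ext (by simpa [c'] using hi)⟩
  have htop : Subgroup.zpowers c' ⊔ Subgroup.zpowers w' = ⊤ := by
    refine Subgroup.map_injective H.subtype_injective ?_
    rw [Subgroup.map_sup, MonoidHom.map_zpowers, MonoidHom.map_zpowers, ← MonoidHom.range_eq_map,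
      Subgroup.range_subtype]
    show Subgroup.zpowers c ⊔ Subgroup.zpowers w = H
    rw [hH, Set.insert_eq, Subgroup.closure_union,
      ← Subgroup.zpowers_eq_closure, ← Subgroup.zpowers_eq_closure]
  have hnorm : (Subgroup.zpowers c').Normal := by
    refine Subgroup.normalizer_eq_top_iff.1 (top_le_iff.1 (htop.ge.trans
      (sup_le Subgroup.le_normalizer (Subgroup.zpowers_le.2 ?_))))
    refine Subgroup.mem_normalizer_iff.2 fun x => ?_
    have key : ∀ y : G, y ∈ Subgroup.zpowers c → w * y * w⁻¹ ∈ Subgroup.zpowers c := by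
      rintro _ ⟨i, rfl⟩
      show w * c ^ i * w⁻¹ ∈ _
      rw [← conj_zpow, hwc]
      exact zpow_mem (inv_mem (Subgroup.mem_zpowers c)) i
    refine ⟨fun h => hmem.2 (key _ (hmem.1 h)), fun h => hmem.2 ?_⟩
    have h1 := key _ (hmem.1 h)
    have hcomm : ∀ {u v : G}, u ∈ Subgroup.zpowers c → v ∈ Subgroup.zpowers c → u * v = v * u := by
      rintro _ _ ⟨i, rfl⟩ ⟨j, rfl⟩
      exact (Commute.refl c).zpow_zpow i j
    have h2 : w * w * (x : G) * (w * w)⁻¹ ∈ Subgroup.zpowers c := by
      convert h1 using 1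
      show _ = w * (w * (x : G) * w⁻¹) * w⁻¹
      group
    have h3 := mul_mem (mul_mem (inv_mem hww) h2) hww
    convert h3 using 1
    group
  have hrel := H19.relIndex_sup_zpowers (Subgroup.zpowers c') Nat.prime_two
    (s := w') (hmem.2 (by rw [pow_two]; exact hww)) (fun h => hw' (hmem.1 h))
  rw [htop, Subgroup.relIndex_top_right] at hrel
  have h1 := Subgroup.card_mul_index (Subgroup.zpowers c')
  rw [hrel, Nat.card_zpowers, show orderOf c' = 4 by rw [← hc, ← Subgroup.orderOf_coe]] at h1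
  exact h1.symm

variable {Y : Type*} [Group Y] [Finite Y] {π : Y →* A5}

/-- The shape of the kernel. -/
theorem good_ker (h : Sit π) : Good π.ker := by
  classical
  letI := h.commV
  have Mv := mod_actV h
  rcases Phi_small h with hb | hc2
  · left
    have hsq : ∀ a : π.ker, a ^ 2 = 1 := fun a => Subtype.ext (by
      rw [pow_two, Subgroup.coe_mul, Subgroup.coe_one]
      exact Subgroup.mem_bot.1 (hb ▸ h.sq_mem a.2))
    refine ⟨fun a b => ?_, hsq, ?_⟩
    · have hinv : ∀ x : π.ker, x⁻¹ = x := fun x =>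
        inv_eq_of_mul_eq_one_left (by rw [← pow_two]; exact hsq x)
      rw [← hinv (a * b), mul_inv_rev, hinv, hinv]
    · rw [h.card_ker_eq, Mv.card, hb, Subgroup.card_bot]
  right
  refine ⟨by rw [h.card_ker_eq, Mv.card, hc2], ?_⟩
  have hmin : ∀ L : Subgroup Y, L.Normal → L ≤ Phi π → L = ⊥ ∨ L = Phi π := fun L _ hL => by
    have h1 := Subgroup.card_dvd_of_le hL
    rw [hc2] at h1
    rcases (Nat.dvd_prime Nat.prime_two).1 h1 with e | e
    · exact Or.inl (Subgroup.card_eq_one.1 e)
    · exact Or.inr (Subgroup.eq_of_le_of_card_ge hL (by rw [e, hc2]))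
  obtain ⟨hcen, h2⟩ := h.central_of_minimal hmin
  letI := Sit.commW hcen
  have Q := h.qmap hcen h2
  have hne : ¬ ∀ w : Phi π, w = 1 := fun hall => by
    have : Phi π = ⊥ := (Subgroup.eq_bot_iff_forall _).2 fun w hw => congrArg Subtype.val (hall ⟨w, hw⟩)
    rw [this, Subgroup.card_bot] at hc2
    omega
  have htriv := (trivial_or_mod (h.actW hcen) Q.w2 (by omega)).resolve_right fun M => by
    have := M.card
    omega
  obtain ⟨v, hv⟩ := Mv.point_or_linear.resolve_right fun hl =>
    hne (Q.subsingleton_of_q (q_linear_trivial Q Mv htriv hl))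
  obtain ⟨B, hq1, hpol, hrange⟩ := q_point_trivial Q Mv htriv hv
  have hB1 : B ≠ 1 := fun e => hne (Q.subsingleton_of_q fun x => (hrange x).elim id (·.trans e))
  -- lifts
  choose r hr using fun i => QuotientGroup.mk_surjective (vec h.actV v i)
  have hBk : (B : Y) ∈ π.ker := Phi_le_ker B.2
  set z : π.ker := ⟨B, hBk⟩ with hz
  have hzc : ∀ x : π.ker, z * x = x * z := fun x => Subtype.ext (hcen B B.2 x x.2)
  have hz2 : z * z = 1 := Subtype.ext (h2 B B.2)
  have hzne : z ≠ 1 := fun e => hB1 (Subtype.ext (congrArg Subtype.val e :))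
  have hsq : ∀ i, r i * r i = 1 := fun i => by
    have h1 := hq1 i
    rw [← hr i] at h1
    exact Subtype.ext (show (r i : Y) * r i = 1 from congrArg Subtype.val h1)
  have hprod : ∀ {i j}, i ≠ j → r i * r j * (r i * r j) = z := fun {i j} hij => by
    have h1 : h.sqMap hcen h2 ((r i * r j : π.ker) : VQ π) = B := by
      rw [QuotientGroup.mk_mul, hr, hr, Q.q_mul, hq1, hq1, hpol i j hij, one_mul, one_mul]
    exact Subtype.ext (show ((r i * r j : π.ker) : Y) * (r i * r j : π.ker) = B from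
      congrArg Subtype.val h1)
  have hinv : ∀ i, (r i)⁻¹ = r i := fun i => inv_eq_of_mul_eq_one_left (hsq i)
  have hswap : ∀ {i j}, i ≠ j → r j * r i = r i * r j * z := fun {i j} hij => by
    calc r j * r i = (r i)⁻¹ * (r i * r j * (r i * r j)) * (r j)⁻¹ := by
          rw [show (r i)⁻¹ * (r i * r j * (r i * r j)) * (r j)⁻¹ = r j * r i by group]
      _ = (r i)⁻¹ * z * (r j)⁻¹ := by rw [hprod hij]
      _ = r i * r j * z := by rw [hinv, hinv, mul_assoc, hzc, ← mul_assoc]
  have hord : ∀ {i j}, i ≠ j → orderOf (r i * r j) = 4 := fun {i j} hij => by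
    haveI : Fact (Nat.Prime 2) := ⟨Nat.prime_two⟩
    exact orderOf_eq_prime_pow (x := r i * r j) (p := 2) (n := 1) (by rw [pow_one, pow_two, hprod hij]; exact hzne)
      (by rw [show (2 : ℕ) ^ (1 + 1) = 2 + 2 from rfl, pow_add, pow_two, hprod hij, hz2])
  set s := r 2 * r 3 with hs
  set t := r 2 * r 4 with ht
  set c := r 0 * r 1 with hc
  have hts : t * s * t⁻¹ = s⁻¹ := by
    have e1 : t * s = s * t * z := by
      calc t * s = r 2 * (r 4 * r 2) * r 3 := by rw [hs, ht]; group
        _ = r 2 * (r 2 * r 4 * z) * r 3 := by rw [hswap (show (2 : Fin 5) ≠ 4 by decide)]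
        _ = (r 2 * r 2) * r 4 * (z * r 3) := by group
        _ = r 4 * r 3 * z := by rw [hsq, one_mul, hzc]; group
        _ = r 3 * r 4 * z * z := by rw [hswap (show (3 : Fin 5) ≠ 4 by decide)]
        _ = (r 2 * r 2) * r 3 * r 4 * z * z := by rw [hsq, one_mul]
        _ = r 2 * (r 2 * r 3 * z) * r 4 * z := by
          rw [show r 2 * (r 2 * r 3 * z) * r 4 * z = r 2 * r 2 * r 3 * (z * r 4) * z by group, hzc]
          group
        _ = r 2 * (r 3 * r 2) * r 4 * z := by rw [hswap (show (2 : Fin 5) ≠ 3 by decide)]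
        _ = s * t * z := by rw [hs, ht]; group
    calc t * s * t⁻¹ = s * t * z * t⁻¹ := by rw [e1]
      _ = s * (t * z) * t⁻¹ := by group
      _ = s * (z * t) * t⁻¹ := by rw [hzc]
      _ = s * (s * s) := by rw [← mul_assoc, mul_inv_cancel_right, hs, hprod (show (2 : Fin 5) ≠ 3 by decide)]
      _ = s⁻¹ := by
        rw [eq_inv_iff_mul_eq_one]
        calc s * (s * s) * s = (s * s) * (s * s) := by group
          _ = 1 := by rw [hs, hprod (show (2 : Fin 5) ≠ 3 by decide), hz2]
  have hcr : r 0 * c * (r 0)⁻¹ = c⁻¹ := by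
    rw [hc, mul_inv_rev, hinv, hinv, ← mul_assoc, hsq, one_mul]
  have hnotpow : ∀ {x y : π.ker}, y * x * y⁻¹ = x⁻¹ → orderOf x = 4 → y ∉ Subgroup.zpowers x := by
    rintro x y e hx ⟨i, rfl⟩
    have hxx : x = x⁻¹ := by
      conv_lhs => rw [← mul_inv_cancel_right x (x ^ i), ((Commute.refl x).zpow_right i).eq]
      exact e
    have h22 := orderOf_dvd_of_pow_eq_one (n := 2) (x := x) (by
      rw [pow_two]; nth_rewrite 2 [hxx]; exact mul_inv_cancel x)
    rw [hx] at h22
    omega
  have hs4 : orderOf s = 4 := hord (by decide)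
  have hc4 : orderOf c = 4 := hord (by decide)
  have htn := hnotpow hts hs4
  have hrn := hnotpow hcr hc4
  have hzs : z ∈ Subgroup.zpowers s := ⟨2, by
    show s ^ (2 : ℤ) = z
    rw [zpow_two, hs, hprod (show (2 : Fin 5) ≠ 3 by decide)]⟩
  have hzc' : z ∈ Subgroup.zpowers c := ⟨2, by
    show c ^ (2 : ℤ) = z
    rw [zpow_two, hc, hprod (show (0 : Fin 5) ≠ 1 by decide)]⟩
  have htt : t * t = z := hprod (by decide)
  set A := Subgroup.closure ({s, t} : Set π.ker) with hA
  set D := Subgroup.closure ({c, r 0} : Set π.ker) with hD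
  have hA8 : Nat.card A = 8 := card_closure_pair hs4 (htt ▸ hzs) hts htn
  have hD8 : Nat.card D = 8 := card_closure_pair hc4 (by rw [hsq]; exact one_mem _) hcr hrn
  have hsA : s ∈ A := Subgroup.subset_closure (Set.mem_insert _ _)
  have htA : t ∈ A := Subgroup.subset_closure (Set.mem_insert_of_mem _ rfl)
  have hcD : c ∈ D := Subgroup.subset_closure (Set.mem_insert _ _)
  have hrD : r 0 ∈ D := Subgroup.subset_closure (Set.mem_insert_of_mem _ rfl)
  have hzA : z ∈ A := Subgroup.zpowers_le.2 hsA hzs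
  have hzD : z ∈ D := Subgroup.zpowers_le.2 hcD hzc'
  have hAiso : Nonempty (A ≃* QuaternionGroup 2) := by
    refine Cfsg.Agent.H6.nonempty_equiv_quaternion (n := 2) (by norm_num) (c := ⟨s, hsA⟩)
      (w := ⟨t, htA⟩) (by rw [← Subgroup.orderOf_coe]; exact hs4) (Subtype.ext ?_) (Subtype.ext hts)
      (fun hh => htn ?_) hA8
    · show t * t = s ^ 2
      rw [htt, pow_two]
      exact (hprod (show (2 : Fin 5) ≠ 3 by decide)).symm
    · obtain ⟨i, hi⟩ := hh
      exact ⟨i, by simpa using congrArg Subtype.val hi⟩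
  have hDiso : Nonempty (D ≃* DihedralGroup 4) := by
    refine Cfsg.Agent.H6.nonempty_equiv_dihedral (n := 4) (by norm_num) (c := ⟨c, hcD⟩)
      (w := ⟨r 0, hrD⟩) (by rw [← Subgroup.orderOf_coe]; exact hc4) (Subtype.ext (hsq 0))
      (Subtype.ext hcr) (fun hh => hrn ?_) hD8
    obtain ⟨i, hi⟩ := hh
    exact ⟨i, by simpa using congrArg Subtype.val hi⟩
  have hcomm1 : ∀ i ∈ ({0, 1} : Set (Fin 5)), ∀ j k : Fin 5, i ≠ j → i ≠ k →
      Commute (r i) (r j * r k) := fun i _ j k hij hik => by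
    show r i * (r j * r k) = r j * r k * r i
    rw [mul_assoc (r j), hswap hik, ← mul_assoc (r j), ← mul_assoc (r j), hswap hij]
    calc r i * (r j * r k) = r i * r j * r k * (z * z) := by rw [hz2, mul_one, mul_assoc]
      _ = r i * r j * (r k * z) * z := by group
      _ = r i * r j * (z * r k) * z := by rw [hzc]
      _ = r i * r j * z * r k * z := by group
  have hcs : Commute (r 0) s := hcomm1 0 (Or.inl rfl) 2 3 (by decide) (by decide)
  have hct : Commute (r 0) t := hcomm1 0 (Or.inl rfl) 2 4 (by decide) (by decide)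
  have hds : Commute (r 1) s := hcomm1 1 (Or.inr rfl) 2 3 (by decide) (by decide)
  have hdt : Commute (r 1) t := hcomm1 1 (Or.inr rfl) 2 4 (by decide) (by decide)
  have hAD : ∀ a ∈ A, ∀ b ∈ D, a * b = b * a := by
    have h1 : D ≤ Subgroup.centralizer ({s, t} : Set π.ker) := by
      rw [hD, Subgroup.closure_le]
      rintro x (rfl | rfl) <;> refine Subgroup.mem_centralizer_iff.2 ?_ <;> rintro y (rfl | rfl)
      · exact (hcs.mul_left hds).eq.symm
      · exact (hct.mul_left hdt).eq.symm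
      · exact hcs.eq.symm
      · exact hct.eq.symm
    have h3 : A ≤ Subgroup.centralizer (D : Set π.ker) := by
      rw [hA, Subgroup.closure_le]
      intro x hx
      exact Subgroup.mem_centralizer_iff.2 fun y hy => (Subgroup.mem_centralizer_iff.1 (h1 hy) x hx).symm
    exact fun a ha b hb => (Subgroup.mem_centralizer_iff.1 (h3 ha) b hb).symm
  have hfr : ∀ x : π.ker, (x : Y) ∈ Phi π → x = 1 ∨ x = z := by
    intro x hx
    rcases Q.card_le_two_of_range hrange ⟨x, hx⟩ with e | e
    · exact Or.inl (Subtype.ext (congrArg Subtype.val e :))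
    · exact Or.inr (Subtype.ext (congrArg Subtype.val e :))
  have hsup : A ⊔ D = ⊤ := by
    let mk := QuotientGroup.mk' (frattini π.ker)
    have hmem : ∀ {x}, x ∈ A ⊔ D → mk x ∈ (A ⊔ D).map mk := fun hx => ⟨_, hx, rfl⟩
    have hgens : ∀ i, vec h.actV v i ∈ (A ⊔ D).map mk := by
      have m0 : vec h.actV v 0 ∈ (A ⊔ D).map mk := hr 0 ▸ hmem (Subgroup.mem_sup_right hrD)
      have m01 : vec h.actV v 0 * vec h.actV v 1 ∈ (A ⊔ D).map mk := by
        rw [← hr 0, ← hr 1]; exact hmem (Subgroup.mem_sup_right hcD)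
      have m23 : vec h.actV v 2 * vec h.actV v 3 ∈ (A ⊔ D).map mk := by
        rw [← hr 2, ← hr 3]; exact hmem (Subgroup.mem_sup_left hsA)
      have m24 : vec h.actV v 2 * vec h.actV v 4 ∈ (A ⊔ D).map mk := by
        rw [← hr 2, ← hr 4]; exact hmem (Subgroup.mem_sup_left htA)
      have hall : vec h.actV v 0 ∈ (A ⊔ D).map mk ∧ vec h.actV v 1 ∈ (A ⊔ D).map mk ∧
          vec h.actV v 2 ∈ (A ⊔ D).map mk ∧ vec h.actV v 3 ∈ (A ⊔ D).map mk ∧
          vec h.actV v 4 ∈ (A ⊔ D).map mk := by
        have hp := vec_prod Mv hv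
        generalize vec h.actV v 0 = a0, vec h.actV v 1 = a1, vec h.actV v 2 = a2,
          vec h.actV v 3 = a3, vec h.actV v 4 = a4 at m0 m01 m23 m24 hp ⊢
        have m1 : a1 ∈ (A ⊔ D).map mk := by
          have := mul_mem (inv_mem m0) m01
          rwa [inv_mul_cancel_left] at this
        have m2 : a2 ∈ (A ⊔ D).map mk := by
          have := mul_mem (mul_mem m01 m23) m24
          rwa [show a0 * a1 * (a2 * a3) * (a2 * a4) = a2 by
            calc a0 * a1 * (a2 * a3) * (a2 * a4) = (a0 * a1 * a2 * a3 * a4) * a2 := by ac_rfl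
              _ = a2 := by rw [hp, one_mul]] at this
        have m3 : a3 ∈ (A ⊔ D).map mk := by
          have := mul_mem (inv_mem m2) m23
          rwa [inv_mul_cancel_left] at this
        have m4 : a4 ∈ (A ⊔ D).map mk := by
          have := mul_mem (inv_mem m2) m24
          rwa [inv_mul_cancel_left] at this
        exact ⟨m0, m1, m2, m3, m4⟩
      intro i
      obtain ⟨n0, n1, n2, n3, n4⟩ := hall
      fin_cases i
      exacts [n0, n1, n2, n3, n4]
    refine eq_top_iff.2 fun x _ => ?_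
    have h1 : mk x ∈ (A ⊔ D).map mk :=
      (Subgroup.closure_le _).2 (Set.range_subset_iff.2 hgens) (vec_span Mv hv ▸ Subgroup.mem_top _)
    obtain ⟨y, hy, e⟩ := h1
    have h3 := coe_mem_Phi.2 (QuotientGroup.eq.1 e)
    rcases hfr _ h3 with e' | e'
    · rw [inv_mul_eq_one] at e'
      exact e' ▸ hy
    · rw [inv_mul_eq_iff_eq_mul] at e'
      exact e'.symm ▸ mul_mem hy (Subgroup.mem_sup_left hzA)
  refine ⟨A, D, hAiso, hDiso, hAD, hsup, le_antisymm ?_ ?_⟩
  · intro x hx
    obtain ⟨hxA, hxD⟩ := Subgroup.mem_inf.1 hx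
    refine Subgroup.mem_center_iff.2 fun g => ?_
    have h1 : A ⊔ D ≤ Subgroup.centralizer ({x} : Set π.ker) := sup_le
      (fun a ha => Subgroup.mem_centralizer_singleton_iff.2 (hAD a ha x hxD))
      (fun b hb => Subgroup.mem_centralizer_singleton_iff.2 (hAD x hxA b hb).symm)
    exact Subgroup.mem_centralizer_singleton_iff.1 (h1 (hsup ▸ Subgroup.mem_top g))
  · intro x hx
    -- the polar map is nondegenerate
    let K : Subgroup (VQ π) :=
      { carrier := {a | ∀ b, polar (h.sqMap hcen h2) a b = 1}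
        one_mem' := fun b => by rw [Q.polar_comm]; exact Q.polar_one b
        mul_mem' := fun {a a'} ha ha' b => by rw [Q.polar_mul_left, ha b, ha' b, one_mul]
        inv_mem' := fun {a} ha b => by rw [inv_eq_of_mul_eq_one_left (Q.v2 a)]; exact ha b }
    have hK : K = ⊥ := by
      refine (Mv.irreducible K fun a ha b => ?_).resolve_right fun e => hB1 ?_
      · have hb : b = h.actV pf (h.actV pf⁻¹ b) := by rw [← act_mul, mul_inv_cancel, act_one]
        rw [hb, Q.polar_equiv, ha, map_one]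
      · rw [← hpol 0 1 (by decide)]
        exact (e.symm ▸ Subgroup.mem_top _ : vec h.actV v 0 ∈ K) _
    have hxK : (x : VQ π) ∈ K := by
      intro b
      induction b using QuotientGroup.induction_on with
      | _ b =>
        unfold polar
        apply Subtype.ext
        rw [← QuotientGroup.mk_mul]
        show ((x * b : π.ker) : Y) * (x * b : π.ker) * ((x : Y) * x) * ((b : Y) * b) = 1
        have hxb : (x : Y) * b = b * x := congrArg Subtype.val (Subgroup.mem_center_iff.1 hx b).symm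
        have hX := h2 _ (h.sq_mem x.2)
        have hBb := h2 _ (h.sq_mem b.2)
        rw [Subgroup.coe_mul]
        calc (x : Y) * b * (x * b) * (x * x) * (b * b)
            = x * (b * x) * b * (x * x) * (b * b) := by group
          _ = x * x * ((b * b) * (x * x)) * (b * b) := by rw [← hxb]; group
          _ = x * x * ((x * x) * (b * b)) * (b * b) := by
              rw [hcen _ (h.sq_mem b.2) _ (Phi_le_ker (h.sq_mem x.2))]
          _ = (x * x * (x * x)) * ((b * b) * (b * b)) := by group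
          _ = 1 := by rw [hX, hBb, one_mul]
    rw [hK, Subgroup.mem_bot, h.mk_eq_one] at hxK
    rcases hfr x hxK with rfl | rfl
    · exact one_mem _
    · exact Subgroup.mem_inf.2 ⟨hzA, hzD⟩

end Five

end Cfsg.Agent.H54.RadFour
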