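import Cfsg.Agent.H54.RadFour.Basic
import Cfsg.Agent.H54.RadFour.AltFiveFacts

/-!
# Faithful modules of order sixteen for the alternating group on five letters

Either a point stabiliser fixes a nonzero vector (permutation type), or three-cycles are fixed
point free (linear type).
-/

set_option autoImplicit false
set_option linter.style.haveILetI false

namespace Cfsg.Agent.H54.RadFour.Five

open Equiv

variable {W : Type*} [CommGroup W] [Finite W] {ψ : A5 →* MulAut W}

/-- A faithful elementary module of order sixteen. -/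
structure Mod (ψ : A5 →* MulAut W) : Prop where
  inj : Function.Injective ψ
  card : Nat.card W = 16
  two : ∀ w : W, w * w = 1

/-- A nonzero vector fixed by the stabiliser of `4`. -/
def IsPoint (ψ : A5 →* MulAut W) (w : W) : Prop := w ≠ 1 ∧ ψ ph w = w ∧ ψ pa w = w

/-- Three-cycles are fixed point free. -/
def IsLinear (ψ : A5 →* MulAut W) : Prop := ∀ w, ψ ph w = w → w = 1

/-- The elements fixed by the four-group fixing `4`. -/
def fours (ψ : A5 →* MulAut W) : Subgroup W := fixSet ψ {pa, pb}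

theorem mem_fours {w : W} : w ∈ fours ψ ↔ ψ pa w = w ∧ ψ pb w = w := by
  simp [fours, mem_fixSet]

namespace Mod

variable (M : Mod ψ)
include M

theorem card_cases (C : Subgroup W) :
    Nat.card C = 1 ∨ Nat.card C = 2 ∨ Nat.card C = 4 ∨ Nat.card C = 8 ∨ Nat.card C = 16 := by
  obtain ⟨n, hn⟩ := card_subgroup_cases M.two C
  have h1 : Nat.card C ∣ 2 ^ 4 := by
    have := Subgroup.card_subgroup_dvd_card C
    rwa [M.card] at this
  rw [hn] at h1 ⊢
  have : n ≤ 4 := (Nat.pow_dvd_pow_iff_le_right (by norm_num)).1 h1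
  interval_cases n <;> simp

theorem fix_ne_top {g : A5} (hg : g ≠ 1) : Nat.card (fixSet ψ {g}) ≠ 16 := by
  intro h
  rw [← M.card] at h
  refine hg (M.inj ?_)
  rw [map_one]
  refine MulEquiv.ext fun w => ?_
  exact (mem_fixSet_singleton ψ).1 ((Subgroup.eq_top_of_card_eq _ h).symm ▸ Subgroup.mem_top w)

theorem eq_one_of_fixed {w : W} (h : ψ pf w = w) : w = 1 := by
  haveI : Fact (Nat.Prime 5) := ⟨by norm_num⟩
  have h1 := card_modEq_fix ψ pf_pow
  rw [M.card, Nat.ModEq] at h1
  have h2 : Nat.card (fixSet ψ {pf}) = 1 := by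
    rcases M.card_cases (fixSet ψ {pf}) with e | e | e | e | e
    · exact e
    all_goals first
      | exact absurd e (M.fix_ne_top pf_ne)
      | (rw [e] at h1; omega)
  exact Subgroup.mem_bot.1 (Subgroup.card_eq_one.1 h2 ▸ (mem_fixSet_singleton ψ).2 h)

theorem irreducible (L : Subgroup W) (hL : ∀ l ∈ L, ψ pf l ∈ L) : L = ⊥ ∨ L = ⊤ := by
  haveI : Fact (Nat.Prime 5) := ⟨by norm_num⟩
  have hinv : ∀ g ∈ Subgroup.zpowers pf, ∀ c ∈ L, ψ g c ∈ L := by
    intro g hg
    obtain ⟨n, rfl⟩ := mem_powers_iff_mem_zpowers.2 hg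
    show ∀ c ∈ _, ψ (_ ^ n) c ∈ _
    intro c hc
    induction n with
    | zero => rw [pow_zero, act_one]; exact hc
    | succ n ih =>
      rw [pow_succ', act_mul]
      exact hL _ (ih (pow_mem (Subgroup.mem_zpowers pf) n))
  have hP : IsPGroup 5 (Subgroup.zpowers pf) := by
    refine IsPGroup.of_card (n := 1) ?_
    rw [Nat.card_zpowers, orderOf_eq_prime pf_pow pf_ne, pow_one]
  have h1 := card_modEq_fixSet ψ _ hP L hinv
  have h2 : L ⊓ fixSet ψ (Subgroup.zpowers pf : Set A5) = ⊥ :=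
    (Subgroup.eq_bot_iff_forall _).2 fun x hx =>
      M.eq_one_of_fixed ((Subgroup.mem_inf.1 hx).2 pf (Subgroup.mem_zpowers pf))
  rw [h2, Subgroup.card_bot, Nat.ModEq] at h1
  rcases M.card_cases L with e | e | e | e | e
  · exact Or.inl (Subgroup.card_eq_one.1 e)
  iterate 3 (rw [e] at h1; omega)
  · exact Or.inr (Subgroup.eq_top_of_card_eq _ (e.trans M.card.symm))

theorem card_fix_ph : Nat.card (fixSet ψ {ph}) = 1 ∨ Nat.card (fixSet ψ {ph}) = 4 := by
  haveI : Fact (Nat.Prime 3) := ⟨Nat.prime_three⟩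
  have h1 := card_modEq_fix ψ ph_pow
  rw [M.card, Nat.ModEq] at h1
  rcases M.card_cases (fixSet ψ {ph}) with e | e | e | e | e
  · exact Or.inl e
  · rw [e] at h1; omega
  · exact Or.inr e
  · rw [e] at h1; omega
  · exact absurd e (M.fix_ne_top ph_ne)

theorem two_le_fours : 2 ≤ Nat.card (fours ψ) := by
  haveI : Fact (Nat.Prime 2) := ⟨Nat.prime_two⟩
  have h1 := card_modEq_fix ψ (p := 2) (g := pa) (by rw [pow_two, pa_sq])
  have hP : IsPGroup 2 (Subgroup.zpowers pb) := by
    refine IsPGroup.of_card (n := 1) ?_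
    rw [Nat.card_zpowers, orderOf_eq_prime (by rw [pow_two, pb_sq]) (by decide), pow_one]
  have hinv : ∀ g ∈ Subgroup.zpowers pb, ∀ c ∈ fixSet ψ {pa}, ψ g c ∈ fixSet ψ {pa} := by
    intro g hg c hc
    rw [mem_fixSet_singleton] at hc ⊢
    have hcomm : Commute pa g := by
      obtain ⟨i, rfl⟩ := hg
      exact (show Commute pa pb from pa_pb).zpow_right i
    rw [← act_mul, hcomm.eq, act_mul, hc]
  have h2 := card_modEq_fixSet ψ _ hP (fixSet ψ {pa}) hinv
  have h3 : fixSet ψ {pa} ⊓ fixSet ψ (Subgroup.zpowers pb : Set A5) = fours ψ := by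
    ext w
    rw [Subgroup.mem_inf, mem_fours, mem_fixSet_singleton]
    refine and_congr_right fun _ => ⟨fun h => h pb (Subgroup.mem_zpowers pb), fun h g hg => ?_⟩
    obtain ⟨i, rfl⟩ := hg
    exact mem_stab ψ |>.1 (zpow_mem (mem_stab ψ |>.2 h) i)
  rw [h3] at h2
  rw [M.card, Nat.ModEq] at h1
  rw [Nat.ModEq] at h2
  have := Nat.card_pos (α := fours ψ)
  omega

theorem fixed_two_fours {i : Fin 5} (hi : i ≠ 4) {w : W} (h1 : ψ pa w = w)
    (h2 : ψ (cp i * pa * (cp i)⁻¹) w = w) (h3 : ψ (cp i * pb * (cp i)⁻¹) w = w) : w = 1 := by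
  obtain ⟨e1, -⟩ := (two_fours i).resolve_left hi
  refine M.eq_one_of_fixed (mem_stab ψ |>.1 ?_)
  rw [← e1]
  refine ev_mem (fun x hx => ?_) _
  simp only [List.mem_cons, List.not_mem_nil, or_false] at hx
  rcases hx with rfl | rfl | rfl <;> exact mem_stab ψ |>.2 (by assumption)

theorem fours_inf {i : Fin 5} (hi : i ≠ 4) :
    fours ψ ⊓ (fours ψ).map (ψ (cp i)).toMonoidHom = ⊥ := by
  refine (Subgroup.eq_bot_iff_forall _).2 fun w hw => ?_
  obtain ⟨hw1, v, hv, rfl⟩ := Subgroup.mem_inf.1 hw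
  exact M.fixed_two_fours hi (mem_fours.1 hw1).1 (fixed_conj ψ (mem_fours.1 hv).1)
    (fixed_conj ψ (mem_fours.1 hv).2)

theorem card_fours_le : Nat.card (fours ψ) ≤ 4 := by
  have h := card_mul_le_of_disjoint _ _ (M.fours_inf (i := 0) (by decide))
  rw [Subgroup.card_map_of_injective (ψ (cp 0)).injective, M.card] at h
  by_contra hlt
  nlinarith

omit M in
theorem fours_invariant {w : W} (hw : w ∈ fours ψ) : ψ ph w ∈ fours ψ := by
  obtain ⟨h1, h2⟩ := mem_fours.1 hw
  refine mem_fours.2 ⟨?_, ?_⟩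
  · rw [← conj_pb]
    exact fixed_conj ψ h2
  · have h3 : pb = ph * (pa * pb) * ph⁻¹ := by decide +kernel
    rw [h3]
    exact fixed_conj ψ (by rw [act_mul, h2, h1])

/-- The dichotomy. -/
theorem point_or_linear : (∃ w, IsPoint ψ w) ∨ IsLinear ψ := by
  classical
  rcases M.card_fix_ph with e | e
  · right
    exact fun w hw => Subgroup.mem_bot.1 (Subgroup.card_eq_one.1 e ▸ (mem_fixSet_singleton ψ).2 hw)
  left
  haveI := Fintype.ofFinite W
  let S := {c : fixSet ψ {ph} // c ≠ 1}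
  let g : Fin 5 × Fin 2 → A5 := fun x => pf ^ x.1.1 * pk ^ x.2.1
  let F : (Fin 5 × Fin 2) × S → {w : W // w ≠ 1} := fun x =>
    ⟨ψ (g x.1) (x.2.1 : W), fun h => x.2.2 (Subtype.ext ((ψ (g x.1)).map_eq_one_iff.1 h))⟩
  have hlt : Fintype.card {w : W // w ≠ 1} < Fintype.card ((Fin 5 × Fin 2) × S) := by
    rw [Fintype.card_prod, Fintype.card_prod, Fintype.card_fin, Fintype.card_fin,
      Fintype.card_subtype_compl, Fintype.card_subtype_eq, Fintype.card_subtype_compl,
      Fintype.card_subtype_eq, ← Nat.card_eq_fintype_card, ← Nat.card_eq_fintype_card, M.card, e]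
    norm_num
  obtain ⟨⟨⟨m, j⟩, c⟩, ⟨⟨m', j'⟩, c'⟩, hne, hF⟩ := Fintype.exists_ne_map_eq_of_card_lt F hlt
  have hF' : ψ (g (m, j)) (c.1 : W) = ψ (g (m', j')) (c'.1 : W) := congrArg Subtype.val hF
  have hpow : ∀ x y : Fin 5, (pf ^ x.1)⁻¹ * pf ^ y.1 = pf ^ (y - x).1 := by decide +kernel
  have htrans : (g (m, j))⁻¹ * g (m', j') = trans (m' - m) j j' := by
    show (pf ^ m.1 * pk ^ j.1)⁻¹ * (pf ^ m'.1 * pk ^ j'.1) = _
    unfold trans
    rw [← hpow]
    group
  set t := trans (m' - m) j j' with ht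
  have hct : (c.1 : W) = ψ t (c'.1 : W) := by
    rw [← htrans, act_mul, ← hF', ← act_mul, inv_mul_cancel, act_one]
  have hfix1 : ψ ph (c.1 : W) = c.1 := (mem_fixSet_singleton ψ).1 c.1.2
  have hfix2 : ψ (t * ph * t⁻¹) (c.1 : W) = c.1 := by
    rw [hct]; exact fixed_conj ψ ((mem_fixSet_singleton ψ).1 c'.1.2)
  rcases two_threes (m' - m) j j' with ⟨hm, hj⟩ | hw
  · exfalso
    have hm' : m' = m := sub_eq_zero.1 hm
    subst hm' hj
    exact hne (Prod.ext rfl (Subtype.ext (Subtype.ext ((ψ (g (m', j))).injective hF'))))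
  obtain ⟨e1, e2⟩ := hw ⟨_, threeAt_lt _ _ _⟩ rfl
  set i : Fin 5 := ⟨_, threeAt_lt (m' - m) j j'⟩
  have hmem : ∀ l, ev [ph, t * ph * t⁻¹] l ∈ stab ψ (c.1 : W) := fun l => by
    refine ev_mem (fun x hx => ?_) _
    simp only [List.mem_cons, List.not_mem_nil, or_false] at hx
    rcases hx with rfl | rfl <;> exact mem_stab ψ |>.2 (by assumption)
  refine ⟨ψ (cp i)⁻¹ (c.1 : W), fun h => c.2 (Subtype.ext ((ψ (cp i)⁻¹).map_eq_one_iff.1 h)),
    ?_, ?_⟩
  · have := fixed_conj ψ (k := (cp i)⁻¹) (mem_stab ψ |>.1 (e1 ▸ hmem _))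
    rwa [inv_inv, show (cp i)⁻¹ * (cp i * ph * (cp i)⁻¹) * cp i = ph by group] at this
  · have := fixed_conj ψ (k := (cp i)⁻¹) (mem_stab ψ |>.1 (e2 ▸ hmem _))
    rwa [inv_inv, show (cp i)⁻¹ * (cp i * pa * (cp i)⁻¹) * cp i = pa by group] at this

end Mod

/-- The five vectors of permutation type. -/
def vec (ψ : A5 →* MulAut W) (w : W) (i : Fin 5) : W := ψ (cp i) w

section Point

variable {w : W} (M : Mod ψ) (hw : IsPoint ψ w)
include M hw

omit M in
theorem stab4_fix {x : A5} (hx : x ∈ stab4) : ψ x w = w := by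
  have ha := mem_stab ψ |>.2 hw.2.2
  have hh := mem_stab ψ |>.2 hw.2.1
  have hb : pb ∈ stab ψ w := by
    rw [show pb = ph⁻¹ * pa * ph by rw [← conj_pb]; group]
    exact mul_mem (mul_mem (inv_mem hh) ha) hh
  refine mem_stab ψ |>.1 ?_
  simp only [stab4, List.mem_cons, List.not_mem_nil, or_false] at hx
  rcases hx with rfl | rfl | rfl | rfl | rfl | rfl | rfl | rfl | rfl | rfl | rfl | rfl
  exacts [one_mem _, ha, hb, mul_mem ha hb, hh, mul_mem ha hh, mul_mem hb hh,
    mul_mem (mul_mem ha hb) hh, mul_mem hh hh, mul_mem ha (mul_mem hh hh),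
    mul_mem hb (mul_mem hh hh), mul_mem (mul_mem ha hb) (mul_mem hh hh)]

omit M in
theorem vec_equiv (g : A5) : ∀ i, ψ g (vec ψ w i) = vec ψ w ((g : Perm (Fin 5)) i) := by
  let S : Subgroup A5 :=
    { carrier := {g | ∀ i, ψ g (vec ψ w i) = vec ψ w ((g : Perm (Fin 5)) i)}
      one_mem' := fun i => by simp [act_one]
      mul_mem' := fun {a b} ha hb i => by
        rw [act_mul, hb, ha]; rfl
      inv_mem' := fun {a} ha i => by
        have h1 := ha ((a⁻¹ : A5).1 i)
        rw [show (a : Perm (Fin 5)) ((a⁻¹ : A5).1 i) = i by simp] at h1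
        conv_lhs => rw [← h1]
        rw [← act_mul, inv_mul_cancel, act_one] }
  have hgen : ∀ {g : A5}, (∀ i, (cp ((g : Perm (Fin 5)) i))⁻¹ * g * cp i ∈ stab4) → g ∈ S := by
    intro g hg i
    show ψ g (ψ (cp i) w) = ψ (cp ((g : Perm (Fin 5)) i)) w
    rw [← act_mul, show g * cp i = cp ((g : Perm (Fin 5)) i) *
      ((cp ((g : Perm (Fin 5)) i))⁻¹ * g * cp i) by group, act_mul, stab4_fix hw (hg i)]
  have hS := eq_top_of_gens (H := S) (hgen fun i => (stab4_gens i).2.2)
    (hgen fun i => (stab4_gens i).1) (hgen fun i => (stab4_gens i).2.1)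
  exact (hS ▸ Subgroup.mem_top g : g ∈ S)

omit M in
theorem vec_four : vec ψ w 4 = w := by
  show ψ (cp 4) w = w
  rw [show cp 4 = 1 by decide +kernel, act_one]

omit M in
theorem vec_ne_one (i : Fin 5) : vec ψ w i ≠ 1 := fun h => hw.1 ((ψ (cp i)).map_eq_one_iff.1 h)

theorem vec_injective : Function.Injective (vec ψ w) := by
  intro i j hij
  by_contra hne
  have key : ∀ k : Fin 5, vec ψ w k = w → k = 4 := by
    intro k hk
    by_contra hk4
    refine hw.1 (M.fixed_two_fours hk4 hw.2.2 ?_ ?_)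
    · rw [← hk]; exact fixed_conj ψ hw.2.2
    · rw [← hk]; exact fixed_conj ψ (stab4_fix hw (x := pb) (by simp [stab4]))
  have h1 := key (((cp j)⁻¹ : A5).1 i) (by
    rw [← vec_equiv hw, hij]
    show ψ (cp j)⁻¹ (ψ (cp j) w) = w
    rw [← act_mul, inv_mul_cancel, act_one])
  have h2 := congrArg (cp j : Perm (Fin 5)) h1
  rw [cp_apply] at h2
  simp at h2
  exact hne h2

theorem vec_prod :
    vec ψ w 0 * vec ψ w 1 * vec ψ w 2 * vec ψ w 3 * vec ψ w 4 = 1 := by
  refine M.eq_one_of_fixed ?_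
  simp only [map_mul, vec_equiv hw, pf_apply]
  show vec ψ w 1 * vec ψ w 2 * vec ψ w 3 * vec ψ w 4 * vec ψ w 0 = _
  ac_rfl

theorem vec_span : Subgroup.closure (Set.range (vec ψ w)) = ⊤ := by
  refine (M.irreducible _ fun l hl => ?_).resolve_left fun h => hw.1 ?_
  · induction hl using Subgroup.closure_induction with
    | mem t ht =>
      obtain ⟨i, rfl⟩ := ht
      rw [vec_equiv hw]
      exact Subgroup.subset_closure ⟨_, rfl⟩
    | one => rw [map_one]; exact one_mem _
    | mul a b _ _ iha ihb => rw [map_mul]; exact mul_mem iha ihb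
    | inv a _ iha => rw [map_inv]; exact inv_mem iha
  · exact Subgroup.mem_bot.1 (h ▸ Subgroup.subset_closure ⟨4, vec_four hw⟩)

theorem vec_mul_ne_one {i j : Fin 5} (h : i ≠ j) : vec ψ w i * vec ψ w j ≠ 1 := fun e =>
  h (vec_injective M hw (by
    rw [eq_inv_of_mul_eq_one_left e, inv_eq_of_mul_eq_one_left (M.two _)]))

/-- The elements fixed by the three-cycle. -/
theorem fix_ph {v : W} (hv : ψ ph v = v) :
    v = 1 ∨ v = vec ψ w 3 ∨ v = w ∨ v = vec ψ w 3 * w := by
  classical
  haveI := Fintype.ofFinite W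
  have h3 : ψ ph (vec ψ w 3) = vec ψ w 3 := by
    rw [vec_equiv hw]; congr 1
  have hmem : ∀ {x}, ψ ph x = x → x ∈ fixSet ψ {ph} := fun hx => (mem_fixSet_singleton ψ).2 hx
  by_contra hne
  simp only [not_or] at hne
  obtain ⟨n1, n2, n3, n4⟩ := hne
  have hcard : Nat.card (fixSet ψ {ph}) = 4 := by
    refine M.card_fix_ph.resolve_left fun e => hw.1 ?_
    exact Subgroup.mem_bot.1 (Subgroup.card_eq_one.1 e ▸ hmem hw.2.1)
  have h12 : vec ψ w 3 * w ≠ 1 := by
    have := vec_mul_ne_one M hw (i := 3) (j := 4) (by decide)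
    rwa [vec_four hw] at this
  have h23 : vec ψ w 3 ≠ w := fun e => by
    exact absurd (vec_injective M hw (e.trans (vec_four hw).symm)) (by decide)
  let s : Finset W := {1, vec ψ w 3, w, vec ψ w 3 * w, v}
  have hs : s.card = 5 := by
    rw [Finset.card_insert_of_notMem, Finset.card_insert_of_notMem, Finset.card_insert_of_notMem,
      Finset.card_insert_of_notMem, Finset.card_singleton] <;>
      simp [Ne.symm n1, Ne.symm n2, Ne.symm n3, Ne.symm n4, h12.symm, h23, hw.1,
        (vec_ne_one hw 3).symm, Ne.symm hw.1, vec_ne_one hw 3]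
  have hsub : ∀ x ∈ s, x ∈ fixSet ψ {ph} := by
    intro x hx
    simp only [s, Finset.mem_insert, Finset.mem_singleton] at hx
    rcases hx with rfl | rfl | rfl | rfl | rfl
    · exact one_mem _
    · exact hmem h3
    · exact hmem hw.2.1
    · exact mul_mem (hmem h3) (hmem hw.2.1)
    · exact hmem hv
  have := Nat.card_le_card_of_injective (fun x : s => (⟨x.1, hsub x.1 x.2⟩ : fixSet ψ {ph}))
    (fun a b e => Subtype.ext (congrArg Subtype.val e :))
  rw [Nat.card_eq_fintype_card, Fintype.card_coe, hs, hcard] at this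
  omega

/-- The elements fixed by the stabiliser of `4`. -/
theorem fix_point {v : W} (h1 : ψ ph v = v) (h2 : ψ pa v = v) : v = 1 ∨ v = w := by
  have hm : ψ pa (vec ψ w 3) = vec ψ w 2 := by rw [vec_equiv hw]; congr 1
  have h23 : vec ψ w 2 ≠ vec ψ w 3 := fun e => absurd (vec_injective M hw e) (by decide)
  rcases fix_ph M hw h1 with rfl | rfl | rfl | rfl
  · exact Or.inl rfl
  · exact absurd (hm.symm.trans h2) h23
  · exact Or.inr rfl
  · rw [map_mul, hm, hw.2.2] at h2
    exact absurd (mul_right_cancel h2) h23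

/-- The elements fixed by the setwise stabiliser of `{3, 4}`. -/
theorem fix_pair {v : W} (h1 : ψ ph v = v) (h2 : ψ ps v = v) :
    v = 1 ∨ v = vec ψ w 3 * vec ψ w 4 := by
  have hne : vec ψ w 4 ≠ vec ψ w 3 := fun e => absurd (vec_injective M hw e) (by decide)
  rcases fix_ph M hw h1 with rfl | rfl | e | rfl
  · exact Or.inl rfl
  · rw [vec_equiv hw] at h2
    exact absurd h2 (fun e => hne ((show vec ψ w 4 = _ from rfl).trans e))
  · have h5 : ψ ps (vec ψ w 4) = vec ψ w 4 := by rw [vec_four hw, ← e]; exact h2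
    rw [vec_equiv hw] at h5
    exact absurd h5 (fun e => hne.symm ((show vec ψ w 3 = _ from rfl).trans e))
  · exact Or.inr (by rw [vec_four hw])

/-- The elements fixed by the four-group fixing `4`. -/
theorem fours_eq {v : W} (hv : v ∈ fours ψ) : v = 1 ∨ v = w := by
  classical
  haveI := Fintype.ofFinite W
  by_contra hne
  simp only [not_or] at hne
  obtain ⟨n1, n2⟩ := hne
  have hwf : w ∈ fours ψ := mem_fours.2 ⟨hw.2.2, stab4_fix hw (by simp [stab4])⟩
  have hfix : ∀ u ∈ fours ψ, ψ ph u = u → u = 1 ∨ u = w := fun u hu h =>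
    fix_point M hw h (mem_fours.1 hu).1
  have n3 : ψ ph v ≠ v := fun h => (hfix v hv h).elim n1 n2
  have n4 : ψ ph (ψ ph v) ≠ v := by
    intro h
    have h3 : ψ ph (ψ ph (ψ ph v)) = v := by
      rw [← act_mul, ← act_mul, show ph * ph * ph = 1 by decide +kernel, act_one]
    rw [h] at h3
    exact n3 h3
  have hv1 := Mod.fours_invariant hv
  have hv2 := Mod.fours_invariant hv1
  have e1 : ∀ {x}, ψ ph x = 1 ↔ x = 1 := fun {x} => (ψ ph).map_eq_one_iff
  have e2 : ∀ {x}, ψ ph x = w ↔ x = w := fun {x} =>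
    ⟨fun h => (ψ ph).injective (h.trans hw.2.1.symm), fun h => h ▸ hw.2.1⟩
  let s : Finset W := {1, w, v, ψ ph v, ψ ph (ψ ph v)}
  have hs : s.card = 5 := by
    rw [Finset.card_insert_of_notMem, Finset.card_insert_of_notMem, Finset.card_insert_of_notMem,
      Finset.card_insert_of_notMem, Finset.card_singleton] <;>
      simp [Ne.symm hw.1, Ne.symm n1, Ne.symm n2, e1, e2, n1, n2, Ne.symm n3, Ne.symm n4,
        eq_comm (a := (1 : W)), eq_comm (a := w)]
  have hsub : ∀ x ∈ s, x ∈ fours ψ := by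
    intro x hx
    simp only [s, Finset.mem_insert, Finset.mem_singleton] at hx
    rcases hx with rfl | rfl | rfl | rfl | rfl
    · exact one_mem _
    · exact hwf
    · exact hv
    · exact hv1
    · exact hv2
  have := Nat.card_le_card_of_injective (fun x : s => (⟨x.1, hsub x.1 x.2⟩ : fours ψ))
    (fun a b e => Subtype.ext (congrArg Subtype.val e :))
  rw [Nat.card_eq_fintype_card, Fintype.card_coe, hs] at this
  have := M.card_fours_le
  omega

end Point

section Linear

variable (M : Mod ψ) (hl : IsLinear ψ)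
include M hl

theorem card_fours : Nat.card (fours ψ) = 4 := by
  haveI : Fact (Nat.Prime 3) := ⟨Nat.prime_three⟩
  have hP : IsPGroup 3 (Subgroup.zpowers ph) := by
    refine IsPGroup.of_card (n := 1) ?_
    rw [Nat.card_zpowers, orderOf_eq_prime ph_pow ph_ne, pow_one]
  have hinv : ∀ g ∈ Subgroup.zpowers ph, ∀ c ∈ fours ψ, ψ g c ∈ fours ψ := by
    intro g hg
    obtain ⟨n, rfl⟩ := mem_powers_iff_mem_zpowers.2 hg
    show ∀ c ∈ _, ψ (_ ^ n) c ∈ _
    intro c hc
    clear hg
    induction n with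
    | zero => rw [pow_zero, act_one]; exact hc
    | succ n ih => rw [pow_succ', act_mul]; exact Mod.fours_invariant ih
  have h1 := card_modEq_fixSet ψ _ hP (fours ψ) hinv
  have h2 : fours ψ ⊓ fixSet ψ (Subgroup.zpowers ph : Set A5) = ⊥ :=
    (Subgroup.eq_bot_iff_forall _).2 fun x hx =>
      hl x ((Subgroup.mem_inf.1 hx).2 ph (Subgroup.mem_zpowers ph))
  rw [h2, Subgroup.card_bot, Nat.ModEq] at h1
  have := M.card_fours_le
  have := M.two_le_fours
  omega

/-- Every nonzero vector lies in one of the five lines. -/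
theorem cover {v : W} (hv : v ≠ 1) : ∃ i : Fin 5, ∃ l ∈ fours ψ, l ≠ 1 ∧ v = ψ (cp i) l := by
  classical
  haveI := Fintype.ofFinite W
  let F : Fin 5 × {l : fours ψ // l ≠ 1} → {w : W // w ≠ 1} := fun x =>
    ⟨ψ (cp x.1) (x.2.1 : W), fun h => x.2.2 (Subtype.ext ((ψ (cp x.1)).map_eq_one_iff.1 h))⟩
  have hF : Function.Injective F := by
    rintro ⟨i, l⟩ ⟨j, l'⟩ e
    have e' : ψ (cp i) (l.1 : W) = ψ (cp j) (l'.1 : W) := congrArg Subtype.val e
    have hij : i = j := by
      by_contra hne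
      have hk : ∃ k : Fin 5, k ≠ 4 ∧ ∃ x ∈ stab4, (cp i)⁻¹ * cp j = cp k * x :=
        (show ∀ a b : Fin 5, a ≠ b → ∃ k : Fin 5, k ≠ 4 ∧ ∃ x ∈ stab4, (cp a)⁻¹ * cp b = cp k * x
          by decide +kernel) i j hne
      obtain ⟨k, hk, x, hx, ex⟩ := hk
      have h1 : (l.1 : W) = ψ (cp k) (ψ x (l'.1 : W)) := by
        rw [← act_mul, ← ex, act_mul, ← e', ← act_mul, inv_mul_cancel, act_one]
      have hxl : ψ x (l'.1 : W) ∈ fours ψ := by
        have hA : ψ pa (l'.1 : W) = l'.1 ∧ ψ pb (l'.1 : W) = l'.1 := mem_fours.1 l'.1.2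
        have hh := Mod.fours_invariant l'.1.2
        have hh2 := Mod.fours_invariant hh
        have hmain : ∀ u, u ∈ fours ψ → ∀ y ∈ [1, pa, pb, pa * pb], ψ y u ∈ fours ψ := by
          intro u hu y hy
          simp only [List.mem_cons, List.not_mem_nil, or_false] at hy
          obtain ⟨u1, u2⟩ := mem_fours.1 hu
          rcases hy with rfl | rfl | rfl | rfl
          · rw [act_one]; exact hu
          · rw [u1]; exact hu
          · rw [u2]; exact hu
          · rw [act_mul, u2, u1]; exact hu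
        have hy0 : (1 : A5) ∈ [1, pa, pb, pa * pb] := List.mem_cons_self
        have hy1 : pa ∈ [1, pa, pb, pa * pb] := List.mem_cons_of_mem _ List.mem_cons_self
        have hy2 : pb ∈ [1, pa, pb, pa * pb] :=
          List.mem_cons_of_mem _ (List.mem_cons_of_mem _ List.mem_cons_self)
        have hy3 : pa * pb ∈ [1, pa, pb, pa * pb] :=
          List.mem_cons_of_mem _ (List.mem_cons_of_mem _ (List.mem_cons_of_mem _ List.mem_cons_self))
        have m1 : ∀ y ∈ [1, pa, pb, pa * pb], ψ (y * ph) (l'.1 : W) ∈ fours ψ := fun y hy => by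
          rw [act_mul]; exact hmain _ hh y hy
        have h22 : ψ (ph * ph) (l'.1 : W) ∈ fours ψ := by rw [act_mul]; exact hh2
        have m2 : ∀ y ∈ [1, pa, pb, pa * pb], ψ (y * (ph * ph)) (l'.1 : W) ∈ fours ψ := fun y hy => by
          rw [act_mul]; exact hmain _ h22 y hy
        simp only [stab4, List.mem_cons, List.not_mem_nil, or_false] at hx
        rcases hx with rfl | rfl | rfl | rfl | rfl | rfl | rfl | rfl | rfl | rfl | rfl | rfl
        exacts [hmain _ l'.1.2 _ hy0, hmain _ l'.1.2 _ hy1, hmain _ l'.1.2 _ hy2,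
          hmain _ l'.1.2 _ hy3, hh, m1 _ hy1, m1 _ hy2, m1 _ hy3, h22, m2 _ hy1, m2 _ hy2, m2 _ hy3]
      refine l.2 (Subtype.ext (Subgroup.mem_bot.1 ?_))
      rw [← M.fours_inf hk]
      exact Subgroup.mem_inf.2 ⟨l.1.2, _, hxl, h1.symm⟩
    subst hij
    exact Prod.ext rfl (Subtype.ext (Subtype.ext ((ψ (cp i)).injective e')))
  have hcard : Fintype.card {w : W // w ≠ 1} ≤ Fintype.card (Fin 5 × {l : fours ψ // l ≠ 1}) := by
    rw [Fintype.card_prod, Fintype.card_fin, Fintype.card_subtype_compl, Fintype.card_subtype_eq,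
      Fintype.card_subtype_compl, Fintype.card_subtype_eq, ← Nat.card_eq_fintype_card,
      ← Nat.card_eq_fintype_card, M.card, card_fours M hl]
  obtain ⟨⟨i, l⟩, e⟩ := ((Fintype.bijective_iff_injective_and_card F).2
    ⟨hF, le_antisymm (Fintype.card_le_of_injective F hF) hcard⟩).2 ⟨v, hv⟩
  exact ⟨i, l.1, l.1.2, fun h => l.2 (Subtype.ext h), (congrArg Subtype.val e).symm⟩

/-- An involution fixes only the line of its fixed point. -/
theorem fix_pa {v : W} (hv : ψ pa v = v) : v ∈ fours ψ := by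
  rcases eq_or_ne v 1 with rfl | hv1
  · exact one_mem _
  obtain ⟨i, l, hl', -, rfl⟩ := cover M hl hv1
  rcases eq_or_ne i 4 with rfl | hi
  · rwa [show cp 4 = 1 by decide +kernel, act_one]
  · exact absurd (M.fixed_two_fours hi hv (fixed_conj ψ (mem_fours.1 hl').1)
      (fixed_conj ψ (mem_fours.1 hl').2)) hv1

theorem line_distinct {x : W} (hx1 : x ≠ 1) : ψ ph x ≠ x ∧ ψ ph (ψ ph x) ≠ x := by
  refine ⟨fun h => hx1 (hl x h), fun h => hx1 (hl x ?_)⟩
  have h3 : ψ ph (ψ ph (ψ ph x)) = x := by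
    rw [← act_mul, ← act_mul, show ph * ph * ph = 1 by decide +kernel, act_one]
  rwa [h] at h3

/-- The four elements of the line. -/
theorem line_eq {x v : W} (hx : x ∈ fours ψ) (hx1 : x ≠ 1) (hv : v ∈ fours ψ) :
    v = 1 ∨ v = x ∨ v = ψ ph x ∨ v = ψ ph (ψ ph x) := by
  classical
  haveI := Fintype.ofFinite W
  by_contra hne
  simp only [not_or] at hne
  obtain ⟨n1, n2, n3, n4⟩ := hne
  obtain ⟨d1, d2⟩ := line_distinct M hl hx1
  have e1 : ∀ {z}, ψ ph z = 1 ↔ z = 1 := fun {z} => (ψ ph).map_eq_one_iff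
  have d3 : ψ ph (ψ ph x) ≠ ψ ph x := fun h => d1 ((ψ ph).injective h)
  let s : Finset W := {1, x, ψ ph x, ψ ph (ψ ph x), v}
  have hs : s.card = 5 := by
    rw [Finset.card_insert_of_notMem, Finset.card_insert_of_notMem, Finset.card_insert_of_notMem,
      Finset.card_insert_of_notMem, Finset.card_singleton] <;>
      simp [Ne.symm n1, Ne.symm n2, Ne.symm n3, Ne.symm n4, Ne.symm hx1, hx1, e1, d1, d2, d3,
        Ne.symm d1, Ne.symm d2, Ne.symm d3, eq_comm (a := (1 : W))]
  have hsub : ∀ z ∈ s, z ∈ fours ψ := by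
    intro z hz
    simp only [s, Finset.mem_insert, Finset.mem_singleton] at hz
    rcases hz with rfl | rfl | rfl | rfl | rfl
    · exact one_mem _
    · exact hx
    · exact Mod.fours_invariant hx
    · exact Mod.fours_invariant (Mod.fours_invariant hx)
    · exact hv
  have := Nat.card_le_card_of_injective (fun z : s => (⟨z.1, hsub z.1 z.2⟩ : fours ψ))
    (fun a b e => Subtype.ext (congrArg Subtype.val e :))
  rw [Nat.card_eq_fintype_card, Fintype.card_coe, hs, card_fours M hl] at this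
  omega

/-- The group is transitive on nonzero vectors. -/
theorem transitive {x v : W} (hx : x ≠ 1) (hv : v ≠ 1) : ∃ g, ψ g x = v := by
  obtain ⟨i, a, ha, ha1, rfl⟩ := cover M hl hx
  obtain ⟨j, b, hb, hb1, rfl⟩ := cover M hl hv
  have hab : ∃ g, ψ g a = b := by
    rcases line_eq M hl ha ha1 hb with e | e | e | e
    · exact absurd e hb1
    · exact ⟨1, by rw [act_one, e]⟩
    · exact ⟨ph, e.symm⟩
    · exact ⟨ph * ph, by rw [act_mul, e]⟩
  obtain ⟨g, hg⟩ := hab
  refine ⟨cp j * g * (cp i)⁻¹, ?_⟩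
  rw [← act_mul, inv_mul_cancel_right, act_mul, hg]

end Linear

/-- An involution fixes exactly four vectors. -/
theorem Mod.card_fix_pa (M : Mod ψ) : Nat.card (fixSet ψ {pa}) = 4 := by
  rcases M.point_or_linear with ⟨w, hw⟩ | hl
  · let τ : W →* W :=
      { toFun := fun v => ψ pa v * v
        map_one' := by simp
        map_mul' := fun a b => by rw [map_mul, mul_mul_mul_comm] }
    have hker : τ.ker = fixSet ψ {pa} := by
      ext v
      rw [mem_fixSet_singleton]
      show ψ pa v * v = 1 ↔ _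
      rw [mul_eq_one_iff_eq_inv, inv_eq_of_mul_eq_one_left (M.two v)]
    have hmul := Subgroup.card_mul_index τ.ker
    rw [Subgroup.index_ker, hker, M.card] at hmul
    have hrle : τ.range ≤ fixSet ψ {pa} := by
      rintro _ ⟨v, rfl⟩
      refine (mem_fixSet_singleton ψ).2 ?_
      show ψ pa (ψ pa v * v) = ψ pa v * v
      rw [map_mul, ← act_mul, pa_sq, act_one, mul_comm]
    have hle := Subgroup.card_le_of_le hrle
    have h3 : 3 ≤ Nat.card τ.range := by
      have hx : τ (vec ψ w 0) = vec ψ w 1 * vec ψ w 0 := by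
        show ψ pa _ * _ = _
        rw [vec_equiv hw]; congr 2
      have hy : τ (vec ψ w 2) = vec ψ w 3 * vec ψ w 2 := by
        show ψ pa _ * _ = _
        rw [vec_equiv hw]; congr 2
      have hxy : τ (vec ψ w 0) ≠ τ (vec ψ w 2) := by
        intro e
        rw [hx, hy] at e
        refine vec_ne_one hw 4 ?_
        have hp := vec_prod M hw
        rw [show vec ψ w 0 * vec ψ w 1 * vec ψ w 2 * vec ψ w 3 =
          (vec ψ w 1 * vec ψ w 0) * (vec ψ w 3 * vec ψ w 2) by ac_rfl, e, M.two, one_mul] at hp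
        exact hp
      classical
      haveI := Fintype.ofFinite W
      let s : Finset W := {1, τ (vec ψ w 0), τ (vec ψ w 2)}
      have hs : s.card = 3 := by
        have a0 : τ (vec ψ w 0) ≠ 1 := by rw [hx]; exact vec_mul_ne_one M hw (by decide)
        have a2 : τ (vec ψ w 2) ≠ 1 := by rw [hy]; exact vec_mul_ne_one M hw (by decide)
        rw [Finset.card_insert_of_notMem, Finset.card_insert_of_notMem, Finset.card_singleton] <;>
          simp [hxy, a0.symm, a2.symm]
      have hsub : ∀ z ∈ s, z ∈ τ.range := by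
        intro z hz
        simp only [s, Finset.mem_insert, Finset.mem_singleton] at hz
        rcases hz with rfl | rfl | rfl
        · exact one_mem _
        · exact ⟨_, rfl⟩
        · exact ⟨_, rfl⟩
      have := Nat.card_le_card_of_injective (fun z : s => (⟨z.1, hsub z.1 z.2⟩ : τ.range))
        (fun a b e => Subtype.ext (congrArg Subtype.val e :))
      rwa [Nat.card_eq_fintype_card, Fintype.card_coe, hs] at this
    rcases M.card_cases (fixSet ψ {pa}) with e | e | e | e | e <;> rw [e] at hmul hle ⊢ <;> omega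
  · rw [← card_fours M hl]
    exact congrArg (fun S : Subgroup W => Nat.card S) (le_antisymm
      (fun v hv => fix_pa M hl ((mem_fixSet_singleton ψ).1 hv))
      (fun v hv => (mem_fixSet_singleton ψ).2 (mem_fours.1 hv).1))

end Cfsg.Agent.H54.RadFour.Five
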