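import Cfsg.Agent.H54.RadFour.AltFiveModule

/-!
# Quadratic maps commuting with the alternating group on five letters
-/

set_option autoImplicit false
set_option linter.style.haveILetI false

namespace Cfsg.Agent.H54.RadFour.Five

open Equiv

variable {V W : Type*} [CommGroup V] [Finite V] [CommGroup W] [Finite W]
  {φ : A5 →* MulAut V} {ψ : A5 →* MulAut W} {q : V → W}

theorem q_vec (h : QMap φ ψ q) (v : V) (i : Fin 5) : q (vec φ v i) = vec ψ (q v) i := h.equiv _ _

/-- The polar map on two basic vectors is a translate of the one on `3` and `4`. -/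
theorem polar_pairs (h : QMap φ ψ q) {v : V} (hv : IsPoint φ v) {i j : Fin 5} (hij : i ≠ j) :
    ∃ g : A5, polar q (vec φ v i) (vec φ v j) = ψ g (polar q (vec φ v 3) (vec φ v 4)) ∧
      (((g : Perm (Fin 5)) 3 = i ∧ (g : Perm (Fin 5)) 4 = j) ∨
        ((g : Perm (Fin 5)) 3 = j ∧ (g : Perm (Fin 5)) 4 = i)) := by
  obtain ⟨m, e, he⟩ := (pairs i j).resolve_left hij
  refine ⟨pf ^ m.1 * pk ^ e.1, ?_, he⟩
  rw [← h.polar_equiv, vec_equiv hv, vec_equiv hv]
  rcases he with ⟨h3, h4⟩ | ⟨h3, h4⟩
  · rw [h3, h4]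
  · rw [h3, h4, h.polar_comm]

/-- The permutation module has only one invariant quadratic form. -/
theorem q_point_trivial (h : QMap φ ψ q) (Mv : Mod φ) (htriv : ∀ g w, ψ g w = w) {v : V}
    (hv : IsPoint φ v) : ∃ B : W, (∀ i, q (vec φ v i) = 1) ∧
      (∀ i j, i ≠ j → polar q (vec φ v i) (vec φ v j) = B) ∧ ∀ x, q x = 1 ∨ q x = B := by
  set B := polar q (vec φ v 3) (vec φ v 4) with hB
  have hc : ∀ i j, i ≠ j → polar q (vec φ v i) (vec φ v j) = B := fun i j hij => by
    obtain ⟨g, e, -⟩ := polar_pairs h hv hij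
    rw [e, htriv]
  have hA : ∀ i, q (vec φ v i) = q v := fun i => by rw [q_vec h]; exact htriv _ _
  have hA1 : q v = 1 := by
    have hp : vec φ v 0 * vec φ v 1 * vec φ v 2 * vec φ v 3 = vec φ v 4 := by
      have := vec_prod Mv hv
      rw [eq_inv_of_mul_eq_one_left this, inv_eq_of_mul_eq_one_left (Mv.two _)]
    have h1 := congrArg q hp
    rw [h.q_mul, h.q_mul, h.q_mul, h.polar_mul_left, h.polar_mul_left, h.polar_mul_left, hA, hA, hA,
      hA, hA, hc 0 1 (by decide), hc 0 2 (by decide), hc 1 2 (by decide), hc 0 3 (by decide),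
      hc 1 3 (by decide), hc 2 3 (by decide)] at h1
    calc q v = q v * q v * B * q v * (B * B) * q v * (B * B * B) * ((q v * q v) * (q v * q v) *
          (B * B) * (B * B) * (B * B)) * q v := by
            simp only [h.w2, h.cancel, one_mul, mul_one]
      _ = q v * q v := by rw [h1]; simp only [h.w2, one_mul, mul_one]
      _ = 1 := h.w2 _
  have hq1 : ∀ i, q (vec φ v i) = 1 := fun i => by rw [hA, hA1]
  refine ⟨B, hq1, hc, ?_⟩
  let L : Subgroup W :=
    { carrier := {w | w = 1 ∨ w = B}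
      one_mem' := Or.inl rfl
      mul_mem' := by rintro a b (rfl | rfl) (rfl | rfl) <;> simp [h.w2]
      inv_mem' := by
        rintro a (rfl | rfl)
        · exact Or.inl inv_one
        · exact Or.inr (inv_eq_of_mul_eq_one_left (h.w2 B)) }
  have hgen : ∀ x, ∀ i, polar q x (vec φ v i) ∈ L := by
    intro x i
    have := vec_span Mv hv ▸ Subgroup.mem_top x
    induction this using Subgroup.closure_induction with
    | mem t ht =>
      obtain ⟨j, rfl⟩ := ht
      rcases eq_or_ne j i with rfl | hne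
      · exact Or.inl (h.polar_self _)
      · exact Or.inr (hc j i hne)
    | one => rw [h.polar_comm]; exact Or.inl (h.polar_one _)
    | mul a b _ _ iha ihb => rw [h.polar_mul_left]; exact mul_mem iha ihb
    | inv a _ iha => rw [inv_eq_of_mul_eq_one_left (h.v2 a)]; exact iha
  have hpol : ∀ x y, polar q x y ∈ L := by
    intro x y
    have := vec_span Mv hv ▸ Subgroup.mem_top y
    induction this using Subgroup.closure_induction with
    | mem t ht => obtain ⟨j, rfl⟩ := ht; exact hgen x j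
    | one => exact Or.inl (h.polar_one _)
    | mul a b _ _ iha ihb => rw [h.polar_mul_right]; exact mul_mem iha ihb
    | inv a _ iha => rw [inv_eq_of_mul_eq_one_left (h.v2 a)]; exact iha
  intro x
  show q x ∈ L
  have := vec_span Mv hv ▸ Subgroup.mem_top x
  induction this using Subgroup.closure_induction with
  | mem t ht => obtain ⟨j, rfl⟩ := ht; exact Or.inl (hq1 j)
  | one => exact Or.inl h.q_one
  | mul a b _ _ iha ihb => rw [h.q_mul]; exact mul_mem (mul_mem iha ihb) (hpol a b)
  | inv a _ iha => rw [inv_eq_of_mul_eq_one_left (h.v2 a)]; exact iha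

/-- The natural module has no invariant quadratic form. -/
theorem q_linear_trivial (h : QMap φ ψ q) (Mv : Mod φ) (htriv : ∀ g w, ψ g w = w)
    (hl : IsLinear φ) : ∀ x, q x = 1 := by
  obtain ⟨x, hx, hx1⟩ := (Subgroup.bot_or_exists_ne_one (fours φ)).resolve_left fun e => by
    have := card_fours Mv hl
    rw [e, Subgroup.card_bot] at this
    omega
  obtain ⟨z, hz⟩ : ∃ z, z ∉ fours φ := by
    by_contra hall
    push Not at hall
    have := card_fours Mv hl
    rw [(Subgroup.eq_top_iff' _).2 hall, Subgroup.card_top, Mv.card] at this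
    omega
  set y := φ ph x with hy
  have hyL : y ∈ fours φ := Mod.fours_invariant hx
  obtain ⟨d1, -⟩ := line_distinct Mv hl hx1
  have hconst : ∀ a, a ≠ 1 → q a = q x := fun a ha => by
    obtain ⟨g, rfl⟩ := transitive Mv hl hx1 ha
    rw [h.equiv, htriv]
  have hz1 : ∀ {u}, u ∈ fours φ → u * z ≠ 1 := fun {u} hu e => hz (by
    rw [eq_inv_of_mul_eq_one_right e]; exact inv_mem hu)
  have hxy : x * y ≠ 1 := fun e => d1 (by
    show y = x
    rw [eq_inv_of_mul_eq_one_right e, inv_eq_of_mul_eq_one_left (Mv.two _)])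
  have h1 := h.quad x y z
  rw [hconst _ (hz1 (mul_mem hx hyL)), hconst _ hxy, hconst _ (hz1 hyL), hconst _ (hz1 hx),
    hconst z (fun e => hz (e ▸ one_mem _)),
    hconst y (fun e => hx1 ((φ ph).map_eq_one_iff.1 e))] at h1
  intro a
  rcases eq_or_ne a 1 with rfl | ha
  · exact h.q_one
  rw [hconst a ha]
  calc q x = q x * q x * q x * ((q x * (q x * q x * q x))) := by
        simp only [h.w2, one_mul, mul_one, h.cancel]
    _ = q x * q x * q x * (q x * q x * q x) := by rw [h1]
    _ = 1 := h.w2 _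

/-- Between two linear modules the polar map vanishes. -/
theorem polar_linear (h : QMap φ ψ q) (Mv : Mod φ) (hl : IsLinear φ) (hw : IsLinear ψ) :
    ∀ a b, polar q a b = 1 := by
  set L := fours φ with hL
  have hh3 : ∀ v : V, φ ph (φ ph (φ ph v)) = v := fun v => by
    rw [← act_mul, ← act_mul, show ph * ph * ph = 1 by decide +kernel, act_one]
  -- the line is isotropic
  have hfour : ∀ {a}, a ∈ L → a ≠ 1 → φ ph (φ ph a) = a * φ ph a := by
    intro a ha ha1
    obtain ⟨d1, d2⟩ := line_distinct Mv hl ha1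
    rcases line_eq Mv hl ha ha1 (mul_mem ha (Mod.fours_invariant ha)) with e | e | e | e
    · exact absurd (by rw [eq_inv_of_mul_eq_one_right e, inv_eq_of_mul_eq_one_left (Mv.two _)]) d1
    · exact absurd ((φ ph).map_eq_one_iff.1 (mul_eq_left.1 e)) ha1
    · exact absurd (mul_eq_right.1 e) ha1
    · exact e.symm
  have hhl : ∀ {a}, a ∈ L → polar q a (φ ph a) = 1 := by
    intro a ha
    rcases eq_or_ne a 1 with rfl | ha1
    · rw [map_one]; exact h.polar_one _
    refine hw _ ?_
    rw [← h.polar_equiv, hfour ha ha1, h.polar_mul_right, h.polar_self, mul_one, h.polar_comm]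
  have hLL : ∀ a ∈ L, ∀ b ∈ L, polar q a b = 1 := by
    intro a ha b hb
    rcases eq_or_ne a 1 with rfl | ha1
    · rw [h.polar_comm]; exact h.polar_one _
    rcases line_eq Mv hl ha ha1 hb with rfl | rfl | rfl | rfl
    · exact h.polar_one _
    · exact h.polar_self _
    · exact hhl ha
    · rw [hfour ha ha1, h.polar_mul_right, h.polar_self, one_mul]; exact hhl ha
  -- a second line, also invariant under the three-cycle
  set A := cp 3 * pa * (cp 3)⁻¹ with hA
  set B := cp 3 * pb * (cp 3)⁻¹ with hB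
  set L3 : Subgroup V := fixSet φ {A, B} with hL3
  have hmem3 : ∀ {v}, v ∈ L3 ↔ φ A v = v ∧ φ B v = v := fun {v} =>
    ⟨fun hv => ⟨hv A (Set.mem_insert _ _), hv B (Set.mem_insert_of_mem _ rfl)⟩, fun hv g hg => by
      rcases hg with hg | hg
      · rw [hg]; exact hv.1
      · rw [Set.mem_singleton_iff.1 hg]; exact hv.2⟩
  have hpre : ∀ {v}, v ∈ L3 → φ (cp 3)⁻¹ v ∈ L := by
    intro v hv
    obtain ⟨h1, h2⟩ := hmem3.1 hv
    refine mem_fours.2 ⟨?_, ?_⟩
    · conv_rhs => rw [← h1]
      rw [← act_mul, ← act_mul, show pa * (cp 3)⁻¹ = (cp 3)⁻¹ * A by rw [hA]; group]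
    · conv_rhs => rw [← h2]
      rw [← act_mul, ← act_mul, show pb * (cp 3)⁻¹ = (cp 3)⁻¹ * B by rw [hB]; group]
  have hmap : L.map (φ (cp 3)).toMonoidHom ≤ L3 := by
    rintro _ ⟨u, hu, rfl⟩
    exact hmem3.2 ⟨fixed_conj φ (mem_fours.1 hu).1, fixed_conj φ (mem_fours.1 hu).2⟩
  have hinv3 : ∀ {v}, v ∈ L3 → φ ph v ∈ L3 := by
    intro v hv
    obtain ⟨h1, h2⟩ := hmem3.1 hv
    have hAB : φ (A * B) v = v := by rw [act_mul, h2, h1]
    have hd : ∀ X ∈ [A, B], ph⁻¹ * X * ph ∈ [A, B, A * B] := by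
      rw [hA, hB]; decide +kernel
    refine hmem3.2 ⟨?_, ?_⟩
    · have h3 := hd A List.mem_cons_self
      simp only [List.mem_cons, List.not_mem_nil, or_false] at h3
      rw [← act_mul, show A * ph = ph * (ph⁻¹ * A * ph) by group, act_mul]
      rcases h3 with e | e | e <;> rw [e] <;> simp only [h1, h2, hAB]
    · have h3 := hd B (List.mem_cons_of_mem _ List.mem_cons_self)
      simp only [List.mem_cons, List.not_mem_nil, or_false] at h3
      rw [← act_mul, show B * ph = ph * (ph⁻¹ * B * ph) by group, act_mul]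
      rcases h3 with e | e | e <;> rw [e] <;> simp only [h1, h2, hAB]
  have hdisj : L ⊓ L3 = ⊥ := (Subgroup.eq_bot_iff_forall _).2 fun v hv => by
    obtain ⟨h1, h2⟩ := Subgroup.mem_inf.1 hv
    exact Mv.fixed_two_fours (i := 3) (by decide) (mem_fours.1 h1).1 (hmem3.1 h2).1 (hmem3.1 h2).2
  have h33 : ∀ a ∈ L3, ∀ b ∈ L3, polar q a b = 1 := by
    intro a ha b hb
    have e : ∀ v : V, φ (cp 3) (φ (cp 3)⁻¹ v) = v := fun v => by
      rw [← act_mul, mul_inv_cancel, act_one]
    rw [← e a, ← e b, h.polar_equiv, hLL _ (hpre ha) _ (hpre hb), map_one]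
  have hfixb : ∀ {u}, φ pb u = u → φ ph u ∈ L := fun {u} hu =>
    fix_pa Mv hl (by
      conv_lhs => rw [← conj_pb]
      exact fixed_conj φ hu)
  have hfixb' : ∀ {u}, φ pb u = u → u ∈ L := fun {u} hu => by
    rw [← hh3 u]
    exact Mod.fours_invariant (Mod.fours_invariant (hfixb hu))
  let τ : V → V := fun u => φ pa u * u
  have hτL : ∀ u, τ u ∈ L := fun u => fix_pa Mv hl (by
    show φ pa (φ pa u * u) = φ pa u * u
    rw [map_mul, ← act_mul, pa_sq, act_one, mul_comm])
  -- mixed pairs
  have hkey : ∀ y ∈ L3, y ≠ 1 → τ y ≠ 1 ∧ τ (φ ph (φ ph y)) = φ ph (τ y) ∧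
      polar q y (φ ph (τ y)) = 1 := by
    intro y hy hy1
    have hynL : y ∉ L := fun hyL => hy1 (Subgroup.mem_bot.1 (hdisj ▸ Subgroup.mem_inf.2 ⟨hyL, hy⟩))
    have hz1 : τ y ≠ 1 := fun e => hynL (fix_pa Mv hl (by
      rw [eq_inv_of_mul_eq_one_left e, inv_eq_of_mul_eq_one_left (Mv.two _)]))
    set y' := φ ph (φ ph y) with hy'
    have hy'3 : y' ∈ L3 := hinv3 (hinv3 hy)
    have hz1' : φ ph (τ y') = φ (pa * pb) y * y := by
      show φ ph (φ pa y' * y') = _
      have hinv : φ ph⁻¹ y = y' := by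
        conv_lhs => rw [← hh3 y]
        rw [← act_mul, inv_mul_cancel, act_one]
      rw [map_mul, hh3, ← conj_pa, act_mul, act_mul, hinv]
    have hne : φ ph (τ y') ≠ τ y := by
      rw [hz1']
      intro e
      have e1 : φ pa (φ pb y) = φ pa y := by rw [← act_mul]; exact mul_right_cancel e
      exact hynL (hfixb' ((φ pa).injective e1))
    have hzeq : τ y' = φ ph (τ y) := by
      rcases line_eq Mv hl (hτL y) hz1 (Mod.fours_invariant (hτL y')) with e | e | e | e
      · exfalso
        have e1 : τ y' = 1 := (φ ph).map_eq_one_iff.1 e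
        have hy'L : y' ∈ L := fix_pa Mv hl (by
          rw [eq_inv_of_mul_eq_one_left e1, inv_eq_of_mul_eq_one_left (Mv.two _)])
        have := Subgroup.mem_bot.1 (hdisj ▸ Subgroup.mem_inf.2 ⟨hy'L, hy'3⟩)
        exact hy1 ((φ ph).map_eq_one_iff.1 ((φ ph).map_eq_one_iff.1 this))
      · exact absurd e hne
      · exfalso
        have e1 : τ (y' * y) = 1 := by
          show φ pa (y' * y) * (y' * y) = 1
          rw [map_mul, mul_mul_mul_comm, show φ pa y' * y' = τ y from (φ ph).injective e, Mv.two]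
        have hL' : y' * y ∈ L := fix_pa Mv hl (by
          rw [eq_inv_of_mul_eq_one_left e1, inv_eq_of_mul_eq_one_left (Mv.two _)])
        have := Subgroup.mem_bot.1 (hdisj ▸ Subgroup.mem_inf.2 ⟨hL', mul_mem hy'3 hy⟩)
        rw [eq_inv_of_mul_eq_one_left this, inv_eq_of_mul_eq_one_left (Mv.two _)] at hy'
        exact (line_distinct Mv hl hy1).2 hy'.symm
      · exact (φ ph).injective e
    refine ⟨hz1, hzeq, ?_⟩
    have hay : ∀ u, φ pa u = τ u * u := fun u => by
      show _ = φ pa u * u * u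
      rw [mul_assoc, Mv.two, mul_one]
    have h1 : polar q (τ y * y) (τ y' * y') = 1 := by
      rw [← hay, ← hay, h.polar_equiv, h33 y hy y' hy'3, map_one]
    rw [h.polar_mul_left (τ y) y, h.polar_mul_right (τ y) (τ y') y', h.polar_mul_right y (τ y') y',
      h33 y hy y' hy'3,
      hLL _ (hτL y) _ (hτL y'), one_mul, mul_one, hzeq] at h1
    have h2 : polar q y' (τ y) = polar q y (φ ph (τ y)) := by
      rw [h.eq_of_mul h1 |>.symm, h.polar_comm]
    refine hw _ ?_
    conv_lhs => rw [← h2, ← h.polar_equiv, hy', hh3]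
  have hmix : ∀ y ∈ L3, ∀ z ∈ L, polar q y z = 1 := by
    intro y hy z hz
    rcases eq_or_ne y 1 with rfl | hy1
    · rw [h.polar_comm]; exact h.polar_one _
    obtain ⟨ht, hte, h1⟩ := hkey y hy hy1
    set y' := φ ph (φ ph y) with hy'
    have hy'1 : y' ≠ 1 := fun e => hy1 ((φ ph).map_eq_one_iff.1 ((φ ph).map_eq_one_iff.1 e))
    obtain ⟨-, -, h2⟩ := hkey y' (hinv3 (hinv3 hy)) hy'1
    rw [hte, hy', h.polar_equiv, h.polar_equiv] at h2
    have h0 : polar q y (τ y) = 1 := (ψ ph).map_eq_one_iff.1 ((ψ ph).map_eq_one_iff.1 h2)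
    rcases line_eq Mv hl (hτL y) ht hz with rfl | rfl | rfl | rfl
    · exact h.polar_one _
    · exact h0
    · exact h1
    · rw [hfour (hτL y) ht, h.polar_mul_right, h0, h1, one_mul]
  have hgen : Subgroup.closure ((L : Set V) ∪ L3) = ⊤ := by
    rw [Subgroup.closure_union, Subgroup.closure_eq, Subgroup.closure_eq]
    refine Subgroup.eq_top_of_card_eq _ ?_
    have h1 := card_mul_le_of_disjoint L L3 hdisj
    have h3 : 4 ≤ Nat.card L3 := by
      have := Subgroup.card_le_of_le hmap
      rwa [Subgroup.card_map_of_injective (φ (cp 3)).injective, card_fours Mv hl] at this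
    have h4 : Nat.card L * Nat.card L3 ≤ Nat.card ↥(L ⊔ L3) := by
      rw [← Nat.card_prod]
      refine Nat.card_le_card_of_injective
        (fun x : L × L3 => (⟨x.1 * x.2, Subgroup.mul_mem_sup x.1.2 x.2.2⟩ : ↥(L ⊔ L3)))
        fun a b e => Subgroup.mul_injective_of_disjoint (disjoint_iff.2 hdisj) (congrArg Subtype.val e :)
    have h5 := Subgroup.card_le_card_group (L ⊔ L3)
    rw [show Nat.card L = 4 from card_fours Mv hl] at h4
    rw [Mv.card] at h5 ⊢
    omega
  refine h.polar_eq_one hgen ?_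
  rintro a (ha | ha) b (hb | hb)
  · exact hLL a ha b hb
  · rw [h.polar_comm]; exact hmix b hb a ha
  · exact hmix a ha b hb
  · exact h33 a ha b hb

/-- A quadratic map between faithful modules is additive, or has a small value set on a four-group. -/
theorem q_faithful (h : QMap φ ψ q) (Mv : Mod φ) (Mw : Mod ψ) :
    ((∀ x y, polar q x y = 1) ∧ Function.Bijective q) ∨
      ∃ L : Subgroup V, Nat.card L = 4 ∧ ∃ w, ∀ l ∈ L, q l = 1 ∨ q l = w := by
  have fin : (∀ x y, polar q x y = 1) → Function.Bijective q := by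
    intro hp
    let f : V →* W :=
      { toFun := q, map_one' := h.q_one, map_mul' := h.q_mul_of_polar hp }
    have hs : Function.Surjective q := MonoidHom.range_eq_top.1 (h.gen f.range fun v => ⟨v, rfl⟩)
    exact Function.Surjective.bijective_of_nat_card_le hs (by rw [Mv.card, Mw.card])
  rcases Mv.point_or_linear with ⟨v, hv⟩ | hl
  · refine Or.inl (⟨?_, fin ?_⟩) <;>
    · have hfix3 : φ ph (vec φ v 3) = vec φ v 3 := by rw [vec_equiv hv]; congr 1
      have hfixp : φ ph (vec φ v 3 * vec φ v 4) = vec φ v 3 * vec φ v 4 := by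
        rw [map_mul, hfix3, vec_four hv, hv.2.1]
      have hc34 : polar q (vec φ v 3) (vec φ v 4) = 1 := by
        rcases Mw.point_or_linear with ⟨w, hw⟩ | hl'
        · set β := polar q (vec φ v 3) (vec φ v 4) with hβ
          have hb : β = 1 ∨ β = vec ψ w 3 * vec ψ w 4 := by
            refine fix_pair Mw hw ?_ ?_
            · rw [hβ, ← h.polar_equiv, hfix3, vec_four hv, hv.2.1]
            · rw [hβ, ← h.polar_equiv, vec_equiv hv, vec_equiv hv, h.polar_comm]
              rfl
          refine hb.resolve_right fun e => ?_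
          have hc : ∀ i j, i ≠ j → polar q (vec φ v i) (vec φ v j) = vec ψ w i * vec ψ w j := by
            intro i j hij
            obtain ⟨g, e1, he⟩ := polar_pairs h hv hij
            rw [e1, ← hβ, e, map_mul, vec_equiv hw, vec_equiv hw]
            rcases he with ⟨h3, h4⟩ | ⟨h3, h4⟩ <;> rw [h3, h4]
            exact mul_comm _ _
          have hp : vec φ v 0 * vec φ v 1 * vec φ v 2 * vec φ v 3 = vec φ v 4 := by
            have := vec_prod Mv hv
            rw [eq_inv_of_mul_eq_one_left this, inv_eq_of_mul_eq_one_left (Mv.two _)]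
          have h1 := h.polar_self (vec φ v 4)
          nth_rewrite 1 [← hp] at h1
          rw [h.polar_mul_left, h.polar_mul_left, h.polar_mul_left, hc 0 4 (by decide),
            hc 1 4 (by decide), hc 2 4 (by decide), hc 3 4 (by decide)] at h1
          refine vec_ne_one hw 4 ?_
          calc vec ψ w 4 = vec ψ w 4 * ((vec ψ w 4 * vec ψ w 4) * (vec ψ w 4 * vec ψ w 4)) := by
                simp only [Mw.two, mul_one]
            _ = (vec ψ w 0 * vec ψ w 1 * vec ψ w 2 * vec ψ w 3 * vec ψ w 4) *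
                (vec ψ w 0 * vec ψ w 4 * (vec ψ w 1 * vec ψ w 4) * (vec ψ w 2 * vec ψ w 4) *
                  (vec ψ w 3 * vec ψ w 4)) := by
                rw [show vec ψ w 0 * vec ψ w 1 * vec ψ w 2 * vec ψ w 3 * vec ψ w 4 *
                  (vec ψ w 0 * vec ψ w 4 * (vec ψ w 1 * vec ψ w 4) * (vec ψ w 2 * vec ψ w 4) *
                    (vec ψ w 3 * vec ψ w 4)) = vec ψ w 4 * ((vec ψ w 4 * vec ψ w 4) *
                    (vec ψ w 4 * vec ψ w 4)) * ((vec ψ w 0 * vec ψ w 0) * (vec ψ w 1 * vec ψ w 1) *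
                    (vec ψ w 2 * vec ψ w 2) * (vec ψ w 3 * vec ψ w 3)) by ac_rfl]
                simp only [Mw.two, mul_one]
            _ = 1 := by rw [h1, vec_prod Mw hw, one_mul]
        · have hq4 : q v = 1 := hl' _ (by rw [← h.equiv, hv.2.1])
          unfold polar
          rw [q_vec h, q_vec h, hq4, hl' (q (vec φ v 3 * vec φ v 4)) (by rw [← h.equiv, hfixp])]
          simp [vec]
      refine h.polar_eq_one (vec_span Mv hv) ?_
      rintro _ ⟨i, rfl⟩ _ ⟨j, rfl⟩
      rcases eq_or_ne i j with rfl | hij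
      · exact h.polar_self _
      obtain ⟨g, e, -⟩ := polar_pairs h hv hij
      rw [e, hc34, map_one]
  · rcases Mw.point_or_linear with ⟨w, hw⟩ | hl'
    · refine Or.inr ⟨fours φ, card_fours Mv hl, w, fun l hl2 => ?_⟩
      refine fours_eq Mw hw (mem_fours.2 ⟨?_, ?_⟩)
      · rw [← h.equiv, (mem_fours.1 hl2).1]
      · rw [← h.equiv, (mem_fours.1 hl2).2]
    · exact Or.inl ⟨polar_linear h Mv hl hl', fin (polar_linear h Mv hl hl')⟩

end Cfsg.Agent.H54.RadFour.Five
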