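import Mathlib
import Cfsg.Prelude.Def_CaseTheorems
import Cfsg.Agent.H19.Frattini

/-!
# Elementary tools for radicals of small sectional rank

Sections of order thirty two, fixed points of `p`-subgroups on small modules, and quadratic maps
between elementary abelian two-groups which commute with a group action.
-/

set_option autoImplicit false
set_option linter.style.haveILetI false
open scoped commutatorElement

namespace Cfsg.Agent.H54.RadFour

section Sections

variable {Y : Type*} [Group Y] [Finite Y]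

/-- An exponent two section of order more than sixteen contradicts the rank bound. -/
theorem false_of_section (h4 : Cfsg.SectionalPRankLE 2 4 Y) (H N : Subgroup Y)
    (hn : H ≤ Subgroup.normalizer (N : Set Y)) (hsq : ∀ h ∈ H, h * h ∈ N) (hle : N ≤ H)
    (hcard : 16 * Nat.card N < Nat.card H) : False := by
  haveI : (N.subgroupOf H).Normal := Subgroup.normal_subgroupOf_iff_le_normalizer hle |>.2 hn
  have h1 : ∀ x : H ⧸ N.subgroupOf H, x ^ 2 = 1 := by
    intro x
    induction x using QuotientGroup.induction_on with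
    | _ x =>
      rw [pow_two, ← QuotientGroup.mk_mul, QuotientGroup.eq_one_iff, Subgroup.mem_subgroupOf]
      exact hsq x x.2
  have hinv : ∀ x : H ⧸ N.subgroupOf H, x⁻¹ = x := fun x =>
    inv_eq_of_mul_eq_one_left (by rw [← pow_two]; exact h1 x)
  have hc : IsMulCommutative (⊤ : Subgroup (H ⧸ N.subgroupOf H)) := ⟨⟨fun a b => Subtype.ext (by
    show (a : H ⧸ N.subgroupOf H) * b = b * a
    rw [← hinv ((a : H ⧸ N.subgroupOf H) * b), mul_inv_rev, hinv, hinv])⟩⟩
  have h2 := h4 H (N.subgroupOf H) ⊤ hc (fun a _ => h1 a)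
  rw [Subgroup.card_top] at h2
  have h3 := Subgroup.card_eq_card_quotient_mul_card_subgroup (N.subgroupOf H)
  rw [Nat.card_congr (Subgroup.subgroupOfEquivOfLe hle).toEquiv] at h3
  nlinarith [Nat.card_pos (α := N)]

/-- Squares in the closure of generators commuting modulo `N`. -/
theorem mul_self_mem_closure {N : Subgroup Y} {S : Set Y}
    (hn : ∀ s ∈ S, s ∈ Subgroup.normalizer (N : Set Y)) (hsq : ∀ s ∈ S, s * s ∈ N)
    (hcomm : ∀ s ∈ S, ∀ t ∈ S, s * t * s⁻¹ * t⁻¹ ∈ N) :
    Subgroup.closure S ≤ Subgroup.normalizer (N : Set Y) ∧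
      ∀ h ∈ Subgroup.closure S, h * h ∈ N := by
  set M := Subgroup.normalizer (N : Set Y) with hM
  have hle : Subgroup.closure S ≤ M := (Subgroup.closure_le _).2 hn
  refine ⟨hle, fun h hh => ?_⟩
  haveI : (N.subgroupOf M).Normal := Subgroup.normal_subgroupOf_iff_le_normalizer Subgroup.le_normalizer |>.2 le_rfl
  let q := QuotientGroup.mk' (N.subgroupOf M)
  have hq : ∀ {x : Y} (hx : x ∈ M), q ⟨x, hx⟩ = 1 ↔ x ∈ N := fun hx => by
    rw [QuotientGroup.mk'_apply, QuotientGroup.eq_one_iff, Subgroup.mem_subgroupOf]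
  set T : Set (M ⧸ N.subgroupOf M) := q '' {x : M | (x : Y) ∈ S} with hT
  have hT2 : ∀ t ∈ T, t * t = 1 := by
    rintro _ ⟨⟨x, hxM⟩, hx, rfl⟩
    rw [← map_mul]
    exact (hq (mul_mem hxM hxM)).2 (hsq x hx)
  have hTc : ∀ s ∈ T, ∀ t ∈ T, Commute s t := by
    rintro _ ⟨⟨x, hxM⟩, hx, rfl⟩ _ ⟨⟨y, hyM⟩, hy, rfl⟩
    have h0 : q (⟨x, hxM⟩ * ⟨y, hyM⟩ * ⟨x, hxM⟩⁻¹ * ⟨y, hyM⟩⁻¹) = 1 :=
      (hq (mul_mem (mul_mem (mul_mem hxM hyM) (inv_mem hxM)) (inv_mem hyM))).2 (hcomm x hx y hy)
    rw [map_mul, map_mul, map_mul, map_inv, map_inv, mul_inv_eq_one, mul_inv_eq_iff_eq_mul] at h0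
    exact h0
  have key : ∀ z ∈ Subgroup.closure T, z * z = 1 := by
    letI := Subgroup.closureCommGroupOfComm hTc
    intro z hz
    have : ∀ w : Subgroup.closure T, w * w = 1 := by
      rintro ⟨w, hw⟩
      induction hw using Subgroup.closure_induction with
      | mem t ht => exact Subtype.ext (hT2 t ht)
      | one => exact one_mul 1
      | mul a b ha hb iha ihb =>
        show (⟨a, ha⟩ * ⟨b, hb⟩ : Subgroup.closure T) * (⟨a, ha⟩ * ⟨b, hb⟩) = 1
        rw [mul_mul_mul_comm, iha, ihb, one_mul]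
      | inv a ha iha =>
        show (⟨a, ha⟩⁻¹ : Subgroup.closure T) * ⟨a, ha⟩⁻¹ = 1
        rw [← mul_inv_rev, iha, inv_one]
    exact congrArg Subtype.val (this ⟨z, hz⟩)
  have hmem : ∀ x (hx : x ∈ Subgroup.closure S), q ⟨x, hle hx⟩ ∈ Subgroup.closure T := by
    intro x hx
    induction hx using Subgroup.closure_induction with
    | mem t ht => exact Subgroup.subset_closure ⟨⟨t, hn t ht⟩, ht, rfl⟩
    | one => exact (show q 1 ∈ _ from (map_one q).symm ▸ one_mem _)
    | mul a b ha hb iha ihb =>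
      have := mul_mem iha ihb
      rwa [← map_mul] at this
    | inv a ha iha =>
      have := inv_mem iha
      rwa [← map_inv] at this
  have h2 := key _ (hmem h hh)
  rw [← map_mul] at h2
  exact (hq (mul_mem (hle hh) (hle hh))).1 h2

/-- A section generated by elements commuting modulo `N` and squaring into `N`. -/
theorem false_of_generators (h4 : Cfsg.SectionalPRankLE 2 4 Y) (N : Subgroup Y) (S : Set Y)
    (hn : ∀ s ∈ S, s ∈ Subgroup.normalizer (N : Set Y)) (hsq : ∀ s ∈ S, s * s ∈ N)
    (hcomm : ∀ s ∈ S, ∀ t ∈ S, s * t * s⁻¹ * t⁻¹ ∈ N) (hle : (N : Set Y) ⊆ S)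
    (hcard : 16 * Nat.card N < Nat.card (Subgroup.closure S)) : False :=
  false_of_section h4 (Subgroup.closure S) N (mul_self_mem_closure hn hsq hcomm).1
    (mul_self_mem_closure hn hsq hcomm).2 (fun _ hx => Subgroup.subset_closure (hle hx)) hcard

end Sections

section Actions

variable {Q W : Type*} [Group Q] [Group W] (ψ : Q →* MulAut W)

theorem act_mul (g h : Q) (w : W) : ψ (g * h) w = ψ g (ψ h w) := by rw [map_mul]; rfl

theorem act_one (w : W) : ψ 1 w = w := by rw [map_one]; rfl

/-- The elements fixed by a set. -/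
def fixSet (S : Set Q) : Subgroup W where
  carrier := {w | ∀ g ∈ S, ψ g w = w}
  one_mem' g _ := map_one _
  mul_mem' {v w} hv hw g hg := by rw [map_mul, hv g hg, hw g hg]
  inv_mem' {v} hv g hg := by rw [map_inv, hv g hg]

theorem mem_fixSet {S : Set Q} {w : W} : w ∈ fixSet ψ S ↔ ∀ g ∈ S, ψ g w = w := Iff.rfl

theorem mem_fixSet_singleton {g : Q} {w : W} : w ∈ fixSet ψ {g} ↔ ψ g w = w := by
  simp [mem_fixSet]

/-- The elements fixing a given point. -/
def stab (w : W) : Subgroup Q where
  carrier := {g | ψ g w = w}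
  one_mem' := act_one ψ w
  mul_mem' {g h} (hg : ψ g w = w) (hh : ψ h w = w) := by
    show ψ (g * h) w = w
    rw [act_mul, hh, hg]
  inv_mem' {g} (hg : ψ g w = w) := by
    show ψ g⁻¹ w = w
    conv_lhs => rw [← hg]
    rw [← act_mul, inv_mul_cancel, act_one]

theorem mem_stab {g : Q} {w : W} : g ∈ stab ψ w ↔ ψ g w = w := Iff.rfl

theorem fixed_closure {S : Set Q} (hS : Subgroup.closure S = ⊤) {w : W}
    (h : ∀ g ∈ S, ψ g w = w) (g : Q) : ψ g w = w :=
  mem_stab ψ |>.1 ((Subgroup.closure_le (stab ψ w)).2 h (hS ▸ Subgroup.mem_top g))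

theorem fixed_conj {g k : Q} {w : W} (h : ψ g w = w) : ψ (k * g * k⁻¹) (ψ k w) = ψ k w := by
  rw [← act_mul, inv_mul_cancel_right, act_mul, h]

/-- Counting fixed points of a `p`-group inside an invariant set. -/
theorem card_modEq_fixSet [Finite W] {p : ℕ} [Fact p.Prime] (P : Subgroup Q) (hP : IsPGroup p P)
    (C : Subgroup W) (hC : ∀ g ∈ P, ∀ c ∈ C, ψ g c ∈ C) :
    Nat.card C ≡ Nat.card ↥(C ⊓ fixSet ψ (P : Set Q)) [MOD p] := by
  letI : MulAction P C :=
    { smul := fun g c => ⟨ψ g c, hC g g.2 c c.2⟩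
      one_smul := fun c => Subtype.ext (act_one ψ c)
      mul_smul := fun g h c => Subtype.ext (act_mul ψ g h c) }
  refine (hP.card_modEq_card_fixedPoints C).trans ?_
  refine congrArg (· % p) ?_
  refine Nat.card_congr ⟨fun x => ⟨x.1.1, Subgroup.mem_inf.2 ⟨x.1.2, fun g hg =>
      congrArg Subtype.val (x.2 ⟨g, hg⟩)⟩⟩,
    fun x => ⟨⟨x.1, (Subgroup.mem_inf.1 x.2).1⟩, fun g =>
      Subtype.ext ((Subgroup.mem_inf.1 x.2).2 g g.2)⟩, fun _ => rfl, fun _ => rfl⟩

/-- Counting fixed points of one element of prime order. -/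
theorem card_modEq_fix [Finite W] {p : ℕ} [hp : Fact p.Prime] {g : Q} (hg : g ^ p = 1) :
    Nat.card W ≡ Nat.card (fixSet ψ {g}) [MOD p] := by
  have hP : IsPGroup p (Subgroup.zpowers g) := by
    rintro ⟨x, hx⟩
    obtain ⟨i, rfl⟩ := hx
    exact ⟨1, Subtype.ext (by
      show (g ^ i) ^ p ^ 1 = 1
      rw [pow_one, ← zpow_natCast, ← zpow_mul, mul_comm, zpow_mul, zpow_natCast, hg, one_zpow])⟩
  have h := card_modEq_fixSet ψ (Subgroup.zpowers g) hP ⊤ (fun _ _ _ _ => Subgroup.mem_top _)
  rw [Subgroup.card_top, top_inf_eq] at h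
  refine h.trans (congrArg (fun S : Subgroup W => Nat.card S % p) ?_)
  ext w
  rw [mem_fixSet_singleton, mem_fixSet]
  exact ⟨fun hw => hw g (Subgroup.mem_zpowers g), fun hw x hx => by
    obtain ⟨i, rfl⟩ := hx
    exact mem_stab ψ |>.1 (zpow_mem (mem_stab ψ |>.2 hw) i)⟩

theorem card_pow_two [Finite W] (h2 : ∀ w : W, w * w = 1) : ∃ n, Nat.card W = 2 ^ n :=
  (IsPGroup.iff_card (p := 2)).1 fun w => ⟨1, by rw [pow_one, pow_two, h2]⟩

theorem card_subgroup_cases [Finite W] (h2 : ∀ w : W, w * w = 1) (C : Subgroup W) :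
    ∃ n, Nat.card C = 2 ^ n :=
  card_pow_two fun c => Subtype.ext (h2 c)

/-- Two subgroups meeting trivially. -/
theorem card_mul_le_of_disjoint [Finite W] (A B : Subgroup W) (h : A ⊓ B = ⊥) :
    Nat.card A * Nat.card B ≤ Nat.card W := by
  rw [← Nat.card_prod]
  exact Nat.card_le_card_of_injective _ (Subgroup.mul_injective_of_disjoint (disjoint_iff.2 h))

end Actions

section QMaps

variable {Q V W : Type*} [Group Q] [CommGroup V] [CommGroup W]

/-- A quadratic map between elementary abelian two-groups commuting with the action of a group. -/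
structure Quad (φ : Q →* MulAut V) (ψ : Q →* MulAut W) (q : V → W) : Prop where
  v2 : ∀ v : V, v * v = 1
  w2 : ∀ w : W, w * w = 1
  equiv : ∀ g v, q (φ g v) = ψ g (q v)
  quad : ∀ x y z, q (x * y * z) * (q x * q y * q z) = q (x * y) * q (y * z) * q (x * z)

/-- A quadratic map whose values generate. -/
structure QMap (φ : Q →* MulAut V) (ψ : Q →* MulAut W) (q : V → W) : Prop
    extends Quad φ ψ q where
  gen : ∀ L : Subgroup W, (∀ v, q v ∈ L) → L = ⊤

variable {φ : Q →* MulAut V} {ψ : Q →* MulAut W} {q : V → W}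

/-- The polar map. -/
def polar (q : V → W) (x y : V) : W := q (x * y) * q x * q y

namespace Quad

variable (h : Quad φ ψ q)
include h

theorem eq_of_mul {a b : W} (e : a * b = 1) : a = b := by
  rw [eq_inv_of_mul_eq_one_left e, inv_eq_of_mul_eq_one_left (h.w2 b)]

theorem cancel (a b : W) : a * b * b = a := by rw [mul_assoc, h.w2, mul_one]

theorem q_one : q 1 = 1 := by
  have h1 := h.quad 1 1 1
  simp only [mul_one] at h1
  exact mul_eq_right.1 h1

theorem q_mul (x y : V) : q (x * y) = q x * q y * polar q x y := by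
  unfold polar
  rw [show q x * q y * (q (x * y) * q x * q y) = q (x * y) * ((q x * q x) * (q y * q y)) by
    ac_rfl, h.w2, h.w2, mul_one, mul_one]

theorem polar_comm (x y : V) : polar q x y = polar q y x := by
  unfold polar; rw [mul_comm x y]; ac_rfl

theorem polar_self (x : V) : polar q x x = 1 := by
  unfold polar
  rw [h.v2, h.q_one, one_mul, h.w2]

theorem polar_one (x : V) : polar q x 1 = 1 := by
  unfold polar
  rw [mul_one, h.q_one, mul_one, h.w2]

theorem polar_mul_right (x y z : V) : polar q x (y * z) = polar q x y * polar q x z := by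
  refine h.eq_of_mul ?_
  unfold polar
  rw [← mul_assoc x y z]
  calc q (x * y * z) * q x * q (y * z) * (q (x * y) * q x * q y * (q (x * z) * q x * q z))
      = (q (x * y * z) * (q x * q y * q z)) * (q (x * y) * q (y * z) * q (x * z)) *
        (q x * q x) := by ac_rfl
    _ = 1 := by rw [h.quad, h.w2, h.w2, one_mul]

theorem polar_mul_left (x y z : V) : polar q (x * y) z = polar q x z * polar q y z := by
  rw [h.polar_comm, h.polar_mul_right, h.polar_comm z x, h.polar_comm z y]

theorem polar_equiv (g : Q) (x y : V) : polar q (φ g x) (φ g y) = ψ g (polar q x y) := by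
  unfold polar
  rw [← map_mul, h.equiv, h.equiv, h.equiv, map_mul, map_mul]

/-- The polar map is trivial as soon as it is trivial on generators. -/
theorem polar_eq_one {S : Set V} (hS : Subgroup.closure S = ⊤)
    (h1 : ∀ x ∈ S, ∀ y ∈ S, polar q x y = 1) (x y : V) : polar q x y = 1 := by
  have hx : ∀ z ∈ S, polar q z y = 1 := by
    intro z hz
    have := hS ▸ Subgroup.mem_top y
    induction this using Subgroup.closure_induction with
    | mem t ht => exact h1 z hz t ht
    | one => exact h.polar_one z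
    | mul a b _ _ iha ihb => rw [h.polar_mul_right, iha, ihb, one_mul]
    | inv a _ iha => rw [inv_eq_of_mul_eq_one_left (h.v2 a)]; exact iha
  have := hS ▸ Subgroup.mem_top x
  induction this using Subgroup.closure_induction with
  | mem t ht => exact hx t ht
  | one => rw [h.polar_comm]; exact h.polar_one y
  | mul a b _ _ iha ihb => rw [h.polar_mul_left, iha, ihb, one_mul]
  | inv a _ iha => rw [inv_eq_of_mul_eq_one_left (h.v2 a)]; exact iha

/-- With trivial polar map `q` is multiplicative. -/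
theorem q_mul_of_polar (h1 : ∀ x y, polar q x y = 1) (x y : V) : q (x * y) = q x * q y := by
  rw [h.q_mul, h1, mul_one]

end Quad

namespace QMap

variable (h : QMap φ ψ q)
include h

theorem card_le_two_of_range {B : W} (hB : ∀ v, q v = 1 ∨ q v = B) : ∀ w : W, w = 1 ∨ w = B := by
  intro w
  let L : Subgroup W :=
    { carrier := {w | w = 1 ∨ w = B}
      one_mem' := Or.inl rfl
      mul_mem' := by
        rintro a b (rfl | rfl) (rfl | rfl) <;> simp [h.w2]
      inv_mem' := by
        rintro a (rfl | rfl)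
        · exact Or.inl inv_one
        · exact Or.inr (inv_eq_of_mul_eq_one_left (h.w2 a)) }
  have := h.gen L hB
  exact (this ▸ Subgroup.mem_top w : w ∈ L)

theorem subsingleton_of_q (h1 : ∀ v, q v = 1) : ∀ w : W, w = 1 := fun w =>
  (h.card_le_two_of_range (B := 1) fun v => Or.inl (h1 v) : ∀ w : W, w = 1 ∨ w = 1) w |>.elim id id

end QMap

end QMaps

end Cfsg.Agent.H54.RadFour
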