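import Cfsg.Agent.H54.RadFour.ThreeTwoLift

/-!
# No homocyclic core of type `(4,4,4)` in a group of sectional rank four
-/

set_option autoImplicit false
set_option linter.style.haveILetI false

namespace Cfsg.Agent.H54.RadFour.Three

open Matrix

variable {Y : Type*} [Group Y]

/-- Two elements whose squares and product square lie in a centralised subgroup commute modulo it. -/
theorem comm_mem_of_squares {N : Subgroup Y} {s t : Y} (ht : ∀ n ∈ N, t * n * t⁻¹ = n)
    (hs2 : s * s ∈ N) (ht2 : t * t ∈ N) (hst : s * t * (s * t) ∈ N) :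
    s * t * s⁻¹ * t⁻¹ ∈ N ∧ t * s * t⁻¹ * s⁻¹ ∈ N := by
  have h1 : s * t * s⁻¹ * t⁻¹ = s * t * (s * t) * (t⁻¹ * (s * s)⁻¹ * t) * (t * t)⁻¹ := by group
  have h2 : t⁻¹ * (s * s)⁻¹ * t = (s * s)⁻¹ := by
    conv_lhs => rw [← ht _ (inv_mem hs2)]
    group
  have hk : s * t * s⁻¹ * t⁻¹ ∈ N := by
    rw [h1, h2]
    exact mul_mem (mul_mem hst (inv_mem hs2)) (inv_mem ht2)
  refine ⟨hk, ?_⟩
  rw [show t * s * t⁻¹ * s⁻¹ = (s * t * s⁻¹ * t⁻¹)⁻¹ by group]
  exact inv_mem hk

theorem closure_card_ge [Finite Y] {Q : Type*} [Group Q] (f : Y →* Q) (S : Set Y) {T : Type*}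
    (t : T → Y) (ht : Function.Injective t) (htS : ∀ x, t x ∈ Subgroup.closure S)
    (htk : ∀ x, f (t x) = 1) {a b : Y} (ha : a ∈ S) (hb : b ∈ S)
    (hd : Function.Injective fun p : Fin 2 × Fin 2 => f a ^ p.1.1 * f b ^ p.2.1) :
    Nat.card T * 4 ≤ Nat.card (Subgroup.closure S) := by
  let F : T × Fin 2 × Fin 2 → Subgroup.closure S := fun p =>
    ⟨t p.1 * (a ^ p.2.1.1 * b ^ p.2.2.1), mul_mem (htS _) (mul_mem
      (pow_mem (Subgroup.subset_closure ha) _) (pow_mem (Subgroup.subset_closure hb) _))⟩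
  have hF : Function.Injective F := by
    rintro ⟨x, p⟩ ⟨y, r⟩ e
    have e1 : t x * (a ^ p.1.1 * b ^ p.2.1) = t y * (a ^ r.1.1 * b ^ r.2.1) :=
      congrArg Subtype.val e
    have e2 := congrArg f e1
    simp only [map_mul, map_pow, htk, one_mul] at e2
    obtain rfl : p = r := hd e2
    exact Prod.ext (ht (mul_right_cancel e1)) rfl
  have := Nat.card_le_card_of_injective F hF
  simpa [Nat.card_prod] using this

variable [Finite Y] {π : Y →* Q3} {R₀ : Subgroup Y} {ι : Vec →* Y}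

theorem Core.false_of_lift (K : Core π R₀ ι) (h4 : Cfsg.SectionalPRankLE 2 4 Y)
    (hidx : ∀ a ∈ π.ker, ∀ b ∈ π.ker, a ∉ R₀ → b ∉ R₀ → a * b ∈ R₀) {P₁ P₂ D : Y}
    (hP₁ : π P₁ = mp) (hP₂ : π P₂ = mq) (hD : D = P₁ * P₂ * P₁⁻¹ * P₂⁻¹)
    (hD4 : D * D * (D * D) ∈ R₀) : False := by
  classical
  haveI := K.normal
  obtain ⟨c, M, C⟩ := K.exists_coord
  let cc : V4 → Y := fun v => c (Multiplicative.ofAdd v)
  have cc_add : ∀ v w, cc v * cc w = cc (v + w) := fun v w => (map_mul c _ _).symm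
  have cc_mem : ∀ v, cc v ∈ R₀ := fun v => C.range ▸ ⟨_, rfl⟩
  have cc_inj : Function.Injective cc := C.inj.comp Multiplicative.ofAdd.injective
  have cc_inv : ∀ v, (cc v)⁻¹ = cc (-v) := fun v =>
    inv_eq_of_mul_eq_one_right (by rw [cc_add, add_neg_cancel]; exact map_one c)
  have cc_ker : ∀ v, π (cc v) = 1 := fun v => MonoidHom.mem_ker.1 (K.le (cc_mem v))
  have hconj : ∀ g v, g * cc v * g⁻¹ = cc (M g *ᵥ v) := C.conj
  have hsur : ∀ r ∈ R₀, ∃ v, cc v = r := fun r hr => by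
    obtain ⟨v, hv⟩ := C.range.symm ▸ hr
    exact ⟨v.toAdd, hv⟩
  -- the subgroup of order two
  set N : Subgroup Y := Subgroup.zpowers (ι (E 0)) with hNdef
  have hNfix : ∀ g, nat3 (π g) (E 0) = E 0 → ∀ n ∈ N, g * n * g⁻¹ = n := by
    rintro g hg _ ⟨i, rfl⟩
    show g * ι (E 0) ^ i * g⁻¹ = ι (E 0) ^ i
    rw [← conj_zpow, K.equiv, hg]
  have hInN : ∀ {v}, InN v → cc v ∈ N := by
    rintro v (rfl | rfl)
    · rw [show cc 0 = 1 from map_one c]; exact one_mem N
    · have h1 := C.sq ![1, 0, 0]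
      change cc _ * cc _ = _ at h1
      rw [cc_add, show (![1, 0, 0] : V4) + ![1, 0, 0] = ![2, 0, 0] by decide,
        show Multiplicative.ofAdd (red ![1, 0, 0]) = E 0 by decide +kernel] at h1
      exact h1 ▸ Subgroup.mem_zpowers _
  have hN2 : Nat.card N ≤ 2 :=
    card_zpowers_le_two (by rw [← map_mul, vec_two, map_one])
  -- the lift of the unipotent element
  have hπD : π D = md := by
    rw [hD, map_mul, map_mul, map_mul, map_inv, map_inv, hP₁, hP₂, md_comm]
  have hMD : (M D).map r2 = (md : Matrix (Fin 3) (Fin 3) (ZMod 2)) := by rw [C.red_eq, hπD]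
  have hMD4 : M D * M D * (M D * M D) = 1 := by
    refine Matrix.ext_iff_mulVec.2 fun v => cc_inj ?_
    rw [← map_mul, ← map_mul, ← hconj, Matrix.one_mulVec, K.comm _ hD4 _ (cc_mem v),
      mul_inv_cancel_right]
  have hdet : (M D).det = 1 := by
    have hu : ∀ g, (M g).det * (M g⁻¹).det = 1 := fun g => by
      rw [← Matrix.det_mul, ← map_mul, mul_inv_cancel, map_one, Matrix.det_one]
    rw [hD, map_mul, map_mul, map_mul, Matrix.det_mul, Matrix.det_mul, Matrix.det_mul,
      mul_right_comm ((M P₁).det) ((M P₂).det), hu, one_mul, hu]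
  obtain ⟨F1, F2, F3, F4, -⟩ := mat_facts (M D) hMD hMD4 hdet
  set A := D * D with hA
  have hπA : π A = ma := by rw [hA, map_mul, hπD, md_sq]
  have hMA : ∀ v, M A *ᵥ v = M D *ᵥ (M D *ᵥ v) := fun v => by
    rw [hA, map_mul, Matrix.mulVec_mulVec]
  have hfixA : nat3 (π A) (E 0) = E 0 := by rw [hπA]; decide +kernel
  -- the first transvection
  obtain ⟨r, hr⟩ := hsur _ hD4
  obtain ⟨x, hx⟩ := F1 r (cc_inj (by
    rw [← hconj, hr, hA]; group))
  set ga := cc x * A with hga
  have hga2 : ga * ga ∈ N := by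
    rw [show ga * ga = cc x * (A * cc x * A⁻¹) * (A * A) by rw [hga]; group, hconj, cc_add, hMA]
    rw [hA] at hr ⊢
    rw [← hr, cc_add]
    exact hInN hx
  have hgaN : ∀ n ∈ N, ga * n * ga⁻¹ = n :=
    hNfix ga (by rw [hga, map_mul, cc_ker, one_mul, hfixA])
  have hgaconj : ∀ v, ga * cc v * ga⁻¹ = cc (M A *ᵥ v) := fun v => by
    rw [← hconj, hga]
    calc cc x * A * cc v * (cc x * A)⁻¹ = cc x * (A * cc v * A⁻¹) * (cc x)⁻¹ := by group
      _ = A * cc v * A⁻¹ := by
        rw [hconj, K.comm _ (cc_mem x) _ (cc_mem _), mul_inv_cancel_right]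
  -- the second transvection
  obtain ⟨H, hH⟩ := K.surj mh
  obtain ⟨G, hG⟩ := K.surj Three.mk
  have hfixH : nat3 (π H) (E 0) = E 0 := by rw [hH]; decide +kernel
  set B := H * A * H⁻¹ with hB
  have hπB : π B = mb := by rw [hB, map_mul, map_mul, map_inv, hH, hπA, mh_conj]
  set gb := H * ga * H⁻¹ with hgb
  have hπgb : π gb = mb := by
    rw [hgb, map_mul, map_mul, map_inv, hga, map_mul, cc_ker, one_mul, hH, hπA, mh_conj]
  have hgbN : ∀ n ∈ N, gb * n * gb⁻¹ = n := hNfix gb (by rw [hπgb]; decide +kernel)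
  have hgb2 : gb * gb ∈ N := by
    rw [show gb * gb = H * (ga * ga) * H⁻¹ by rw [hgb]; group, hNfix H hfixH _ hga2]
    exact hga2
  -- squares of lifts modulo the core
  have hsqA : ∀ y ∈ π.ker, y * A * (y * A) ∈ R₀ := by
    intro y hy
    rw [show y * A * (y * A) = y * (A * y * A⁻¹) * (A * A) by group]
    refine mul_mem ?_ hD4
    by_cases hyR : y ∈ R₀
    · exact mul_mem hyR (K.normal.conj_mem y hyR A)
    · refine hidx y hy _ ((inferInstance : π.ker.Normal).conj_mem y hy A) hyR fun e => hyR ?_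
      have := K.normal.conj_mem _ e A⁻¹
      convert this using 1
      group
  have hBD2 : B * D * (B * D) ∈ R₀ := by
    set y := G⁻¹ * (B * D) * G * A⁻¹ with hy
    have hyk : y ∈ π.ker := by
      rw [MonoidHom.mem_ker, hy, map_mul, map_mul, map_mul, map_mul, map_inv, map_inv, hπA, hπB,
        hπD, hG, ← mk_conj]
      group
    have h1 := K.normal.conj_mem _ (hsqA y hyk) G
    convert h1 using 1
    rw [hy]; group
  have hB2 : B * B ∈ R₀ := by
    have h1 := K.normal.conj_mem _ hD4 H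
    convert h1 using 1
    rw [hB, hA]; group
  set η := D * (B * D * B⁻¹) with hη
  have hηR : η ∈ R₀ := by
    rw [show η = D * (B * D * (B * D)) * D⁻¹ * (B * B)⁻¹ by rw [hη]; group]
    exact mul_mem (K.normal.conj_mem _ hBD2 D) (inv_mem hB2)
  set g' := (D * H) * ga * (D * H)⁻¹ with hg'
  have hg'2 : g' * g' ∈ N := by
    rw [show g' * g' = D * (gb * gb) * D⁻¹ by rw [hg', hgb]; group,
      hNfix D (by rw [hπD]; decide +kernel) _ hgb2]
    exact hgb2
  have hπg' : π g' = ma * mb := by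
    rw [show g' = D * gb * D⁻¹ by rw [hg', hgb]; group, map_mul, map_mul, map_inv, hπgb, hπD,
      md_conj]
  obtain ⟨y, hy⟩ : ∃ y, ga * gb = cc y * g' := by
    suffices hmem : ga * gb * g'⁻¹ ∈ R₀ by
      obtain ⟨y, hy⟩ := hsur _ hmem
      exact ⟨y, by rw [hy, inv_mul_cancel_right]⟩
    have e : ga * gb * g'⁻¹ =
        cc x * (A * (H * cc x * H⁻¹) * A⁻¹) *
          ((D * (H * cc x * H⁻¹) * D⁻¹) * (D * η⁻¹ * D⁻¹))⁻¹ := by
      rw [hg', hgb, hga, hη, hB, hA]
      simp only [mul_assoc, _root_.mul_inv_rev, inv_inv, inv_mul_cancel_left, mul_inv_cancel_left]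
    rw [e]
    exact mul_mem (mul_mem (cc_mem x) (K.normal.conj_mem _ (K.normal.conj_mem _ (cc_mem x) H) A))
      (inv_mem (mul_mem (K.normal.conj_mem _ (K.normal.conj_mem _ (cc_mem x) H) D)
        (K.normal.conj_mem _ (inv_mem hηR) D)))
  -- adjust the first transvection
  obtain ⟨a, ha, hcan⟩ := cancel_choice (red y)
  set gc := cc a * ga with hgc
  have hgc2 : gc * gc ∈ N := by
    rw [show gc * gc = cc a * (ga * cc a * ga⁻¹) * (ga * ga) by rw [hgc]; group, hgaconj, cc_add,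
      hMA]
    refine mul_mem (hInN ?_) hga2
    rcases ha with rfl | rfl
    · left; simp
    · exact F2
  have hπgc : π gc = ma := by rw [hgc, map_mul, cc_ker, one_mul, hga, map_mul, cc_ker, one_mul, hπA]
  have hgcN : ∀ n ∈ N, gc * n * gc⁻¹ = n := hNfix gc (by rw [hπgc]; decide +kernel)
  have hgcconj : ∀ v, gc * cc v * gc⁻¹ = cc (M A *ᵥ v) := fun v => by
    rw [show gc * cc v * gc⁻¹ = cc a * (ga * cc v * ga⁻¹) * (cc a)⁻¹ by rw [hgc]; group, hgaconj,
      K.comm _ (cc_mem a) _ (cc_mem _), mul_inv_cancel_right]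
  have hcb : gc * gb * (gc * gb) ∈ N := by
    set z := a + y with hz
    have e : gc * gb = cc z * g' := by rw [hgc, mul_assoc, hy, ← mul_assoc, cc_add]
    rw [e, show cc z * g' * (cc z * g') = cc z * (g' * cc z * g'⁻¹) * (g' * g') by group]
    refine mul_mem ?_ hg'2
    obtain ⟨u, hu⟩ := hsur _ (K.normal.conj_mem _ (cc_mem z) (D * H)⁻¹)
    have eX : cc z * (g' * cc z * g'⁻¹) =
        (D * H) * (cc (u + M A *ᵥ u)) * (D * H)⁻¹ := by
      rw [show cc (u + M A *ᵥ u) = cc u * (ga * cc u * ga⁻¹) by rw [hgaconj, cc_add], hu, hg']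
      group
    have hred : red (u + M A *ᵥ u) = 0 := by
      have h1 : ι (Multiplicative.ofAdd (red (u + M A *ᵥ u))) = 1 := by
        rw [← C.sq]
        show cc _ * cc _ = 1
        have h2 : cc (z + M g' *ᵥ z) * cc (z + M g' *ᵥ z) = 1 := by
          have h3 : red (z + M g' *ᵥ z) = 0 := by
            have e1 : red (M g' *ᵥ z) =
                ((π g' : Q3) : Matrix (Fin 3) (Fin 3) (ZMod 2)) *ᵥ red z := by
              rw [← C.red_eq]
              funext i
              exact RingHom.map_mulVec r2 (M g') z i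
            have e2 : ∀ v w : V4, red (v + w) = red v + red w := fun v w =>
              funext fun i => map_add r2 _ _
            rw [e2, e1, hπg', hz, e2]
            exact hcan
          show c _ * c _ = 1
          rw [C.sq, h3, ofAdd_zero, map_one]
        rw [show cc (u + M A *ᵥ u) = (D * H)⁻¹ * cc (z + M g' *ᵥ z) * (D * H) by
          rw [← cc_add z, ← hconj g' z, eX]; group]
        calc (D * H)⁻¹ * cc (z + M g' *ᵥ z) * (D * H) * ((D * H)⁻¹ * cc (z + M g' *ᵥ z) * (D * H))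
            = (D * H)⁻¹ * (cc (z + M g' *ᵥ z) * cc (z + M g' *ᵥ z)) * (D * H) := by group
          _ = 1 := by rw [h2, mul_one, inv_mul_cancel]
      exact congrArg Multiplicative.toAdd (K.inj (h1.trans (map_one ι).symm))
    have hfixDH : nat3 (π (D * H)) (E 0) = E 0 := by rw [map_mul, hπD, hH]; decide +kernel
    rw [eX, hNfix _ hfixDH _ (hInN (hMA u ▸ F4 u (by rw [← hMA]; exact hred)))]
    exact hInN (hMA u ▸ F4 u (by rw [← hMA]; exact hred))
  -- the section
  let T := {v : V4 // InT v}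
  set S : Set Y := Set.range (fun v : T => cc v.1) ∪ {gc, gb} with hS
  have hTS : ∀ v : T, cc v.1 ∈ S := fun v => Or.inl ⟨v, rfl⟩
  have hgcT : ∀ v, InT v → gc * cc v * gc⁻¹ * (cc v)⁻¹ ∈ N := fun v hv => by
    rw [hgcconj, cc_inv, cc_add, ← sub_eq_add_neg, hMA]
    exact hInN (F3 v hv)
  have hgbT : ∀ v, InT v → gb * cc v * gb⁻¹ * (cc v)⁻¹ ∈ N := fun v hv => by
    obtain ⟨u, hu⟩ := hsur _ (K.normal.conj_mem _ (cc_mem v) H⁻¹)
    have huT : InT u := by
      have h1 : ι (Multiplicative.ofAdd (red u)) =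
          ι (nat3 (π H⁻¹) (Multiplicative.ofAdd (red v))) := by
        rw [← C.sq, ← K.equiv, ← C.sq]
        change cc u * cc u = H⁻¹ * (cc v * cc v) * H⁻¹⁻¹
        rw [hu]; group
      have h2 := congrArg Multiplicative.toAdd (K.inj h1)
      change red u = _ at h2
      rw [map_inv, hH] at h2
      rcases hv with e | e <;> rw [e] at h2
      · left; rw [h2]; decide +kernel
      · right; rw [h2]; decide +kernel
    have h1 : ga * cc u * ga⁻¹ * (cc u)⁻¹ ∈ N := by
      rw [hgaconj, cc_inv, cc_add, ← sub_eq_add_neg, hMA]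
      exact hInN (F3 u huT)
    rw [show gb * cc v * gb⁻¹ * (cc v)⁻¹ = H * (ga * cc u * ga⁻¹ * (cc u)⁻¹) * H⁻¹ by
      rw [hu, hgb]; group, hNfix H hfixH _ h1]
    exact h1
  have hcomm2 := comm_mem_of_squares hgbN hgc2 hgb2 hcb
  refine false_of_generators h4 N (S ∪ N) ?_ ?_ ?_ Set.subset_union_right ?_
  · have hcen : ∀ {s}, (∀ n ∈ N, s * n * s⁻¹ = n) → s ∈ Subgroup.normalizer (N : Set Y) :=
      fun {s} hs => Subgroup.centralizer_le_normalizer _ (Subgroup.mem_centralizer_iff.2 fun n hn =>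
        (mul_inv_eq_iff_eq_mul.1 (hs n hn)).symm)
    rintro s ((⟨v, rfl⟩ | rfl | rfl) | hs)
    · exact hcen (hNfix _ (by rw [cc_ker]; exact act_one nat3 _))
    · exact hcen hgcN
    · exact hcen hgbN
    · exact Subgroup.le_normalizer hs
  · rintro s ((⟨v, rfl⟩ | rfl | rfl) | hs)
    · show c _ * c _ ∈ N
      rw [C.sq]
      rcases v.2 with e | e
      · rw [e, ofAdd_zero, map_one]; exact one_mem N
      · rw [e, show Multiplicative.ofAdd (![1, 0, 0] : Fin 3 → ZMod 2) = E 0 by decide +kernel]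
        exact Subgroup.mem_zpowers _
    · exact hgc2
    · exact hgb2
    · exact mul_mem hs hs
  · -- commutators
    have hswap : ∀ {s t : Y}, s * t * s⁻¹ * t⁻¹ ∈ N → t * s * t⁻¹ * s⁻¹ ∈ N := fun {s t} h => by
      rw [show t * s * t⁻¹ * s⁻¹ = (s * t * s⁻¹ * t⁻¹)⁻¹ by group]
      exact inv_mem h
    have hfixS : ∀ s ∈ S ∪ (N : Set Y), ∀ n ∈ N, s * n * s⁻¹ * n⁻¹ ∈ N := by
      intro s hs n hn
      have : s * n * s⁻¹ = n := by
        rcases hs with (⟨v, rfl⟩ | rfl | rfl) | hs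
        · exact hNfix _ (by rw [cc_ker]; exact act_one nat3 _) n hn
        · exact hgcN n hn
        · exact hgbN n hn
        · obtain ⟨i, rfl⟩ := hs
          obtain ⟨j, rfl⟩ := hn
          exact mul_inv_eq_iff_eq_mul.2 ((Commute.refl (ι (E 0))).zpow_zpow i j).eq
      rw [this, mul_inv_cancel]
      exact one_mem N
    have key : ∀ s ∈ S, ∀ t ∈ S, s * t * s⁻¹ * t⁻¹ ∈ N := by
      rintro s (⟨v, rfl⟩ | rfl | rfl) t (⟨w, rfl⟩ | rfl | rfl)
      · show cc v * cc w * (cc v)⁻¹ * (cc w)⁻¹ ∈ N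
        rw [K.comm _ (cc_mem v) _ (cc_mem w), mul_inv_cancel_right, mul_inv_cancel]
        exact one_mem N
      · exact hswap (hgcT v v.2)
      · exact hswap (hgbT v v.2)
      · exact hgcT w w.2
      · rw [mul_inv_cancel_right, mul_inv_cancel]; exact one_mem N
      · exact hcomm2.1
      · exact hgbT w w.2
      · exact hcomm2.2
      · rw [mul_inv_cancel_right, mul_inv_cancel]; exact one_mem N
    rintro s (hs | hs) t (ht | ht)
    · exact key s hs t ht
    · exact hfixS s (Or.inl hs) t ht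
    · exact hswap (hfixS t (Or.inl ht) s hs)
    · exact hfixS s (Or.inr hs) t ht
  · have hcard := closure_card_ge π (S ∪ N) (fun v : T => cc v.1)
      (cc_inj.comp Subtype.val_injective) (fun v => Subgroup.subset_closure (Or.inl (hTS v)))
      (fun v => cc_ker _) (a := gc) (b := gb) (Or.inl (Or.inr (Or.inl rfl)))
      (Or.inl (Or.inr (Or.inr rfl)))
      (by
        rw [hπgc, hπgb]
        exact (show Function.Injective fun p : Fin 2 × Fin 2 => ma ^ p.1.1 * mb ^ p.2.1 by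
          decide +kernel))
    rw [show Nat.card T = 16 by rw [Nat.card_eq_fintype_card]; decide +kernel] at hcard
    omega

end Cfsg.Agent.H54.RadFour.Three
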