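import Mathlib

/-!
# Explicit elements of the general linear group of degree three over two elements
-/

set_option autoImplicit false

namespace Cfsg.Agent.H54.RadFour.Three

open Matrix

/-- The general linear group of degree three over the field with two elements. -/
abbrev Q3 := GL (Fin 3) (ZMod 2)

/-- The natural module, written multiplicatively. -/
abbrev Vec := Multiplicative (Fin 3 → ZMod 2)

/-- Basis vectors. -/
def E (i : Fin 3) : Vec := Multiplicative.ofAdd (Pi.single i 1)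

/-- The natural action. -/
def nat3 : Q3 →* MulAut Vec where
  toFun g :=
    { toFun := fun v => Multiplicative.ofAdd ((g : Matrix (Fin 3) (Fin 3) (ZMod 2)) *ᵥ v.toAdd)
      invFun := fun v =>
        Multiplicative.ofAdd (((g⁻¹ : Q3) : Matrix (Fin 3) (Fin 3) (ZMod 2)) *ᵥ v.toAdd)
      left_inv := fun v => by simp [Matrix.mulVec_mulVec, ← Units.val_mul]
      right_inv := fun v => by simp [Matrix.mulVec_mulVec, ← Units.val_mul]
      map_mul' := fun v w => by
        rw [← ofAdd_add, ← Matrix.mulVec_add]; rfl }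
  map_one' := MulEquiv.ext fun v => by simp
  map_mul' g h := MulEquiv.ext fun v => by
    show Multiplicative.ofAdd _ = Multiplicative.ofAdd _
    simp [Matrix.mulVec_mulVec]

/-- An element of order four fixing a flag. -/
def md : Q3 := ⟨!![1, 1, 0; 0, 1, 1; 0, 0, 1], !![1, 1, 1; 0, 1, 1; 0, 0, 1], by decide, by decide⟩

/-- Its square, a transvection. -/
def ma : Q3 := ⟨!![1, 0, 1; 0, 1, 0; 0, 0, 1], !![1, 0, 1; 0, 1, 0; 0, 0, 1], by decide, by decide⟩

/-- A transvection with the same centre. -/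
def mb : Q3 := ⟨!![1, 1, 0; 0, 1, 0; 0, 0, 1], !![1, 1, 0; 0, 1, 0; 0, 0, 1], by decide, by decide⟩

/-- A transvection exchanging two basis vectors. -/
def mh : Q3 := ⟨!![1, 0, 0; 0, 0, 1; 0, 1, 0], !![1, 0, 0; 0, 0, 1; 0, 1, 0], by decide, by decide⟩

/-- A transvection fixing the first basis vector. -/
def mh' : Q3 := ⟨!![1, 0, 0; 0, 1, 1; 0, 0, 1], !![1, 0, 0; 0, 1, 1; 0, 0, 1], by decide, by decide⟩

/-- A transvection. -/
def mk : Q3 := ⟨!![1, 0, 0; 1, 1, 0; 0, 0, 1], !![1, 0, 0; 1, 1, 0; 0, 0, 1], by decide, by decide⟩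

/-- An element of order seven. -/
def mf : Q3 := ⟨!![0, 0, 1; 1, 0, 1; 0, 1, 0], !![1, 1, 0; 0, 0, 1; 1, 0, 0], by decide, by decide⟩

/-- An element of order three fixing the first basis vector. -/
def mt : Q3 := ⟨!![1, 0, 0; 0, 0, 1; 0, 1, 1], !![1, 0, 0; 0, 1, 1; 0, 1, 0], by decide, by decide⟩

/-- An element of order three fixing the last basis vector and permuting a line. -/
def ml : Q3 := ⟨!![0, 1, 0; 1, 1, 0; 0, 0, 1], !![1, 1, 0; 1, 0, 0; 0, 0, 1], by decide, by decide⟩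

/-- First factor of a commutator. -/
def mp : Q3 := ⟨!![0, 0, 1; 1, 0, 0; 0, 1, 0], !![0, 1, 0; 0, 0, 1; 1, 0, 0], by decide, by decide⟩

/-- Second factor of a commutator. -/
def mq : Q3 := ⟨!![0, 1, 1; 0, 0, 1; 1, 0, 0], !![0, 0, 1; 1, 1, 0; 0, 1, 0], by decide, by decide⟩

theorem md_comm : mp * mq * mp⁻¹ * mq⁻¹ = md := by decide
theorem md_sq : md * md = ma := by decide
theorem mh_conj : mh * ma * mh⁻¹ = mb := by decide
theorem mk_conj : mk * ma * mk⁻¹ = mb * md := by decide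
theorem mb_invert : mb * md * mb = md⁻¹ := by decide
theorem md_conj : md * mb * md⁻¹ = ma * mb := by decide
theorem mf_pow : mf ^ 7 = 1 := by decide +kernel
theorem mf_ne : mf ≠ 1 := by decide
theorem mt_pow : mt ^ 3 = 1 := by decide +kernel
theorem mt_ne : mt ≠ 1 := by decide
theorem ml_pow : ml ^ 3 = 1 := by decide +kernel
theorem ml_ne : ml ≠ 1 := by decide
theorem ma_sq : ma * ma = 1 := by decide
theorem ma_ne : ma ≠ 1 := by decide
theorem mb_sq : mb * mb = 1 := by decide
theorem mb_ne : mb ≠ 1 := by decide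

/-- The powers of the element of order seven reach every nonzero vector. -/
theorem mf_cover : ∀ v : Vec, v ≠ 1 → ∃ n : Fin 7, nat3 (mf ^ n.1) (E 0) = v := by decide +kernel

/-- The value of a word. -/
def ev (l : List Q3) (w : List ℕ) : Q3 := (w.map fun j => l.getD j 1).prod

theorem ev_mem {H : Subgroup Q3} {l : List Q3} (hl : ∀ x ∈ l, x ∈ H) (w : List ℕ) :
    ev l w ∈ H := by
  refine list_prod_mem fun y hy => ?_
  obtain ⟨j, -, rfl⟩ := List.mem_map.1 hy
  by_cases hj : j < l.length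
  · rw [List.getD_eq_getElem _ _ hj]
    exact hl _ (List.getElem_mem hj)
  · rw [List.getD_eq_default _ _ (le_of_not_gt hj)]
    exact one_mem H

/-- Products of four of the given elements or the identity. -/
def prods (l : List Q3) : List Q3 :=
  let l1 := 1 :: l
  let l2 := l1.flatMap fun x => l1.map (x * ·)
  l2.flatMap fun x => l2.map (x * ·)

theorem prods_mem {H : Subgroup Q3} {l : List Q3} (hl : ∀ x ∈ l, x ∈ H) {y : Q3}
    (hy : y ∈ prods l) : y ∈ H := by
  have h1 : ∀ x ∈ 1 :: l, x ∈ H := by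
    intro x hx
    rcases List.mem_cons.1 hx with rfl | hx
    · exact one_mem H
    · exact hl x hx
  unfold prods at hy
  simp only [List.mem_flatMap, List.mem_map] at hy
  obtain ⟨x, ⟨a, ha, b, hb, rfl⟩, z, ⟨c, hc, d, hd, rfl⟩, rfl⟩ := hy
  exact mul_mem (mul_mem (h1 a ha) (h1 b hb)) (mul_mem (h1 c hc) (h1 d hd))

/-- The stabiliser of the first vector, in matrix form. -/
theorem stab_zero_aux : ∀ p q r s t u : ZMod 2,
    Matrix.det !![1, p, q; 0, r, s; 0, t, u] = 1 → ∃ g ∈ prods [ma, mb, mh, mh'],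
      (g : Matrix (Fin 3) (Fin 3) (ZMod 2)) = !![1, p, q; 0, r, s; 0, t, u] := by
  decide +kernel

theorem stab_zero {g : Q3} (hg : nat3 g (E 0) = E 0) : g ∈ prods [ma, mb, mh, mh'] := by
  set M := (g : Matrix (Fin 3) (Fin 3) (ZMod 2)) with hM
  have h0 : M *ᵥ Pi.single 0 1 = Pi.single 0 1 := congrArg Multiplicative.toAdd hg
  have hcol : ∀ i, M i 0 = (Pi.single 0 1 : Fin 3 → ZMod 2) i := fun i => by
    have := congrFun h0 i
    simpa [Matrix.mulVec, dotProduct, Fin.sum_univ_three, Pi.single_apply] using this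
  have hform : M = !![1, M 0 1, M 0 2; 0, M 1 1, M 1 2; 0, M 2 1, M 2 2] := by
    ext i j
    fin_cases i <;> fin_cases j <;> simp [hcol, Pi.single_apply]
  have hdet : M.det = 1 :=
    (show ∀ r : ZMod 2, r ≠ 0 → r = 1 by decide) _ (g.isUnit.map Matrix.detMonoidHom).ne_zero
  rw [hform] at hdet
  obtain ⟨g', hg', e⟩ := stab_zero_aux _ _ _ _ _ _ hdet
  rwa [show g = g' from Units.ext (hform.trans e.symm)]

/-- The conjugated three-elements fixing the last vector. -/
def mt₁ : Q3 := ⟨!![1, 1, 0; 1, 0, 0; 1, 0, 1], !![0, 1, 0; 1, 1, 0; 0, 1, 1], by decide, by decide⟩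

/-- The conjugated three-elements fixing the last vector. -/
def mt₂ : Q3 := ⟨!![1, 1, 0; 1, 0, 0; 0, 0, 1], !![0, 1, 0; 1, 1, 0; 0, 0, 1], by decide, by decide⟩

theorem mt₁_eq : mf ^ 2 * mt * (mf ^ 2)⁻¹ = mt₁ := by decide +kernel
theorem mt₂_eq : mf ^ 2 * (ma * mt * ma) * (mf ^ 2)⁻¹ = mt₂ := by decide +kernel

/-- The stabiliser of the last vector is generated by two three-elements and a transvection. -/
theorem stab_two_words :
    mf ^ 2 * ma * (mf ^ 2)⁻¹ = mt₁ * mt₂ * mt₁ ∧ mf ^ 2 * mb * (mf ^ 2)⁻¹ = mt₁ * mt₁ * mt₂ ∧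
      mf ^ 2 * mh * (mf ^ 2)⁻¹ = mt₁ * mb * mt₂ ∧ mf ^ 2 * mh' * (mf ^ 2)⁻¹ = mb * mt₂ := by
  decide +kernel

theorem mf_two : nat3 (mf ^ 2) (E 0) = E 2 := by decide +kernel

end Cfsg.Agent.H54.RadFour.Three
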