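import Cfsg.Agent.H54.RadFour.ThreeTwoSecondTwo
import Cfsg.Agent.H54.RadFour.AltFiveFinal

/-!
# Shape of the radical when the factor group has order 168
-/

set_option autoImplicit false
set_option linter.style.haveILetI false

namespace Cfsg.Agent.H54.RadFour.Three

open Matrix

/-- An abelian group of order `32` whose squares have order two. -/
theorem iso_of_squares {R : Type*} [Group R] [Finite R] (hab : ∀ a b : R, a * b = b * a)
    (hcard : Nat.card R = 32) {z : R} (hz1 : z ≠ 1) (hz2 : z * z = 1)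
    (hsq : ∀ r : R, r * r = 1 ∨ r * r = z) (hex : ∃ x : R, x * x = z) :
    Nonempty (R ≃* Multiplicative (ZMod 4) × (Fin 3 → Multiplicative (ZMod 2))) := by
  classical
  letI : CommGroup R := { (inferInstance : Group R) with mul_comm := hab }
  obtain ⟨x, hx⟩ := hex
  let sq : R →* R :=
    { toFun := fun a => a * a, map_one' := one_mul 1, map_mul' := fun a b => mul_mul_mul_comm a b a b }
  set Ω := sq.ker with hΩ
  have hrange : sq.range = Subgroup.zpowers z := by
    refine le_antisymm ?_ (Subgroup.zpowers_le.2 ⟨x, hx⟩)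
    rintro _ ⟨r, rfl⟩
    exact (mem_zpowers_two hz2).2 (hsq r)
  have hzc : Nat.card (Subgroup.zpowers z) = 2 := by
    rw [Nat.card_zpowers]
    exact orderOf_eq_prime (hp := ⟨Nat.prime_two⟩) (by rw [pow_two, hz2]) hz1
  have hΩ16 : Nat.card Ω = 16 := by
    rw [hΩ]
    have h1 := Subgroup.card_mul_index sq.ker
    rw [Subgroup.index_ker, hrange, hzc, hcard] at h1
    linarith
  have hzΩ : z ∈ Ω := hz2
  have hΩ2 : ∀ w : Ω, w * w = 1 := fun w => Subtype.ext w.2
  have hstep : ∀ K : Subgroup R, K ≤ Ω → ∀ n, Nat.card K = 2 ^ n → n < 4 →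
      ∃ e ∈ Ω, K ⊔ Subgroup.zpowers e ≤ Ω ∧ Nat.card ↥(K ⊔ Subgroup.zpowers e) = 2 ^ (n + 1) := by
    intro K hK n hn hn4
    obtain ⟨e, he, heK⟩ : ∃ e ∈ Ω, e ∉ K := by
      by_contra hall
      push Not at hall
      have := Subgroup.card_le_of_le hall
      rw [hn, hΩ16] at this
      have := Nat.pow_le_pow_right (show 2 > 0 by norm_num) (show n ≤ 3 by omega)
      omega
    refine ⟨e, he, sup_le hK (Subgroup.zpowers_le.2 he), ?_⟩
    have hrel := H19.relIndex_sup_zpowers K Nat.prime_two (s := e)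
      (by rw [pow_two, show e * e = 1 from he]; exact one_mem K) heK
    have h3 := Subgroup.relIndex_mul_relIndex ⊥ K (K ⊔ Subgroup.zpowers e) bot_le le_sup_left
    rw [Subgroup.relIndex_bot_left, Subgroup.relIndex_bot_left, hrel, hn] at h3
    rw [← h3, pow_succ]
  obtain ⟨e1, he1, hK1, hc1⟩ := hstep _ (Subgroup.zpowers_le.2 hzΩ) 1 (by rw [hzc, pow_one]) (by norm_num)
  obtain ⟨e2, he2, hK2, hc2⟩ := hstep _ hK1 2 hc1 (by norm_num)
  obtain ⟨e3, he3, hK3, hc3⟩ := hstep _ hK2 3 hc2 (by norm_num)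
  have hKΩ : Subgroup.zpowers z ⊔ Subgroup.zpowers e1 ⊔ Subgroup.zpowers e2 ⊔ Subgroup.zpowers e3 = Ω :=
    Subgroup.eq_of_le_of_card_ge hK3 (by rw [hc3, hΩ16]; norm_num)
  let e : Fin 3 → R := ![e1, e2, e3]
  have he : ∀ i, e i * e i = 1 := fun i => by fin_cases i <;> [exact he1; exact he2; exact he3]
  have hx4 : x ^ 4 = 1 := by rw [show (4 : ℕ) = 2 + 2 from rfl, pow_add, pow_two, hx, hz2]
  let fA : Multiplicative (ZMod 4) →* R :=
    { toFun := fun a => x ^ a.toAdd.val
      map_one' := by simp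
      map_mul' := fun a b => by
        rw [toAdd_mul, ZMod.val_add, ← pow_eq_pow_mod _ hx4, pow_add] }
  let fB : Fin 3 → (Multiplicative (ZMod 2) →* R) := fun i =>
    { toFun := fun a => e i ^ a.toAdd.val
      map_one' := by simp
      map_mul' := fun a b => by
        rw [toAdd_mul, ZMod.val_add, ← pow_eq_pow_mod _ (show e i ^ 2 = 1 by rw [pow_two, he]), pow_add] }
  let f : Multiplicative (ZMod 4) × (Fin 3 → Multiplicative (ZMod 2)) →* R :=
    fA.coprod ((fB 0).comp (Pi.evalMonoidHom _ 0) * (fB 1).comp (Pi.evalMonoidHom _ 1) *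
      (fB 2).comp (Pi.evalMonoidHom _ 2))
  have hfA : x ∈ f.range := ⟨(Multiplicative.ofAdd 1, 1), by
    simp [f, fA, fB, show (1 : ZMod 4).val = 1 from rfl]⟩
  have hfB : ∀ i, e i ∈ f.range := fun i => ⟨(1, Pi.mulSingle i (Multiplicative.ofAdd 1)), by
    fin_cases i <;> simp [f, fA, fB, show (1 : ZMod 2).val = 1 from rfl]⟩
  have hΩle : Ω ≤ f.range := by
    rw [← hKΩ]
    refine sup_le (sup_le (sup_le ?_ ?_) ?_) ?_ <;> rw [Subgroup.zpowers_le]
    exacts [hx ▸ mul_mem hfA hfA, hfB 0, hfB 1, hfB 2]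
  have htop : f.range = ⊤ := by
    have h1 : 16 ≤ Nat.card f.range := hΩ16 ▸ Subgroup.card_le_of_le hΩle
    have h3 : Nat.card f.range ≠ 16 := fun e' => hz1 (by
      have h4 := Subgroup.eq_of_le_of_card_ge hΩle (by rw [e', hΩ16])
      have h5 : x ∈ Ω := by rw [h4]; exact hfA
      exact hx.symm.trans h5)
    have h5 := Subgroup.card_subgroup_dvd_card f.range
    rw [hcard] at h5
    obtain ⟨k, hk⟩ := h5
    refine Subgroup.eq_top_of_card_eq _ ?_
    rw [hcard]
    have : k < 2 := by nlinarith [show 16 < Nat.card f.range by omega]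
    interval_cases k <;> omega
  exact ⟨(MulEquiv.ofBijective f ((Nat.bijective_iff_surjective_and_card f).2
    ⟨MonoidHom.range_eq_top.1 htop, by
      rw [hcard, Nat.card_eq_fintype_card]; simp⟩)).symm⟩

/-- Elementary of order eight or sixteen, or of type `(4,2,2,2)`. -/
def Good (R : Type*) [Group R] : Prop :=
  ((∀ a b : R, a * b = b * a) ∧ (∀ a : R, a ^ 2 = 1) ∧ (Nat.card R = 8 ∨ Nat.card R = 16)) ∨
    Nonempty (R ≃* Multiplicative (ZMod 4) × (Fin 3 → Multiplicative (ZMod 2)))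

theorem Good.of_equiv {R S : Type*} [Group R] [Group S] (e : R ≃* S) (h : Good R) : Good S := by
  rcases h with ⟨hc, h2, hcard⟩ | hr
  · left
    refine ⟨fun a b => ?_, fun a => ?_, by rw [← Nat.card_congr e.toEquiv]; exact hcard⟩
    · obtain ⟨a, rfl⟩ := e.surjective a
      obtain ⟨b, rfl⟩ := e.surjective b
      rw [← map_mul, ← map_mul, hc]
    · obtain ⟨a, rfl⟩ := e.surjective a
      rw [← map_pow, h2, map_one]
  · exact Or.inr (hr.map e.symm.trans)

variable {Y : Type*} [Group Y] [Finite Y] {π : Y →* Q3}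

/-- The Frattini subgroup has at most one chief factor. -/
theorem Phi_small (h : Sit π) : Phi π = ⊥ ∨
    (Nat.card (Phi π) = 2 ∧ (∀ a ∈ π.ker, ∀ b ∈ π.ker, a * b = b * a) ∧ Nat.card (VQ π) = 16) := by
  classical
  by_contra hcon
  rw [not_or] at hcon
  obtain ⟨hne, hcon⟩ := hcon
  haveI := Phi_normal (π := π)
  obtain ⟨N, ⟨hNn, hNlt⟩, hNmax⟩ := Set.Finite.exists_maximal
    (Set.toFinite {N : Subgroup Y | N.Normal ∧ N < Phi π})
    ⟨⊥, inferInstance, bot_lt_iff_ne_bot.2 hne⟩
  haveI := hNn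
  obtain ⟨h', hker, hPhi⟩ := h.quotient N hNlt.le
  set mk := QuotientGroup.mk' N with hmk
  have hcomap : (Phi (QuotientGroup.lift N π (hNlt.le.trans Phi_le_ker))).comap mk = Phi π := by
    rw [hPhi, Subgroup.comap_map_eq, QuotientGroup.ker_mk', sup_eq_left.2 hNlt.le]
  have hsurj := QuotientGroup.mk'_surjective N
  have hmin' : ∀ L : Subgroup (Y ⧸ N), L.Normal →
      L ≤ Phi (QuotientGroup.lift N π (hNlt.le.trans Phi_le_ker)) →
      L = ⊥ ∨ L = Phi (QuotientGroup.lift N π (hNlt.le.trans Phi_le_ker)) := by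
    intro L hLn hL
    have hL' : L.comap mk ≤ Phi π := hcomap ▸ Subgroup.comap_mono hL
    have hNL : N ≤ L.comap mk := fun x hx => by
      rw [Subgroup.mem_comap, show mk x = 1 from (QuotientGroup.eq_one_iff x).2 hx]
      exact one_mem L
    by_cases he : L.comap mk = Phi π
    · right
      rw [← Subgroup.map_comap_eq_self_of_surjective hsurj L, he, hPhi]
    · left
      have hle : L.comap mk ≤ N := hNmax ⟨hLn.comap mk, lt_of_le_of_ne hL' he⟩ hNL
      rw [← Subgroup.map_comap_eq_self_of_surjective hsurj L, le_antisymm hle hNL]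
      exact (Subgroup.map_eq_bot_iff _).2 (by rw [QuotientGroup.ker_mk'])
  have hne' : Phi (QuotientGroup.lift N π (hNlt.le.trans Phi_le_ker)) ≠ ⊥ := by
    intro e
    rw [e, MonoidHom.comap_bot, QuotientGroup.ker_mk'] at hcomap
    exact hNlt.ne hcomap
  obtain ⟨h2, hab', hV'⟩ := first_layer h' hmin' hne'
  have hidx : Nat.card (Phi π) = 2 * Nat.card N := by
    have h1 : N.relIndex (Phi π) = 2 := by
      have h1 := h2
      rw [hPhi, ← Subgroup.relIndex_ker, QuotientGroup.ker_mk'] at h1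
      exact h1
    have h3 := Subgroup.relIndex_mul_relIndex ⊥ N (Phi π) bot_le hNlt.le
    rw [Subgroup.relIndex_bot_left, Subgroup.relIndex_bot_left, h1] at h3
    omega
  have hcomm : ∀ r ∈ π.ker, ∀ s ∈ π.ker, r * s * r⁻¹ * s⁻¹ ∈ N := by
    intro r hr s hs
    have hr' : mk r ∈ (QuotientGroup.lift N π (hNlt.le.trans Phi_le_ker)).ker := hr
    have hs' : mk s ∈ (QuotientGroup.lift N π (hNlt.le.trans Phi_le_ker)).ker := hs
    refine (QuotientGroup.eq_one_iff _).1 ?_
    show mk (r * s * r⁻¹ * s⁻¹) = 1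
    rw [map_mul, map_mul, map_mul, map_inv, map_inv, hab' _ hr' _ hs', mul_inv_cancel_right,
      mul_inv_cancel]
  have hcardR : Nat.card π.ker = 32 * Nat.card N := by
    have h1 : N.relIndex π.ker = 32 := by
      have h5 := h'.card_ker_eq
      rw [hV', h2, hker, ← Subgroup.relIndex_ker, QuotientGroup.ker_mk'] at h5
      exact h5
    have h3 := Subgroup.relIndex_mul_relIndex ⊥ N π.ker bot_le (hNlt.le.trans Phi_le_ker)
    rw [Subgroup.relIndex_bot_left, Subgroup.relIndex_bot_left, h1] at h3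
    omega
  by_cases hNb : N = ⊥
  · subst hNb
    rw [Subgroup.card_bot, mul_one] at hidx
    exact hcon ⟨hidx, first_two h hidx⟩
  obtain ⟨M, ⟨hMn, hMlt⟩, hMmax⟩ := Set.Finite.exists_maximal
    (Set.toFinite {M : Subgroup Y | M.Normal ∧ M < N}) ⟨⊥, inferInstance, bot_lt_iff_ne_bot.2 hNb⟩
  haveI := hMn
  obtain ⟨h'', hker2, hPhi2⟩ := h.quotient M (hMlt.le.trans hNlt.le)
  set mk2 := QuotientGroup.mk' M with hmk2
  have hsurj2 := QuotientGroup.mk'_surjective M
  have hNn2 : (N.map mk2).Normal := hNn.map mk2 hsurj2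
  have hcN : (N.map mk2).comap mk2 = N := by
    rw [Subgroup.comap_map_eq, QuotientGroup.ker_mk', sup_eq_left.2 hMlt.le]
  have hquo : ∀ K : Subgroup Y, M ≤ K → Nat.card (K.map mk2) * Nat.card M = Nat.card K := by
    intro K hK
    have h1 : M.relIndex K = Nat.card (K.map mk2) := by
      rw [← Subgroup.relIndex_ker, QuotientGroup.ker_mk']
    have h3 := Subgroup.relIndex_mul_relIndex ⊥ M K bot_le hK
    rw [Subgroup.relIndex_bot_left, Subgroup.relIndex_bot_left, h1] at h3
    rw [← h3, mul_comm]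
  have hne2 : N.map mk2 ≠ ⊥ := by
    intro e
    rw [e, MonoidHom.comap_bot, QuotientGroup.ker_mk'] at hcN
    exact hMlt.ne hcN
  have L : Layer (QuotientGroup.lift M π ((hMlt.le.trans hNlt.le).trans Phi_le_ker)) (N.map mk2) := by
    refine ⟨h'', hNn2, hPhi2 ▸ Subgroup.map_mono hNlt.le, ?_, ?_, ?_⟩
    · rw [hPhi2]
      refine Nat.eq_of_mul_eq_mul_right (Nat.card_pos (α := M)) ?_
      rw [hquo _ (hMlt.le.trans hNlt.le), hidx, mul_assoc, hquo _ hMlt.le]
    · rw [hker2]
      rintro _ ⟨r, hr, rfl⟩ _ ⟨s, hs, rfl⟩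
      exact ⟨_, hcomm r hr s hs, by simp only [map_mul, map_inv]⟩
    · rw [hker2]
      refine Nat.eq_of_mul_eq_mul_right (Nat.card_pos (α := M)) ?_
      rw [hquo _ ((hMlt.le.trans hNlt.le).trans Phi_le_ker), hcardR, mul_assoc, hquo _ hMlt.le]
  have hmin2 : ∀ L' : Subgroup (Y ⧸ M), L'.Normal → L' ≤ N.map mk2 → L' = ⊥ ∨ L' = N.map mk2 := by
    intro L hLn hL
    have hL' : L.comap mk2 ≤ N := hcN ▸ Subgroup.comap_mono hL
    have hML : M ≤ L.comap mk2 := fun x hx => by
      rw [Subgroup.mem_comap, show mk2 x = 1 from (QuotientGroup.eq_one_iff x).2 hx]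
      exact one_mem L
    by_cases he : L.comap mk2 = N
    · right
      rw [← he, Subgroup.map_comap_eq_self_of_surjective hsurj2]
    · left
      have hle : L.comap mk2 ≤ M := hMmax ⟨hLn.comap mk2, lt_of_le_of_ne hL' he⟩ hML
      rw [← Subgroup.map_comap_eq_self_of_surjective hsurj2 L, le_antisymm hle hML]
      exact (Subgroup.map_eq_bot_iff _).2 (by rw [QuotientGroup.ker_mk'])
  have hle2 := L.le.trans Phi_le_ker
  haveI := hNn2
  rcases card_minimal L.sit (N.map mk2) hle2 hmin2 hne2 with hc2 | ⟨h8, hnt⟩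
  · exact L.false_of_two hc2
  obtain ⟨hcen, hinv⟩ := L.sit.central_of_minimal' (N.map mk2) hle2 hmin2
  obtain ⟨π', hs, hk, ι, hι, hr, heq⟩ := exists_coordinates L.sit _ hcen hinv h8 hnt hle2
  refine (show Layer π' (N.map mk2) from ⟨L.sit.congr hs hk, hNn2, (Phi_congr hk).symm ▸ L.le,
    by rw [Phi_congr hk]; exact L.idx, by rw [hk]; exact L.comm,
    by rw [hk]; exact L.card⟩).false_of_natural ι hι hr heq

/-- The shape of the kernel. -/
theorem good_ker (h : Sit π) : Good π.ker := by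
  classical
  rcases Phi_small h with hb | ⟨hc2, hab, hV⟩
  · left
    have hsq : ∀ a : π.ker, a ^ 2 = 1 := fun a => Subtype.ext (by
      rw [pow_two, Subgroup.coe_mul, Subgroup.coe_one]
      exact Subgroup.mem_bot.1 (hb ▸ h.sq_mem a.2))
    refine ⟨fun a b => ?_, hsq, ?_⟩
    · have hinv : ∀ x : π.ker, x⁻¹ = x := fun x =>
        inv_eq_of_mul_eq_one_left (by rw [← pow_two]; exact hsq x)
      rw [← hinv (a * b), _root_.mul_inv_rev, hinv, hinv]
    · rw [h.card_ker_eq, hb, Subgroup.card_bot, mul_one]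
      exact card_VQ h
  right
  obtain ⟨z, hz, hzu⟩ := (Nat.card_eq_two_iff' (1 : Phi π)).1 hc2
  have hcases : ∀ w : Phi π, w = 1 ∨ w = z := fun w => or_iff_not_imp_left.2 (hzu w)
  set z' : π.ker := ⟨z, Phi_le_ker z.2⟩ with hz'
  have hz1 : z' ≠ 1 := fun e => hz (Subtype.ext (congrArg Subtype.val e :))
  have hz2 : z' * z' = 1 := by
    rcases hcases (z * z) with e | e
    · exact Subtype.ext (congrArg Subtype.val e :)
    · exact absurd (mul_eq_left.1 e) hz
  have hsqr : ∀ r : π.ker, r * r = 1 ∨ r * r = z' := fun r => by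
    rcases hcases ⟨(r : Y) * r, h.sq_mem r.2⟩ with e | e
    · exact Or.inl (Subtype.ext (congrArg Subtype.val e :))
    · exact Or.inr (Subtype.ext (congrArg Subtype.val e :))
  refine iso_of_squares (fun a b => Subtype.ext (hab a a.2 b b.2))
    (by rw [h.card_ker_eq, hV, hc2]) hz1 hz2 hsqr ?_
  by_contra hex
  push Not at hex
  have hle : Phi π ≤ ⊥ := h.Phi_le ⊥ fun r hr => Subgroup.mem_bot.2 (by
    rcases hsqr ⟨r, hr⟩ with e | e
    · exact (congrArg Subtype.val e :)
    · exact absurd e (hex _))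
  exact hz (Subtype.ext (Subgroup.mem_bot.1 (hle z.2)))

/-- The special projective group of degree three over two elements. -/
theorem exists_equiv {F : Type*} [Field F] [Fintype F] (hF : Fintype.card F = 2) :
    Nonempty (Matrix.ProjectiveSpecialLinearGroup (Fin 3) F ≃* Q3) := by
  classical
  let r : ZMod 2 ≃+* F := ZMod.ringEquivOfPrime F Nat.prime_two hF
  have hone : ∀ a : F, a ≠ 0 → a = 1 := by
    intro a ha
    obtain ⟨b, rfl⟩ := r.surjective a
    rw [(show ∀ b : ZMod 2, b ≠ 0 → b = 1 by decide) b (fun e => ha (by rw [e, map_zero])), map_one]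
  let ι : Matrix.SpecialLinearGroup (Fin 3) F →* GL (Fin 3) F := Matrix.SpecialLinearGroup.toGL
  have hιs : Function.Surjective ι := fun g =>
    ⟨⟨(g : Matrix (Fin 3) (Fin 3) F), hone _ (g.isUnit.map Matrix.detMonoidHom).ne_zero⟩,
      Units.ext rfl⟩
  have hιi : Function.Injective ι := fun a b h => Subtype.ext (congrArg Units.val h)
  have hcen : Subgroup.center (Matrix.SpecialLinearGroup (Fin 3) F) = ⊥ := by
    rw [eq_bot_iff]
    intro A hA
    rw [Matrix.SpecialLinearGroup.mem_center_iff] at hA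
    obtain ⟨s, hs, hA⟩ := hA
    have hs1 : s = 1 := hone s fun e => by rw [e] at hs; simp at hs
    rw [Subgroup.mem_bot]
    apply Subtype.ext
    rw [← hA, hs1, map_one]
    rfl
  exact ⟨((QuotientGroup.quotientMulEquivOfEq hcen).trans QuotientGroup.quotientBot).trans
    ((MulEquiv.ofBijective ι ⟨hιi, hιs⟩).trans (Units.mapEquiv r.symm.mapMatrix.toMulEquiv))⟩

end Cfsg.Agent.H54.RadFour.Three
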