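import Cfsg.Agent.H54.RadFour.ThreeTwoFirstTwo

/-!
# The first layer of the radical when the factor group has order 168
-/

set_option autoImplicit false
set_option linter.style.haveILetI false

namespace Cfsg.Agent.H54.RadFour.Three

open Matrix

variable {Y : Type*} [Group Y] [Finite Y] {π : Y →* Q3}

/-- The Frattini subgroup is not the natural module. -/
theorem false_of_natural (h : Sit π) (ι : Vec →* Y) (hι : Function.Injective ι)
    (hrange : ι.range = Phi π) (heq : ∀ g v, g * ι v * g⁻¹ = ι (nat3 (π g) v)) : False := by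
  classical
  have h2 : ∀ w ∈ Phi π, w * w = 1 := by
    rw [← hrange]
    rintro _ ⟨v, rfl⟩
    rw [← map_mul, vec_two, map_one]
  have hcen : ∀ w ∈ Phi π, ∀ r ∈ π.ker, w * r = r * w := by
    rw [← hrange]
    rintro _ ⟨v, rfl⟩ r hr
    have e := heq r v
    rw [MonoidHom.mem_ker.1 hr, act_one] at e
    exact (mul_inv_eq_iff_eq_mul.1 e).symm
  letI := h.commV
  letI := Sit.commW hcen
  have Q := h.qmap hcen h2
  have hΦ : Nat.card (Phi π) = 8 := by
    rw [← hrange, ← Nat.card_congr (MonoidHom.ofInjective hι).toEquiv, card_Vec]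
  let e₀ : Vec →* Phi π := ι.codRestrict (Phi π) fun v => hrange ▸ ⟨v, rfl⟩
  let e : Vec ≃* Phi π := MulEquiv.ofBijective e₀ (Function.Injective.bijective_of_nat_card_le
    (fun v w hvw => hι (congrArg Subtype.val hvw)) (by rw [hΦ, card_Vec]))
  let q : VQ π → Vec := fun v => e.symm (h.sqMap hcen h2 v)
  have Qv : Quad h.actV nat3 q := Q.toQuad.comap (MonoidHom.id _) e.toMonoidHom
    Function.injective_id e.injective (fun _ _ => rfl) (fun g w => by
      obtain ⟨y, rfl⟩ := h.surj g
      apply Subtype.ext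
      rw [h.actW_apply]
      exact (heq y w).symm) (fun v => e.apply_symm_apply _)
  have hq : ∀ r : π.ker, ι (q (r : VQ π)) = r * r := fun r =>
    (congrArg Subtype.val (e.apply_symm_apply (h.sqMap hcen h2 (r : VQ π))) :)
  have hne : ∃ v, q v ≠ 1 := by
    by_contra hall
    push Not at hall
    have hsub := Q.subsingleton_of_q fun v => e.symm.injective ((hall v).trans (map_one e.symm).symm)
    have : Phi π = ⊥ := (Subgroup.eq_bot_iff_forall _).2 fun w hw =>
      congrArg Subtype.val (hsub ⟨w, hw⟩)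
    rw [this, Subgroup.card_bot] at hΦ
    omega
  have hsqmem : ∀ r ∈ π.ker, r * r ∈ ι.range := fun r hr => hrange.symm ▸ h.sq_mem hr
  have hroot : ∀ (U : Subgroup (VQ π)), (∀ a, ∃ u ∈ U, q u = a) →
      ∀ v, ∃ r ∈ preV U, r * r = ι v := by
    intro U hU v
    obtain ⟨u, hu, hv⟩ := hU v
    obtain ⟨r, rfl⟩ := QuotientGroup.mk_surjective u
    exact ⟨r, mem_preV.2 hu, by rw [← hv, hq]⟩
  have hcomm : (∀ x y, q (x * y) = q x * q y) → ∀ a ∈ π.ker, ∀ b ∈ π.ker, a * b = b * a := by
    intro hhom a ha b hb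
    refine comm_of_polar h hcen h2 (r := ⟨a, ha⟩) (s := ⟨b, hb⟩) (e.symm.injective ?_)
    unfold polar
    rw [map_one, map_mul, map_mul]
    show q (_ * _) * q _ * q _ = 1
    rw [hhom, mul_assoc, vec_two]
  have hz1 : Nat.card (Subgroup.zpowers (1 : VQ π)) = 1 := by rw [Nat.card_zpowers, orderOf_one]
  rcases card_VQ h with h8 | h16
  · obtain ⟨hhom, hsur, hker⟩ := natural_iso Qv 1 (fun g => map_one _) (by rw [hz1, h8])
      (fun x y hx hy => transitive_eight _ (actV_inj h) (v2_VQ h) h8 x y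
        (out_two (one_mul 1) hx).1 (out_two (one_mul 1) hy).1) hne
    have C₀ : Core π π.ker ι := ⟨h.surj, inferInstance, le_rfl, hcomm hhom,
      by rw [h.card_ker_eq, h8, hΦ], hι, hsqmem, fun v => by
        obtain ⟨u, hu⟩ := hsur v
        obtain ⟨r, rfl⟩ := QuotientGroup.mk_surjective u
        exact ⟨r, r.2, by rw [← hu, hq]⟩, heq⟩
    obtain ⟨P₁, P₂, D, h₁, h₂, hD, -, hD4⟩ := exists_commutator_lift h.surj
    exact C₀.false_of_lift h.rank (fun a ha b hb hna => absurd ha hna) h₁ h₂ hD hD4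
  have mkK : (∀ x y, q (x * y) = q x * q y) → Function.Surjective q → Kernel128 π ι :=
    fun hhom hsur => ⟨h.surj, h.rank, hcomm hhom, by rw [h.card_ker_eq, h16, hΦ], hι, hsqmem,
      fun v => by
        obtain ⟨u, hu⟩ := hsur v
        obtain ⟨r, rfl⟩ := QuotientGroup.mk_surjective u
        exact ⟨r, r.2, by rw [← hu, hq]⟩, heq⟩
  rcases sixteen_cases (actV_inj h) (v2_VQ h) h16 with ⟨U, hU8, hU⟩ | ⟨c, hc1, hcf, htr⟩
  · have hinjU := restrict_injective (actV_inj h) (v2_VQ h) h16 U hU8 hU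
    have hU2 : ∀ u : U, u * u = 1 := fun u => Subtype.ext (v2_VQ h _)
    have QU : Quad (restrictAct h.actV U hU) nat3 (fun u : U => q u) :=
      Qv.comap U.subtype (MonoidHom.id _) Subtype.val_injective Function.injective_id
        (fun _ _ => rfl) (fun _ _ => rfl) (fun _ => rfl)
    have hi : Nat.card (VQ π) = 2 * Nat.card U := by omega
    have hi2 := index_two_of_card hi
    haveI := preV_normal h hU
    have hidx : ∀ a ∈ π.ker, ∀ b ∈ π.ker, a ∉ preV U → b ∉ preV U → a * b ∈ preV U := by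
      intro a ha b hb hna hnb
      refine (mem_preV (r := (⟨a, ha⟩ * ⟨b, hb⟩ : π.ker))).2 ?_
      rw [QuotientGroup.mk_mul]
      exact (Subgroup.mul_mem_iff_of_index_two hi2).2
        (iff_of_false (fun e => hna (mem_preV.2 e)) (fun e => hnb (mem_preV.2 e)))
    have h64 : Nat.card (preV U) = 64 := by rw [card_preV, hU8, hΦ]
    by_cases hneU : ∃ u : U, q u ≠ 1
    swap
    · push Not at hneU
      refine false_of_section h.rank (preV U) ⊥ ?_ ?_ bot_le ?_
      · exact le_top.trans (Subgroup.normalizer_eq_top_iff.2 inferInstance).ge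
      · rintro _ ⟨r, hr, rfl⟩
        rw [Subgroup.mem_bot]
        show (r : Y) * r = 1
        rw [← hq r, hneU ⟨(r : VQ π), hr⟩, map_one]
      · rw [h64, Subgroup.card_bot]; norm_num
    obtain ⟨hhomU, hsurU, hkerU⟩ := natural_iso QU 1 (fun g => map_one _)
      (by rw [Nat.card_zpowers, orderOf_one, hU8])
      (fun x y hx hy => transitive_eight _ hinjU hU2 hU8 x y
        (out_two (one_mul 1) hx).1 (out_two (one_mul 1) hy).1) hneU
    have hone : ∀ u : U, q u = 1 → u = 1 := fun u hu => by simpa using (hkerU u).1 hu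
    have hUU : ∀ u ∈ U, ∀ v ∈ U, polar q u v = 1 := fun u hu v hv => by
      unfold polar
      rw [show q (u * v) = q u * q v from hhomU ⟨u, hu⟩ ⟨v, hv⟩, mul_assoc, vec_two]
    let qU : U ≃* Vec := MulEquiv.ofBijective (MonoidHom.mk' (fun u : U => q u) hhomU)
      ⟨(injective_iff_map_eq_one _).2 hone, hsurU⟩
    let sU : Vec →* VQ π := U.subtype.comp qU.symm.toMonoidHom
    have hqs : ∀ a, q (sU a) = a := fun a => qU.apply_symm_apply a
    have hsU : ∀ a, sU a ∈ U := fun a => (qU.symm a).2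
    have hsq' : ∀ u ∈ U, sU (q u) = u := fun u hu =>
      congrArg Subtype.val (qU.symm_apply_apply ⟨u, hu⟩)
    have hseq : ∀ g a, sU (nat3 g a) = h.actV g (sU a) := fun g a => by
      rw [← hsq' _ (hU g _ (hsU a)), Qv.equiv, hqs]
    have hroot' := hroot U fun a => ⟨sU a, hsU a, hqs a⟩
    by_cases hall : ∀ x, x ∉ U → ∀ u ∈ U, polar q x u = 1
    · -- squaring is a homomorphism with a fixed point in its kernel
      have hpol := Qv.polar_all hi hUU hall
      exact (mkK (Qv.q_mul_of_polar hpol) fun a => ⟨sU a, hqs a⟩).false_of_split (preV U)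
        inferInstance preV_le h64 hroot'
    push Not at hall
    obtain ⟨x₀, hx₀, u₀, hu₀, hne₀⟩ := hall
    let μ : Vec →* Vec :=
      { toFun := fun a => polar q x₀ (sU a)
        map_one' := by rw [map_one]; exact Qv.polar_one x₀
        map_mul' := fun a b => by rw [map_mul]; exact Qv.polar_mul_right x₀ _ _ }
    have hid : ∀ a, μ a = a := by
      refine (commutant μ fun g a => ?_).resolve_left fun e => hne₀ ?_
      · show polar q x₀ (sU (nat3 g a)) = nat3 g (polar q x₀ (sU a))
        rw [hseq]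
        exact Qv.polar_coset hi hU hUU hx₀ (hsU a) g
      · rw [← hsq' u₀ hu₀]
        exact e (q u₀)
    have hpx : ∀ x, x ∉ U → ∀ u ∈ U, polar q x u = q u := by
      intro x hx u hu
      have hmem : x₀ * x ∈ U :=
        (Subgroup.mul_mem_iff_of_index_two hi2).2 (iff_of_false hx₀ hx)
      rw [show x = x₀ * (x₀ * x) by rw [← mul_assoc, Qv.v2, one_mul], Qv.polar_mul_left,
        hUU _ hmem _ hu, mul_one]
      conv_lhs => rw [← hsq' u hu]
      exact hid (q u)
    have hconst : ∀ x, x ∉ U → q x = 1 := by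
      have hc : ∀ y, y ∉ U → q y = q x₀ := by
        intro y hy
        have hmem : x₀ * y ∈ U :=
          (Subgroup.mul_mem_iff_of_index_two hi2).2 (iff_of_false hx₀ hy)
        rw [show y = x₀ * (x₀ * y) by rw [← mul_assoc, Qv.v2, one_mul], Qv.q_mul,
          hpx x₀ hx₀ _ hmem, mul_assoc, vec_two, mul_one]
      intro x hx
      rw [hc x hx]
      refine fix_mf _ ?_
      rw [← Qv.equiv, hc]
      intro e
      refine hx₀ ?_
      have := hU mf⁻¹ _ e
      rwa [← act_mul, inv_mul_cancel, act_one] at this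
    have C₀ : Core π (preV U) ι := by
      refine ⟨h.surj, inferInstance, preV_le, ?_, h64, hι,
        fun r hr => hsqmem r (preV_le hr), hroot', heq⟩
      rintro _ ⟨a, ha, rfl⟩ _ ⟨b, hb, rfl⟩
      refine comm_of_polar h hcen h2 (r := a) (s := b) (e.symm.injective ?_)
      unfold polar
      rw [map_one, map_mul, map_mul]
      exact hUU _ ha _ hb
    obtain ⟨P₁, P₂, D, h₁, h₂, hD, hπD, -⟩ := exists_commutator_lift h.surj
    refine C₀.false_of_lift h.rank hidx h₁ h₂ hD (C₀.pow_four_mem hπD fun s hs hsU r hr => ?_)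
    have hsr : ∀ t : π.ker, (t : Y) ∉ preV U → (t : Y) * t = 1 := fun t ht => by
      rw [← hq t, hconst _ (fun e => ht (mem_preV.2 e)), map_one]
    have h1 := hsr ⟨s, hs⟩ hsU
    have hsrn : s * r ∉ preV U := fun e => hsU (by
      have := mul_mem e (inv_mem hr)
      rwa [mul_inv_cancel_right] at this)
    have h3 := hsr ⟨s * r, mul_mem hs (preV_le hr)⟩ hsrn
    change s * r * (s * r) = 1 at h3
    change s * s = 1 at h1
    rw [inv_eq_of_mul_eq_one_left h1]
    exact eq_inv_of_mul_eq_one_left (by rw [← h3]; group)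
  · have hz2' : Nat.card (Subgroup.zpowers c) = 2 := by
      rw [Nat.card_zpowers]
      exact orderOf_eq_prime (hp := ⟨Nat.prime_two⟩) (by rw [pow_two, v2_VQ h]) hc1
    obtain ⟨hhom, hsur, hker⟩ := natural_iso Qv c hcf (by rw [hz2', h16]) (fun x y hx hy => by
      have hx' := out_two (v2_VQ h c) hx
      have hy' := out_two (v2_VQ h c) hy
      exact htr x y hx'.1 hx'.2 hy'.1 hy'.2) hne
    obtain ⟨x, rfl⟩ := QuotientGroup.mk_surjective c
    refine (mkK hhom hsur).false_of_transitive h hrange (x := x) x.2 ?_ ?_ fun r s hr hs => ?_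
    · rw [← hq x, (hker _).2 (Subgroup.mem_zpowers _), map_one]
    · rw [hrange]
      exact fun e => hc1 (h.mk_eq_one.2 e)
    · have hout : ∀ t : π.ker, (t : Y) * t ≠ 1 → (t : VQ π) ∉ Subgroup.zpowers (x : VQ π) :=
        fun t ht e => ht (by rw [← hq t, (hker _).2 e, map_one])
      have hx' := out_two (v2_VQ h _) (hout r hr)
      have hy' := out_two (v2_VQ h _) (hout s hs)
      exact htr _ _ hx'.1 hx'.2 hy'.1 hy'.2

/-- When the Frattini subgroup is a chief factor it has order two and the kernel is abelian. -/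
theorem first_layer (h : Sit π) (hmin : ∀ L : Subgroup Y, L.Normal → L ≤ Phi π → L = ⊥ ∨ L = Phi π)
    (hne : Phi π ≠ ⊥) : Nat.card (Phi π) = 2 ∧ (∀ a ∈ π.ker, ∀ b ∈ π.ker, a * b = b * a) ∧
      Nat.card (VQ π) = 16 := by
  haveI := Phi_normal (π := π)
  rcases card_minimal h (Phi π) Phi_le_ker hmin hne with h2 | ⟨h8, hnt⟩
  · exact ⟨h2, first_two h h2⟩
  exfalso
  obtain ⟨hcen, h2⟩ := h.central_of_minimal hmin
  obtain ⟨π', hs, hk, ι, hι, hr, heq⟩ := exists_coordinates h (Phi π) hcen h2 h8 hnt Phi_le_ker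
  exact false_of_natural (h.congr hs hk) ι hι (by rw [hr, Phi_congr hk]) heq

end Cfsg.Agent.H54.RadFour.Three
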