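import Cfsg.Agent.H54.RadFour.ThreeTwoKernel

/-!
# A Frattini subgroup of order two
-/

set_option autoImplicit false
set_option linter.style.haveILetI false

namespace Cfsg.Agent.H54.RadFour.Three

open Matrix

variable {Y : Type*} [Group Y] [Finite Y] {π : Y →* Q3}

/-- The Frattini subgroup of order two. -/
theorem first_two (h : Sit π) (hc2 : Nat.card (Phi π) = 2) :
    (∀ a ∈ π.ker, ∀ b ∈ π.ker, a * b = b * a) ∧ Nat.card (VQ π) = 16 := by
  classical
  haveI := Phi_normal (π := π)
  have hmin : ∀ L : Subgroup Y, L.Normal → L ≤ Phi π → L = ⊥ ∨ L = Phi π := fun L _ hL => by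
    have h1 := Subgroup.card_dvd_of_le hL
    rw [hc2] at h1
    rcases (Nat.dvd_prime Nat.prime_two).1 h1 with e | e
    · exact Or.inl (Subgroup.card_eq_one.1 e)
    · exact Or.inr (Subgroup.eq_of_le_of_card_ge hL (by rw [e, hc2]))
  obtain ⟨hcen, h2⟩ := h.central_of_minimal hmin
  letI := h.commV
  letI := Sit.commW hcen
  have Q := h.qmap hcen h2
  have htriv : ∀ g w, h.actW hcen g w = w := by
    refine (trivial_or_injective _).resolve_right fun hinj => ?_
    have h1 := card_cases hinj Q.w2 (by omega)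
    omega
  have hne : ∀ (hq : ∀ v, h.sqMap hcen h2 v = 1), False := fun hq => by
    have hall := Q.subsingleton_of_q hq
    have : Phi π = ⊥ := (Subgroup.eq_bot_iff_forall _).2 fun w hw =>
      congrArg Subtype.val (hall ⟨w, hw⟩)
    rw [this, Subgroup.card_bot] at hc2
    omega
  have hz1 : Nat.card (Subgroup.zpowers (1 : VQ π)) = 1 := by rw [Nat.card_zpowers, orderOf_one]
  rcases card_VQ h with h8 | h16
  · refine (hne fun v => Q.toQuad.q_eq_one_of_trivial htriv 1 (by omega) (fun x y hx hy =>
      transitive_eight _ (actV_inj h) (v2_VQ h) h8 x y ?_ ?_) v).elim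
    · exact (out_two (one_mul 1) hx).1
    · exact (out_two (one_mul 1) hy).1
  refine ⟨?_, h16⟩
  rcases sixteen_cases (actV_inj h) (v2_VQ h) h16 with ⟨U, hU8, hU⟩ | ⟨c, hc1, -, htr⟩
  · have hinjU := restrict_injective (actV_inj h) (v2_VQ h) h16 U hU8 hU
    have hU2 : ∀ u : U, u * u = 1 := fun u => Subtype.ext (v2_VQ h _)
    have QU : Quad (restrictAct h.actV U hU) (h.actW hcen)
        (fun u : U => h.sqMap hcen h2 u) := Q.toQuad.comap U.subtype (MonoidHom.id _)
      Subtype.val_injective Function.injective_id (fun _ _ => rfl) (fun _ _ => rfl) (fun _ => rfl)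
    have hqU : ∀ u ∈ U, h.sqMap hcen h2 u = 1 := fun u hu =>
      QU.q_eq_one_of_trivial htriv 1 (by rw [Nat.card_zpowers, orderOf_one, hU8]; norm_num)
        (fun x y hx hy => transitive_eight _ hinjU hU2 hU8 x y (out_two (one_mul 1) hx).1
          (out_two (one_mul 1) hy).1) ⟨u, hu⟩
    have hUU : ∀ u ∈ U, ∀ v ∈ U, polar (h.sqMap hcen h2) u v = 1 := fun u hu v hv =>
      Q.toQuad.polar_sub hqU hu hv
    have hi : Nat.card (VQ π) = 2 * Nat.card U := by omega
    have hxU : ∀ x, x ∉ U → ∀ u ∈ U, polar (h.sqMap hcen h2) x u = 1 := by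
      intro x hx u hu
      let f : U →* Phi π :=
        { toFun := fun v => polar (h.sqMap hcen h2) x v
          map_one' := Q.toQuad.polar_one x
          map_mul' := fun v w => Q.toQuad.polar_mul_right x v w }
      refine hom_trivial (φ := restrictAct h.actV U hU) f hU2 (by omega)
        (fun a b ha hb => transitive_eight _ hinjU hU2 hU8 a b ha hb) (fun g v => ?_) ⟨u, hu⟩
      exact (Q.toQuad.polar_coset hi hU hUU hx v.2 g).trans (htriv _ _)
    intro a ha b hb
    exact comm_of_polar h hcen h2 (r := ⟨a, ha⟩) (s := ⟨b, hb⟩)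
      (Q.toQuad.polar_all hi hUU hxU _ _)
  · refine (hne fun v => Q.toQuad.q_eq_one_of_trivial htriv c ?_ (fun x y hx hy => ?_) v).elim
    · have := card_zpowers_le_two (v2_VQ h c)
      omega
    · have hx' := out_two (v2_VQ h c) hx
      have hy' := out_two (v2_VQ h c) hy
      exact htr x y hx'.1 hx'.2 hy'.1 hy'.2

end Cfsg.Agent.H54.RadFour.Three
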