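import Cfsg.Agent.H54.RadFour.ThreeTwoSit
import Cfsg.Agent.H54.RadFour.ThreeTwoCore

/-!
# An abelian radical of order 128 over the group of order 168
-/

set_option autoImplicit false
set_option linter.style.haveILetI false

namespace Cfsg.Agent.H54.RadFour

section Coset

variable {Q V W : Type*} [Group Q] [CommGroup V] [CommGroup W]
  {φ : Q →* MulAut V} {ψ : Q →* MulAut W} {q : V → W}

theorem index_two_of_card [Finite V] {U : Subgroup V} (h : Nat.card V = 2 * Nat.card U) :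
    U.index = 2 := by
  have h1 := Subgroup.card_mul_index U
  rw [h, mul_comm 2] at h1
  exact Nat.eq_of_mul_eq_mul_left Nat.card_pos h1

/-- Across an invariant subgroup of index two the polar map is equivariant in one variable. -/
theorem Quad.polar_coset [Finite V] (h : Quad φ ψ q) {U : Subgroup V}
    (hi : Nat.card V = 2 * Nat.card U) (hU : ∀ g, ∀ u ∈ U, φ g u ∈ U)
    (hUU : ∀ u ∈ U, ∀ v ∈ U, polar q u v = 1) {x u : V} (hx : x ∉ U) (hu : u ∈ U) (g : Q) :
    polar q x (φ g u) = ψ g (polar q x u) := by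
  set x' := φ g⁻¹ x with hx'
  have hgx : φ g x' = x := by rw [hx', ← act_mul, mul_inv_cancel, act_one]
  have hx'U : x' ∉ U := fun e => hx (hgx ▸ hU g x' e)
  have hmem : x * x' ∈ U :=
    (Subgroup.mul_mem_iff_of_index_two (index_two_of_card hi)).2 (iff_of_false hx hx'U)
  have e1 : polar q x' u = polar q x u := by
    rw [show x' = x * (x * x') by rw [← mul_assoc, h.v2, one_mul], h.polar_mul_left,
      hUU _ hmem _ hu, mul_one]
  conv_lhs => rw [← hgx]
  rw [h.polar_equiv, e1]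

theorem Quad.polar_all [Finite V] (h : Quad φ ψ q) {U : Subgroup V}
    (hi : Nat.card V = 2 * Nat.card U) (hUU : ∀ u ∈ U, ∀ v ∈ U, polar q u v = 1)
    (hxU : ∀ x, x ∉ U → ∀ u ∈ U, polar q x u = 1) (x y : V) : polar q x y = 1 := by
  by_cases hx : x ∈ U
  · by_cases hy : y ∈ U
    · exact hUU x hx y hy
    · rw [h.polar_comm]; exact hxU y hy x hx
  · by_cases hy : y ∈ U
    · exact hxU x hx y hy
    · rw [show y = x * (x * y) by rw [← mul_assoc, h.v2, one_mul], h.polar_mul_right, h.polar_self,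
        hxU x hx _ ((Subgroup.mul_mem_iff_of_index_two (index_two_of_card hi)).2
          (iff_of_false hx hy)), mul_one]

theorem Quad.polar_sub (h : Quad φ ψ q) {U : Subgroup V} (hq : ∀ u ∈ U, q u = 1) {u v : V}
    (hu : u ∈ U) (hv : v ∈ U) : polar q u v = 1 := by
  unfold polar
  rw [hq _ (mul_mem hu hv), hq _ hu, hq _ hv, one_mul, one_mul]

end Coset

namespace Three

open Matrix

variable {Y : Type*} [Group Y] [Finite Y] {π : Y →* Q3}

/-- The facts about a commutator lift of the unipotent element. -/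
theorem Coord.lift_facts {R₀ : Subgroup Y} {ι : Vec →* Y} {c : Multiplicative V4 →* Y}
    {M : Y →* M4} (C : Coord π R₀ ι c M) {P₁ P₂ D : Y} (hP₁ : π P₁ = mp) (hP₂ : π P₂ = mq)
    (hD : D = P₁ * P₂ * P₁⁻¹ * P₂⁻¹)
    (h4 : ∀ r ∈ R₀, D * D * (D * D) * r = r * (D * D * (D * D))) : MatFacts (M D) := by
  have hπD : π D = md := by
    rw [hD, map_mul, map_mul, map_mul, map_inv, map_inv, hP₁, hP₂, md_comm]
  refine mat_facts (M D) (by rw [C.red_eq, hπD]) ?_ ?_
  · refine Matrix.ext_iff_mulVec.2 fun v => Multiplicative.ofAdd.injective (C.inj ?_)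
    rw [← map_mul, ← map_mul, ← C.conj, Matrix.one_mulVec, h4 _ (C.range ▸ ⟨_, rfl⟩),
      mul_inv_cancel_right]
  · have hu : ∀ g, (M g).det * (M g⁻¹).det = 1 := fun g => by
      rw [← Matrix.det_mul, ← map_mul, mul_inv_cancel, map_one, Matrix.det_one]
    rw [hD, map_mul, map_mul, map_mul, Matrix.det_mul, Matrix.det_mul, Matrix.det_mul,
      mul_right_comm ((M P₁).det) ((M P₂).det), hu, one_mul, hu]

/-- A lift of the unipotent element has fourth power in the core when outside elements invert it. -/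
theorem Core.pow_four_mem {R₀ : Subgroup Y} {ι : Vec →* Y} (K : Core π R₀ ι) {D : Y}
    (hD : π D = md)
    (hinv : ∀ s ∈ π.ker, s ∉ R₀ → ∀ r ∈ R₀, s * r * s⁻¹ = r⁻¹) : D * D * (D * D) ∈ R₀ := by
  by_contra hs
  have hk : D * D * (D * D) ∈ π.ker := by
    rw [MonoidHom.mem_ker, map_mul, map_mul, hD, md_sq, ma_sq]
  obtain ⟨c, M, C⟩ := K.exists_coord
  refine mat_no_neg (M D) (by rw [C.red_eq, hD]) (Matrix.ext_iff_mulVec.2 fun v =>
    Multiplicative.ofAdd.injective (C.inj ?_))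
  rw [← map_mul, ← map_mul, ← C.conj, Matrix.neg_mulVec, Matrix.one_mulVec, ofAdd_neg, map_inv]
  exact hinv _ hk hs _ (C.range ▸ ⟨_, rfl⟩)

theorem exists_commutator_lift (hs : Function.Surjective π) : ∃ P₁ P₂ D : Y, π P₁ = mp ∧ π P₂ = mq ∧
    D = P₁ * P₂ * P₁⁻¹ * P₂⁻¹ ∧ π D = md ∧ D * D * (D * D) ∈ π.ker := by
  obtain ⟨P₁, h₁⟩ := hs mp
  obtain ⟨P₂, h₂⟩ := hs mq
  have hπ : π (P₁ * P₂ * P₁⁻¹ * P₂⁻¹) = md := by
    rw [map_mul, map_mul, map_mul, map_inv, map_inv, h₁, h₂, md_comm]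
  refine ⟨P₁, P₂, _, h₁, h₂, rfl, hπ, ?_⟩
  rw [MonoidHom.mem_ker, map_mul, map_mul, hπ, md_sq, ma_sq]

/-- Outside a cyclic group of order at most two. -/
theorem out_two {G : Type*} [Group G] {c x : G} (hc : c * c = 1)
    (hx : x ∉ Subgroup.zpowers c) : x ≠ 1 ∧ x ≠ c :=
  ⟨fun e => hx ((mem_zpowers_two hc).2 (Or.inl e)),
    fun e => hx ((mem_zpowers_two hc).2 (Or.inr e))⟩

theorem stab_gens : ∀ t ∈ [ma, mb, mh, mh'], t * t = 1 ∧ t ≠ 1 ∧ nat3 t (E 0) = E 0 := by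
  intro t ht
  simp only [List.mem_cons, List.not_mem_nil, or_false] at ht
  rcases ht with rfl | rfl | rfl | rfl <;>
    exact ⟨by decide +kernel, by decide, by decide +kernel⟩

/-- An abelian kernel of order `128` whose squares form the natural module. -/
structure Kernel128 (π : Y →* Q3) (ι : Vec →* Y) : Prop where
  surj : Function.Surjective π
  rank : Cfsg.SectionalPRankLE 2 4 Y
  comm : ∀ a ∈ π.ker, ∀ b ∈ π.ker, a * b = b * a
  card : Nat.card π.ker = 128
  inj : Function.Injective ι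
  sq : ∀ r ∈ π.ker, r * r ∈ ι.range
  root : ∀ v, ∃ r ∈ π.ker, r * r = ι v
  equiv : ∀ g v, g * ι v * g⁻¹ = ι (nat3 (π g) v)

variable {ι : Vec →* Y}

/-- An involution fixes no point outside the squares. -/
theorem Kernel128.no_fixed (K : Kernel128 π ι) {g : Y} (hg : π g * π g = 1) (hg1 : π g ≠ 1)
    {z : Y} (hz : z ∈ π.ker) (hz2 : z * z = 1) (hzι : z ∉ ι.range) : g * z * g⁻¹ ≠ z := by
  classical
  intro hfix
  have hιle : ∀ v, ι v ∈ π.ker := fun v => by
    obtain ⟨r, hr, e⟩ := K.root v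
    exact e ▸ mul_mem hr hr
  letI : CommGroup π.ker :=
    { (inferInstance : Group π.ker) with mul_comm := fun a b => Subtype.ext (K.comm a a.2 b b.2) }
  let sq : π.ker →* π.ker :=
    { toFun := fun a => a * a, map_one' := one_mul 1, map_mul' := fun a b => mul_mul_mul_comm a b a b }
  set Ω : Subgroup Y := sq.ker.map π.ker.subtype with hΩ
  have hmem : ∀ {r}, r ∈ Ω ↔ r ∈ π.ker ∧ r * r = 1 := fun {r} =>
    ⟨fun ⟨s, hs, e⟩ => e ▸ ⟨s.2, congrArg Subtype.val hs⟩,
      fun ⟨hr, hr2⟩ => ⟨⟨r, hr⟩, Subtype.ext hr2, rfl⟩⟩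
  have hΩ16 : Nat.card Ω = 16 := by
    rw [hΩ, Subgroup.card_map_of_injective π.ker.subtype_injective]
    have h1 := Subgroup.card_mul_index sq.ker
    have hr : sq.range = ι.range.subgroupOf π.ker := by
      ext a
      constructor
      · rintro ⟨b, rfl⟩
        exact K.sq b b.2
      · intro ha
        obtain ⟨v, hv⟩ := ha
        obtain ⟨r, hr, e⟩ := K.root v
        exact ⟨⟨r, hr⟩, Subtype.ext (e.trans hv)⟩
    rw [Subgroup.index_ker, hr, Nat.card_congr (Subgroup.subgroupOfEquivOfLe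
      (by rintro _ ⟨v, rfl⟩; exact hιle v)).toEquiv, K.card,
      ← Nat.card_congr (MonoidHom.ofInjective K.inj).toEquiv, card_Vec] at h1
    omega
  haveI : Ω.Normal := ⟨fun r hr y => by
    obtain ⟨hrk, hr2⟩ := hmem.1 hr
    refine hmem.2 ⟨(inferInstance : π.ker.Normal).conj_mem r hrk y, ?_⟩
    rw [show y * r * y⁻¹ * (y * r * y⁻¹) = y * (r * r) * y⁻¹ by group, hr2, mul_one, mul_inv_cancel]⟩
  letI : CommGroup Ω :=
    { (inferInstance : Group Ω) with
      mul_comm := fun a b => Subtype.ext (K.comm a (hmem.1 a.2).1 b (hmem.1 b.2).1) }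
  have h2Ω : ∀ w : Ω, w * w = 1 := fun w => Subtype.ext (hmem.1 w.2).2
  -- the action on the involutions
  let act : Q3 →* MulAut Ω :=
    (QuotientGroup.lift π.ker (MulAut.conjNormal (H := Ω))
      (fun y hy => MulEquiv.ext fun w => Subtype.ext (by
        show y * (w : Y) * y⁻¹ = w
        rw [K.comm y hy w (hmem.1 w.2).1, mul_inv_cancel_right]))).comp
    (QuotientGroup.quotientKerEquivOfSurjective π K.surj).symm.toMonoidHom
  have hact : ∀ (y : Y) (w : Ω), ((act (π y) w : Ω) : Y) = y * w * y⁻¹ := fun y w => by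
    have e : (QuotientGroup.quotientKerEquivOfSurjective π K.surj).symm (π y) = (y : Y ⧸ π.ker) := by
      rw [MulEquiv.symm_apply_eq]; rfl
    simp only [act, MonoidHom.comp_apply, MulEquiv.toMonoidHom_eq_coe, MonoidHom.coe_coe]
    rw [e]
    rfl
  have hιΩ : ∀ v, ι v ∈ Ω := fun v => hmem.2 ⟨hιle v, by rw [← map_mul, vec_two, map_one]⟩
  have hinj : Function.Injective act := by
    refine (trivial_or_injective act).resolve_left fun htriv => ma_ne ?_
    refine nat3_injective (MulEquiv.ext fun v => K.inj ?_)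
    obtain ⟨y, hy⟩ := K.surj ma
    rw [map_one, MulAut.one_apply, ← hy, ← K.equiv]
    exact (hact y ⟨ι v, hιΩ v⟩).symm.trans (congrArg Subtype.val (htriv _ _))
  have hU8 : Nat.card (ι.range.subgroupOf Ω) = 8 := by
    rw [Nat.card_congr (Subgroup.subgroupOfEquivOfLe (by rintro _ ⟨v, rfl⟩; exact hιΩ v)).toEquiv,
      ← Nat.card_congr (MonoidHom.ofInjective K.inj).toEquiv, card_Vec]
  have hU : ∀ k, ∀ u ∈ ι.range.subgroupOf Ω, act k u ∈ ι.range.subgroupOf Ω := by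
    intro k u hu
    obtain ⟨y, rfl⟩ := K.surj k
    obtain ⟨v, hv⟩ := hu
    refine ⟨nat3 (π y) v, ?_⟩
    show ι _ = ((act (π y) u : Ω) : Y)
    rw [hact, ← K.equiv, hv]
    rfl
  obtain ⟨x, hx, hxfix⟩ := fixed_outside hinj h2Ω hΩ16 _ hU8 hU hg hg1
    (x := ⟨z, hmem.2 ⟨hz, hz2⟩⟩) hzι (Subtype.ext ((hact g _).trans hfix))
  -- a central involution outside the squares
  set N : Subgroup Y := Subgroup.zpowers (x : Y) with hN
  have hxc : ∀ y : Y, y * x * y⁻¹ = x := fun y => (hact y x).symm.trans (congrArg Subtype.val (hxfix _))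
  haveI : N.Normal := ⟨by
    rintro _ ⟨i, rfl⟩ y
    exact ⟨i, by show (x : Y) ^ i = y * (x : Y) ^ i * y⁻¹; rw [← conj_zpow, hxc]⟩⟩
  have hx2 : (x : Y) * x = 1 := (hmem.1 x.2).2
  have hNle : N ≤ π.ker := Subgroup.zpowers_le.2 (hmem.1 x.2).1
  set π' := QuotientGroup.lift N π hNle with hπ'
  set mk := QuotientGroup.mk' N with hmk
  have hker : π'.ker = π.ker.map mk := QuotientGroup.ker_lift _ _ _
  have hs' : Function.Surjective π' := fun k => by
    obtain ⟨y, rfl⟩ := K.surj k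
    exact ⟨mk y, rfl⟩
  have hcard : Nat.card π'.ker = 64 := by
    rw [hker]
    have h1 := Subgroup.card_mul_index (mk.subgroupMap π.ker).ker
    rw [Subgroup.index_ker, MonoidHom.range_eq_top.2 (mk.subgroupMap_surjective π.ker),
      Subgroup.card_top, Subgroup.ker_subgroupMap, QuotientGroup.ker_mk',
      Nat.card_congr (Subgroup.subgroupOfEquivOfLe hNle).toEquiv, K.card] at h1
    have h3 := card_zpowers_le_two hx2
    have h4 : 1 < Nat.card N := (Subgroup.one_lt_card_iff_ne_bot _).2 fun e => hx (by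
      rw [Subgroup.mem_subgroupOf, show (x : Y) = 1 from Subgroup.zpowers_eq_bot.1 e]
      exact one_mem _)
    have h5 : Nat.card N = 2 := by rw [hN] at h4 ⊢; omega
    rw [h5] at h1
    omega
  have K' : Core π' π'.ker (mk.comp ι) := by
    refine ⟨hs', inferInstance, le_rfl, ?_, hcard, ?_, ?_, ?_, ?_⟩
    · rw [hker]
      rintro _ ⟨a, ha, rfl⟩ _ ⟨b, hb, rfl⟩
      rw [← map_mul, ← map_mul, K.comm a ha b hb]
    · rw [injective_iff_map_eq_one]
      intro v hv
      rcases (mem_zpowers_two hx2).1 ((QuotientGroup.eq_one_iff _).1 hv) with e | e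
      · exact K.inj (e.trans (map_one ι).symm)
      · exact absurd ⟨v, e⟩ hx
    · rw [hker]
      rintro _ ⟨a, ha, rfl⟩
      obtain ⟨v, hv⟩ := K.sq a ha
      exact ⟨v, by show mk (ι v) = _; rw [hv, map_mul]⟩
    · intro v
      obtain ⟨r, hr, e⟩ := K.root v
      exact ⟨mk r, hker.symm ▸ ⟨r, hr, rfl⟩, by rw [← map_mul, e]; rfl⟩
    · intro y v
      obtain ⟨y, rfl⟩ := QuotientGroup.mk'_surjective N y
      show mk y * mk (ι v) * (mk y)⁻¹ = mk (ι (nat3 (π y) v))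
      rw [← map_inv, ← map_mul, ← map_mul, K.equiv]
  obtain ⟨P₁, P₂, D, h₁, h₂, hD, -, hD4⟩ := exists_commutator_lift K.surj
  refine K'.false_of_lift (sectional_quotient K.rank N) (fun a ha b hb hna => absurd ha hna)
    (P₁ := mk P₁) (P₂ := mk P₂) (D := mk D) h₁ h₂ ?_ ?_
  · rw [hD]; simp only [map_mul, map_inv]
  · rw [← map_mul, ← map_mul, hker]
    exact ⟨_, hD4, rfl⟩

/-- No complement to the kernel of squaring. -/
theorem Kernel128.false_of_split (K : Kernel128 π ι) (R₀ : Subgroup Y) (hn : R₀.Normal)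
    (hle : R₀ ≤ π.ker) (h64 : Nat.card R₀ = 64) (hroot : ∀ v, ∃ r ∈ R₀, r * r = ι v) : False := by
  classical
  have C₀ : Core π R₀ ι := ⟨K.surj, hn, hle, fun a ha b hb => K.comm a (hle ha) b (hle hb), h64,
    K.inj, fun r hr => K.sq r (hle hr), hroot, K.equiv⟩
  have hi : (R₀.subgroupOf π.ker).index = 2 := by
    have h1 := Subgroup.card_mul_index (R₀.subgroupOf π.ker)
    rw [Nat.card_congr (Subgroup.subgroupOfEquivOfLe hle).toEquiv, h64, K.card] at h1
    omega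
  have hidx : ∀ a ∈ π.ker, ∀ b ∈ π.ker, a ∉ R₀ → b ∉ R₀ → a * b ∈ R₀ := fun a ha b hb hna hnb =>
    (Subgroup.mul_mem_iff_of_index_two hi (a := ⟨a, ha⟩) (b := ⟨b, hb⟩)).2 (iff_of_false hna hnb)
  obtain ⟨P₁, P₂, D, h₁, h₂, hD, hπD, hD4⟩ := exists_commutator_lift K.surj
  refine C₀.false_of_lift K.rank hidx h₁ h₂ hD ?_
  by_contra hs
  obtain ⟨c, M, C⟩ := C₀.exists_coord
  obtain ⟨-, -, -, -, F5⟩ := C.lift_facts h₁ h₂ hD (fun r hr => K.comm _ hD4 r (hle hr))
  let cc : V4 → Y := fun v => c (Multiplicative.ofAdd v)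
  have cc_mem : ∀ v, cc v ∈ R₀ := fun v => C.range ▸ ⟨_, rfl⟩
  set s := D * D * (D * D) with hsdef
  -- an involution outside the core
  obtain ⟨v, hv⟩ := K.sq s hD4
  obtain ⟨r₁, hr₁, e₁⟩ := hroot v
  obtain ⟨x, hx⟩ : ∃ x, x = s * r₁⁻¹ := ⟨_, rfl⟩
  have hxk : x ∈ π.ker := hx ▸ mul_mem hD4 (inv_mem (hle hr₁))
  have hxR : x ∉ R₀ := fun e => hs (by
    have := mul_mem e hr₁
    rwa [hx, inv_mul_cancel_right] at this)
  have hx2 : x * x = 1 := by
    rw [hx, show s * r₁⁻¹ * (s * r₁⁻¹) = s * (r₁⁻¹ * s) * r₁⁻¹ by group,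
      K.comm _ (inv_mem (hle hr₁)) _ hD4,
      show s * (s * r₁⁻¹) * r₁⁻¹ = s * s * (r₁ * r₁)⁻¹ by group, ← hv, e₁, mul_inv_cancel]
  obtain ⟨r, hr⟩ : ∃ r, cc r = r₁ := by
    obtain ⟨r, hr⟩ := C.range.symm ▸ hr₁
    exact ⟨r.toAdd, hr⟩
  have hsx : s = x * cc r := by rw [hr, hx, inv_mul_cancel_right]
  have hDx : D * x * D⁻¹ = x * cc (r - M D *ᵥ r) := by
    have e1 : D * s * D⁻¹ = s := by rw [hsdef]; group
    rw [hsx, show D * (x * cc r) * D⁻¹ = (D * x * D⁻¹) * (D * cc r * D⁻¹) by group] at e1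
    rw [show D * cc r * D⁻¹ = cc (M D *ᵥ r) from C.conj D r] at e1
    rw [show cc (r - M D *ᵥ r) = cc r * (cc (M D *ᵥ r))⁻¹ by
      show c _ = c _ * (c _)⁻¹
      rw [← map_inv, ← map_mul, ← ofAdd_neg, ← ofAdd_add, sub_eq_add_neg], ← mul_assoc x, ← e1,
      mul_inv_cancel_right]
  have hDx2 : cc (r - M D *ᵥ r) * cc (r - M D *ᵥ r) = 1 := by
    have e2 : D * x * D⁻¹ * (D * x * D⁻¹) = 1 := by
      rw [show D * x * D⁻¹ * (D * x * D⁻¹) = D * (x * x) * D⁻¹ by group, hx2, mul_one, mul_inv_cancel]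
    rw [hDx, show x * cc (r - M D *ᵥ r) * (x * cc (r - M D *ᵥ r)) =
      x * (cc (r - M D *ᵥ r) * x) * cc (r - M D *ᵥ r) by group,
      K.comm _ (hle (cc_mem _)) _ hxk, ← mul_assoc x x, hx2, one_mul] at e2
    exact e2
  have hred : red (M D *ᵥ r - r) = 0 := by
    change c _ * c _ = 1 at hDx2
    rw [C.sq] at hDx2
    have h1 : red (r - M D *ᵥ r) = 0 :=
      congrArg Multiplicative.toAdd (K.inj (hDx2.trans (map_one ι).symm))
    funext i
    have h3 := congrFun h1 i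
    simp only [red, Pi.sub_apply, map_sub, Pi.zero_apply] at h3 ⊢
    rw [← neg_sub, h3, neg_zero]
  obtain ⟨w, hw0, hw⟩ := F5 r hred
  set z := x * cc w with hz
  have hDz : D * z * D⁻¹ = z := by
    rw [hz, show D * (x * cc w) * D⁻¹ = (D * x * D⁻¹) * (D * cc w * D⁻¹) by group, hDx,
      show D * cc w * D⁻¹ = cc (M D *ᵥ w) from C.conj D w, mul_assoc]
    congr 1
    show c _ * c _ = c _
    rw [← map_mul, ← ofAdd_add]
    congr 2
    rw [← sub_add_cancel (M D *ᵥ w) w, hw]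
    abel
  have hzk : z ∈ π.ker := mul_mem hxk (hle (cc_mem w))
  have hz2 : z * z = 1 := by
    rw [hz, show x * cc w * (x * cc w) = x * (cc w * x) * cc w by group,
      K.comm _ (hle (cc_mem w)) _ hxk, ← mul_assoc x x, hx2, one_mul]
    show c _ * c _ = 1
    rw [C.sq, hw0, ofAdd_zero, map_one]
  have hzι : z ∉ ι.range := by
    rintro ⟨u, hu⟩
    obtain ⟨r', hr', e'⟩ := hroot u
    refine hxR ?_
    have : z ∈ R₀ := hu ▸ e' ▸ mul_mem hr' hr'
    have := mul_mem this (inv_mem (cc_mem w))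
    rwa [hz, mul_inv_cancel_right] at this
  refine K.no_fixed (g := D * D) (by rw [map_mul, hπD, md_sq, ma_sq])
    (by rw [map_mul, hπD, md_sq]; exact ma_ne) hzk hz2 hzι ?_
  rw [show D * D * z * (D * D)⁻¹ = D * (D * z * D⁻¹) * D⁻¹ by group, hDz, hDz]

/-- The classes outside the kernel of squaring cannot form one orbit. -/
theorem Kernel128.false_of_transitive (K : Kernel128 π ι) (h : Sit π)
    (hrange : ι.range = Phi π) {x : Y} (hx : x ∈ π.ker) (hx2 : x * x = 1) (hxι : x ∉ ι.range)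
    (htr : ∀ r s : π.ker, (r : Y) * r ≠ 1 → (s : Y) * s ≠ 1 →
      ∃ g, h.actV g (r : VQ π) = (s : VQ π)) : False := by
  obtain ⟨r, hr, hr2⟩ := K.root (E 0)
  have hne : r * r ≠ 1 := fun e => E_ne 0 (K.inj (hr2.symm.trans (e.trans (map_one ι).symm)))
  have hrx : r * x * (r * x) = r * r := by
    rw [show r * x * (r * x) = r * (x * r) * x by group, K.comm x hx r hr, ← mul_assoc r r,
      mul_assoc, hx2, mul_one]
  obtain ⟨k, hk⟩ := htr ⟨r, hr⟩ ⟨r * x, mul_mem hr hx⟩ hne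
    (show r * x * (r * x) ≠ 1 by rw [hrx]; exact hne)
  have hiff : ∀ (y : Y) (a b : π.ker), h.actV (π y) (a : VQ π) = (b : VQ π) ↔
      (y * (a : Y) * y⁻¹)⁻¹ * b ∈ ι.range := fun y a b => by
    rw [h.actV_apply, QuotientGroup.eq, ← coe_mem_Phi, hrange, Subgroup.coe_mul, Subgroup.coe_inv,
      MulAut.conjNormal_apply]
  have hfixk : nat3 k (E 0) = E 0 := by
    obtain ⟨y, rfl⟩ := K.surj k
    obtain ⟨v, hv⟩ := (hiff y _ _).1 hk
    refine K.inj ?_
    rw [← K.equiv, ← hr2]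
    have hyr : y * r * y⁻¹ ∈ π.ker := (inferInstance : π.ker.Normal).conj_mem r hr y
    have e : r * x = y * r * y⁻¹ * ι v := by
      have h9 : ι v = (y * r * y⁻¹)⁻¹ * (r * x) := hv
      rw [h9, mul_inv_cancel_left]
    have hιk : ι v ∈ π.ker := by
      obtain ⟨w, hw, ew⟩ := K.root v
      exact ew ▸ mul_mem hw hw
    calc y * (r * r) * y⁻¹ = y * r * y⁻¹ * (y * r * y⁻¹) * (ι v * ι v) := by
          rw [← map_mul ι, vec_two, map_one, mul_one]; group
      _ = y * r * y⁻¹ * (y * r * y⁻¹ * ι v) * ι v := by group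
      _ = y * r * y⁻¹ * (ι v * (y * r * y⁻¹)) * ι v := by rw [K.comm _ hιk _ hyr]
      _ = r * x * (r * x) := by rw [e]; group
      _ = r * r := hrx
  have hmem : k ∈ stab h.actV (((⟨r, hr⟩ : π.ker)) : VQ π) := by
    refine prods_mem (fun t ht => ?_) (stab_zero hfixk)
    have hprop := stab_gens t ht
    obtain ⟨g, rfl⟩ := K.surj t
    rw [mem_stab, hiff]
    show (g * r * g⁻¹)⁻¹ * r ∈ ι.range
    set z := (g * r * g⁻¹)⁻¹ * r with hz
    have hgr : g * r * g⁻¹ ∈ π.ker := (inferInstance : π.ker.Normal).conj_mem r hr g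
    have hz2 : z * z = 1 := by
      rw [hz, show (g * r * g⁻¹)⁻¹ * r * ((g * r * g⁻¹)⁻¹ * r) =
        (g * r * g⁻¹)⁻¹ * (r * (g * r * g⁻¹)⁻¹) * r by group, K.comm r hr _ (inv_mem hgr),
        show (g * r * g⁻¹)⁻¹ * ((g * r * g⁻¹)⁻¹ * r) * r = (g * (r * r) * g⁻¹)⁻¹ * (r * r) by group,
        hr2, K.equiv, hprop.2.2, inv_mul_cancel]
    by_contra hzι
    refine K.no_fixed hprop.1 hprop.2.1 (mul_mem (inv_mem hgr) hr) hz2 hzι ?_
    have hgg : g * g ∈ π.ker := by rw [MonoidHom.mem_ker, map_mul, hprop.1]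
    calc g * z * g⁻¹ = (g * g * r * (g * g)⁻¹)⁻¹ * (g * r * g⁻¹) := by
          rw [hz]
          simp only [mul_assoc, _root_.mul_inv_rev, inv_inv, inv_mul_cancel_left]
      _ = r⁻¹ * (g * r * g⁻¹) := by rw [K.comm _ hgg _ hr, mul_inv_cancel_right]
      _ = z⁻¹ := by rw [hz]; group
      _ = z := inv_eq_of_mul_eq_one_left hz2
  rw [mem_stab, hk, QuotientGroup.eq, ← coe_mem_Phi, hrange.symm] at hmem
  refine hxι ?_
  have hxx : x⁻¹ ∈ ι.range := by
    have e : ((r * x)⁻¹ * r : Y) = x⁻¹ := by group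
    exact e ▸ hmem
  simpa using inv_mem hxx

end Three

end Cfsg.Agent.H54.RadFour
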