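import Cfsg.Agent.H54.RadFour.ThreeTwoQuad

/-!
# Extensions of a homocyclic group of type `(4,4,4)` by the group of order 168

A section of order thirty two appears above a flag of the natural module.
-/

set_option autoImplicit false
set_option linter.style.haveILetI false

namespace Cfsg.Agent.H54.RadFour.Three

open Matrix

/-- Square matrices of degree three over the integers modulo four. -/
abbrev M4 := Matrix (Fin 3) (Fin 3) (ZMod 4)

/-- Vectors of length three over the integers modulo four. -/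
abbrev V4 := Fin 3 → ZMod 4

/-- Reduction modulo two. -/
def r2 : ZMod 4 →+* ZMod 2 := ZMod.castHom (show 2 ∣ 4 by decide) (ZMod 2)

/-- Reduction of a vector modulo two. -/
def red (v : V4) : Fin 3 → ZMod 2 := fun i => r2 (v i)

/-- Twice the first basis vector, or zero. -/
abbrev InN (v : V4) : Prop := v = 0 ∨ v = ![2, 0, 0]

/-- Vectors reducing to a multiple of the first basis vector. -/
abbrev InT (v : V4) : Prop := red v = 0 ∨ red v = ![1, 0, 0]

/-- The lifts of the unipotent element. -/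
def cand (a b c d e f g h i : Fin 2) : M4 :=
  !![1 + 2 * (a.val : ZMod 4), 1 + 2 * (b.val : ZMod 4), 2 * (c.val : ZMod 4);
     2 * (d.val : ZMod 4), 1 + 2 * (e.val : ZMod 4), 1 + 2 * (f.val : ZMod 4);
     2 * (g.val : ZMod 4), 2 * (h.val : ZMod 4), 1 + 2 * (i.val : ZMod 4)]

/-- The determinant of degree three. -/
def det3 (M : M4) : ZMod 4 :=
  M 0 0 * M 1 1 * M 2 2 - M 0 0 * M 1 2 * M 2 1 - M 0 1 * M 1 0 * M 2 2 +
    M 0 1 * M 1 2 * M 2 0 + M 0 2 * M 1 0 * M 2 1 - M 0 2 * M 1 1 * M 2 0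

/-- What is needed about a lift of the unipotent element of determinant one. -/
abbrev MatFacts (M : M4) : Prop :=
  (∀ r : V4, M *ᵥ r = r → ∃ x, InN (x + M *ᵥ (M *ᵥ x) + r)) ∧
      InN (![0, 1, 0] + M *ᵥ (M *ᵥ ![0, 1, 0])) ∧
      (∀ v : V4, InT v → InN (M *ᵥ (M *ᵥ v) - v)) ∧
      (∀ v : V4, red (v + M *ᵥ (M *ᵥ v)) = 0 → InN (v + M *ᵥ (M *ᵥ v))) ∧
      (∀ r : V4, red (M *ᵥ r - r) = 0 → ∃ w, red w = 0 ∧ M *ᵥ w - w = M *ᵥ r - r)

theorem exists_cand (M : M4) (hM : M.map r2 = (md : Matrix (Fin 3) (Fin 3) (ZMod 2))) :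
    ∃ a b c d e f g h i, M = cand a b c d e f g h i := by
  have h0 : ∀ x : ZMod 4, r2 x = 0 → ∃ y : Fin 2, x = 2 * (y.val : ZMod 4) := by decide +kernel
  have h1 : ∀ x : ZMod 4, r2 x = 1 → ∃ y : Fin 2, x = 1 + 2 * (y.val : ZMod 4) := by decide +kernel
  have hx : ∀ i j, r2 (M i j) = (md : Matrix (Fin 3) (Fin 3) (ZMod 2)) i j :=
    fun i j => congrFun (congrFun hM i) j
  obtain ⟨a, ha⟩ := h1 _ (hx 0 0)
  obtain ⟨b, hb⟩ := h1 _ (hx 0 1)
  obtain ⟨c, hc⟩ := h0 _ (hx 0 2)
  obtain ⟨d, hd⟩ := h0 _ (hx 1 0)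
  obtain ⟨e, he⟩ := h1 _ (hx 1 1)
  obtain ⟨f, hf⟩ := h1 _ (hx 1 2)
  obtain ⟨g, hg⟩ := h0 _ (hx 2 0)
  obtain ⟨h, hh⟩ := h0 _ (hx 2 1)
  obtain ⟨i, hi⟩ := h1 _ (hx 2 2)
  refine ⟨a, b, c, d, e, f, g, h, i, ?_⟩
  ext p q
  fin_cases p <;> fin_cases q
  exacts [ha, hb, hc, hd, he, hf, hg, hh, hi]

set_option synthInstance.maxSize 4096 in
set_option synthInstance.maxHeartbeats 200000 in
theorem cand_facts : ∀ a b c d e f g h i,
    (cand a b c d e f g h i * cand a b c d e f g h i) *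
        (cand a b c d e f g h i * cand a b c d e f g h i) = 1 →
      det3 (cand a b c d e f g h i) = 1 → MatFacts (cand a b c d e f g h i) := by
  decide +kernel

theorem cand_no_neg : ∀ a b c d e f g h i,
    (cand a b c d e f g h i * cand a b c d e f g h i) *
        (cand a b c d e f g h i * cand a b c d e f g h i) ≠ -1 := by
  decide +kernel

/-- What is needed about a lift of the unipotent element. -/
theorem mat_facts (M : M4) (hM : M.map r2 = (md : Matrix (Fin 3) (Fin 3) (ZMod 2)))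
    (h4 : (M * M) * (M * M) = 1) (hdet : M.det = 1) :
      MatFacts M := by
  obtain ⟨a, b, c, d, e, f, g, h, i, rfl⟩ := exists_cand M hM
  rw [Matrix.det_fin_three] at hdet
  exact cand_facts a b c d e f g h i h4 hdet

theorem mat_no_neg (M : M4) (hM : M.map r2 = (md : Matrix (Fin 3) (Fin 3) (ZMod 2))) :
    (M * M) * (M * M) ≠ -1 := by
  obtain ⟨a, b, c, d, e, f, g, h, i, rfl⟩ := exists_cand M hM
  exact cand_no_neg a b c d e f g h i

theorem cancel_choice : ∀ y : Fin 3 → ZMod 2, ∃ a : V4, (a = 0 ∨ a = ![0, 1, 0]) ∧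
    (red a + y) + ((ma * mb : Q3) : Matrix (Fin 3) (Fin 3) (ZMod 2)) *ᵥ (red a + y) = 0 := by
  decide +kernel

variable {Y : Type*} [Group Y]

/-- A normal homocyclic subgroup on which the factor group acts naturally. -/
structure Core (π : Y →* Q3) (R₀ : Subgroup Y) (ι : Vec →* Y) : Prop where
  surj : Function.Surjective π
  normal : R₀.Normal
  le : R₀ ≤ π.ker
  comm : ∀ a ∈ R₀, ∀ b ∈ R₀, a * b = b * a
  card : Nat.card R₀ = 64
  inj : Function.Injective ι
  sq : ∀ r ∈ R₀, r * r ∈ ι.range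
  root : ∀ v, ∃ r ∈ R₀, r * r = ι v
  equiv : ∀ g v, g * ι v * g⁻¹ = ι (nat3 (π g) v)

/-- Coordinates on the homocyclic subgroup. -/
structure Coord (π : Y →* Q3) (R₀ : Subgroup Y) (ι : Vec →* Y)
    (c : Multiplicative V4 →* Y) (M : Y →* M4) : Prop where
  inj : Function.Injective c
  range : c.range = R₀
  conj : ∀ g (v : V4), g * c (Multiplicative.ofAdd v) * g⁻¹ =
    c (Multiplicative.ofAdd (M g *ᵥ v))
  red_eq : ∀ g, (M g).map r2 = ((π g : Q3) : Matrix (Fin 3) (Fin 3) (ZMod 2))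
  sq : ∀ v : V4, c (Multiplicative.ofAdd v) * c (Multiplicative.ofAdd v) =
    ι (Multiplicative.ofAdd (red v))

theorem Core.exists_coord [Finite Y] {π : Y →* Q3} {R₀ : Subgroup Y} {ι : Vec →* Y}
    (K : Core π R₀ ι) : ∃ (c : Multiplicative V4 →* Y) (M : Y →* M4), Coord π R₀ ι c M := by
  letI : CommGroup R₀ :=
    { (inferInstance : Group R₀) with mul_comm := fun a b => Subtype.ext (K.comm a a.2 b b.2) }
  haveI := K.normal
  choose r hr hr2 using K.root
  let s : Fin 3 → R₀ := fun i => ⟨r (E i), hr _⟩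
  have h4 : ∀ i, s i ^ 4 = 1 := fun i => Subtype.ext (by
    rw [Subgroup.coe_pow, show (4 : ℕ) = 2 + 2 from rfl, pow_add, pow_two]
    show r (E i) * r (E i) * (r (E i) * r (E i)) = 1
    rw [hr2, ← map_mul, vec_two, map_one])
  have hp : ∀ i (a b : ZMod 4), s i ^ (a + b).val = s i ^ a.val * s i ^ b.val := fun i a b => by
    rw [ZMod.val_add, ← pow_eq_pow_mod _ (h4 i), pow_add]
  let c₀ : Multiplicative V4 →* R₀ :=
    { toFun := fun v => s 0 ^ (v.toAdd 0).val * s 1 ^ (v.toAdd 1).val * s 2 ^ (v.toAdd 2).val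
      map_one' := by simp
      map_mul' := fun v w => by
        simp only [toAdd_mul, Pi.add_apply, hp]
        ac_rfl }
  have hword : ∀ v : V4, E 0 ^ (v 0).val * E 1 ^ (v 1).val * E 2 ^ (v 2).val =
      Multiplicative.ofAdd (red v) := by decide +kernel
  have hsq : ∀ v : V4, ((c₀ (Multiplicative.ofAdd v) * c₀ (Multiplicative.ofAdd v) : R₀) : Y) =
      ι (Multiplicative.ofAdd (red v)) := by
    intro v
    rw [← hword, map_mul, map_mul, map_pow, map_pow, map_pow]
    show ((s 0 ^ (v 0).val * s 1 ^ (v 1).val * s 2 ^ (v 2).val *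
      (s 0 ^ (v 0).val * s 1 ^ (v 1).val * s 2 ^ (v 2).val) : R₀) : Y) = _
    have e2 : ∀ i (n : ℕ), ι (E i) ^ n = ((s i ^ n * s i ^ n : R₀) : Y) := fun i n => by
      rw [← hr2 (E i), ← mul_pow, Subgroup.coe_pow]; rfl
    rw [e2, e2, e2, ← Subgroup.coe_mul, ← Subgroup.coe_mul]
    congr 1
    ac_rfl
  have hinj0 : Function.Injective c₀ := by
    rw [injective_iff_map_eq_one]
    intro v hv
    have h1 := hsq v.toAdd
    rw [ofAdd_toAdd, hv, mul_one, Subgroup.coe_one] at h1
    have h2 : red v.toAdd = 0 :=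
      congrArg Multiplicative.toAdd (K.inj (h1.symm.trans (map_one ι).symm))
    obtain ⟨u, hu⟩ := (show ∀ w : V4, red w = 0 → ∃ u : V4, w = u + u by decide +kernel) _ h2
    have h3 := hsq u
    rw [← map_mul, ← ofAdd_add, ← hu, ofAdd_toAdd, hv, Subgroup.coe_one] at h3
    have h5 : red u = 0 := congrArg Multiplicative.toAdd (K.inj (h3.symm.trans (map_one ι).symm))
    have h6 : v.toAdd = 0 := by
      rw [hu]; exact (show ∀ w : V4, red w = 0 → w + w = 0 by decide +kernel) _ h5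
    rw [← ofAdd_toAdd v, h6, ofAdd_zero]
  have hbij : Function.Bijective c₀ := Function.Injective.bijective_of_nat_card_le hinj0
    (by rw [K.card, Nat.card_eq_fintype_card]; simp)
  let e : Multiplicative V4 ≃* R₀ := MulEquiv.ofBijective c₀ hbij
  let f : Y → V4 →+ V4 := fun g =>
    { toFun := fun v => (e.symm (MulAut.conjNormal g (e (Multiplicative.ofAdd v)))).toAdd
      map_zero' := by simp
      map_add' := fun v w => by rw [ofAdd_add, map_mul, map_mul, map_mul, toAdd_mul] }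
  have hf : ∀ g v, g * (c₀ (Multiplicative.ofAdd v) : Y) * g⁻¹ =
      c₀ (Multiplicative.ofAdd (f g v)) := fun g v => by
    show g * ((e (Multiplicative.ofAdd v) : R₀) : Y) * g⁻¹ =
      ((e (Multiplicative.ofAdd (e.symm _).toAdd) : R₀) : Y)
    rw [ofAdd_toAdd, MulEquiv.apply_symm_apply, MulAut.conjNormal_apply]
  let m : Y → M4 := fun g => LinearMap.toMatrix' ((f g).toZModLinearMap 4)
  have hm : ∀ g v, g * (c₀ (Multiplicative.ofAdd v) : Y) * g⁻¹ =
      c₀ (Multiplicative.ofAdd (m g *ᵥ v)) := fun g v => by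
    rw [LinearMap.toMatrix'_mulVec]
    exact hf g v
  have hcancel : ∀ (v w : V4), (c₀ (Multiplicative.ofAdd v) : Y) = c₀ (Multiplicative.ofAdd w) →
      v = w := fun v w e => Multiplicative.ofAdd.injective (hinj0 (Subtype.ext e))
  let M : Y →* M4 :=
    { toFun := m
      map_one' := Matrix.ext_iff_mulVec.2 fun v => hcancel _ _ (by
        rw [← hm, one_mul, inv_one, mul_one, Matrix.one_mulVec])
      map_mul' := fun g h => Matrix.ext_iff_mulVec.2 fun v => hcancel _ _ (by
        rw [← hm, ← Matrix.mulVec_mulVec, ← hm g, ← hm h]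
        group) }
  refine ⟨R₀.subtype.comp c₀, M, Subtype.val_injective.comp hinj0, ?_, hm, fun g => ?_, hsq⟩
  · rw [MonoidHom.range_comp, MonoidHom.range_eq_top.2 hbij.2, ← MonoidHom.range_eq_map,
      Subgroup.range_subtype]
  · refine Matrix.ext_iff_mulVec.2 fun u => ?_
    obtain ⟨v, rfl⟩ : ∃ v : V4, red v = u := by
      revert u; decide +kernel
    have h1 : ι (Multiplicative.ofAdd (red (m g *ᵥ v))) =
        ι (nat3 (π g) (Multiplicative.ofAdd (red v))) := by
      rw [← hsq, ← K.equiv, ← hsq, Subgroup.coe_mul, Subgroup.coe_mul, ← hm]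
      group
    have h2 := congrArg Multiplicative.toAdd (K.inj h1)
    refine Eq.trans ?_ h2
    funext i
    exact (RingHom.map_mulVec r2 (m g) v i).symm

end Cfsg.Agent.H54.RadFour.Three
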