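import Cfsg.Agent.H54.RadFour.Basic
import Cfsg.Agent.H54.RadFour.ThreeTwoFacts
import Cfsg.Agent.H50.AltEight.Classify
import Cfsg.Agent.H19.Cores

/-!
# Small modules of the general linear group of degree three over two elements
-/

set_option autoImplicit false
set_option linter.style.haveILetI false

namespace Cfsg.Agent.H54.RadFour.Three

open Matrix

theorem E_ne (i : Fin 3) : E i ≠ 1 := by
  revert i; decide

theorem nat3_injective : Function.Injective nat3 := by
  intro g g' e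
  refine Units.ext (Matrix.ext_iff_mulVec.2 fun v => ?_)
  exact congrArg Multiplicative.toAdd (DFunLike.congr_fun e (Multiplicative.ofAdd v))

theorem nat3_surjective : Function.Surjective nat3 := by
  intro α
  let L : (MulAut Vec) → Matrix (Fin 3) (Fin 3) (ZMod 2) := fun β =>
    Matrix.of fun i j => (β (E j)).toAdd i
  have hmul : ∀ (β : MulAut Vec) (v : Vec), L β *ᵥ v.toAdd = (β v).toAdd := by
    intro β v
    have hv : v = Multiplicative.ofAdd (Pi.single 0 (v.toAdd 0) : Fin 3 → ZMod 2) *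
        Multiplicative.ofAdd (Pi.single 1 (v.toAdd 1) : Fin 3 → ZMod 2) *
          Multiplicative.ofAdd (Pi.single 2 (v.toAdd 2) : Fin 3 → ZMod 2) := by
      revert v; decide
    have hs : ∀ (i : Fin 3) (r : ZMod 2), (β (Multiplicative.ofAdd (Pi.single i r))).toAdd =
        r • (β (E i)).toAdd := by
      intro i r
      rcases (show ∀ r : ZMod 2, r = 0 ∨ r = 1 by decide) r with rfl | rfl
      · simp
      · rw [one_smul]; rfl
    conv_rhs => rw [hv, map_mul β, map_mul β, toAdd_mul, toAdd_mul, hs, hs, hs]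
    ext i
    simp [L, Matrix.mulVec, dotProduct, Fin.sum_univ_three, mul_comm]
  have hinv : ∀ β : MulAut Vec, L β * L β⁻¹ = 1 := fun β =>
    Matrix.ext_iff_mulVec.2 fun v => by
      rw [Matrix.one_mulVec, ← Matrix.mulVec_mulVec]
      have h1 := hmul β⁻¹ (Multiplicative.ofAdd v)
      rw [toAdd_ofAdd] at h1
      rw [h1, hmul, MulAut.apply_inv_self, toAdd_ofAdd]
  refine ⟨⟨L α, L α⁻¹, hinv α, by simpa using hinv α⁻¹⟩, MulEquiv.ext fun v => ?_⟩
  show Multiplicative.ofAdd (L α *ᵥ v.toAdd) = α v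
  rw [hmul, ofAdd_toAdd]

theorem isSimpleGroup_Q3 : IsSimpleGroup Q3 := H50.AltEight.gl_three_two.1

theorem card_Q3 : Nat.card Q3 = 168 := H50.AltEight.gl_three_two.2

variable {W : Type*} [CommGroup W] [Finite W]

/-- A copy of the natural module. -/
structure Natural (ψ : Q3 →* MulAut W) (ι : Vec →* W) : Prop where
  inj : Function.Injective ι
  equiv : ∀ g v, ψ g (ι v) = ι (nat3 g v)

/-- An action is faithful or trivial. -/
theorem trivial_or_injective (ψ : Q3 →* MulAut W) :
    (∀ g w, ψ g w = w) ∨ Function.Injective ψ := by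
  haveI := isSimpleGroup_Q3
  rcases IsSimpleGroup.eq_bot_or_eq_top_of_normal ψ.ker inferInstance with hb | hb
  · exact Or.inr ((MonoidHom.ker_eq_bot_iff ψ).1 hb)
  · left
    intro g w
    rw [MonoidHom.mem_ker.1 (show g ∈ ψ.ker from hb ▸ Subgroup.mem_top g)]
    rfl

section Faithful

variable {ψ : Q3 →* MulAut W} (hinj : Function.Injective ψ) (h2 : ∀ w : W, w * w = 1)
  (hle : Nat.card W ≤ 16)
include hinj h2 hle

omit h2 hle in
theorem fix_ne_card {g : Q3} (hg : g ≠ 1) : Nat.card (fixSet ψ {g}) ≠ Nat.card W := fun e => by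
  refine hg (hinj ?_)
  rw [map_one]
  exact MulEquiv.ext fun w =>
    (mem_fixSet_singleton ψ).1 ((Subgroup.eq_top_of_card_eq _ e).symm ▸ Subgroup.mem_top w)

theorem card_cases : (Nat.card W = 8 ∧ Nat.card (fixSet ψ {mf}) = 1) ∨
    (Nat.card W = 16 ∧ Nat.card (fixSet ψ {mf}) = 2) := by
  haveI : Fact (Nat.Prime 7) := ⟨by norm_num⟩
  have h1 := card_modEq_fix ψ mf_pow
  rw [Nat.ModEq] at h1
  obtain ⟨n, hn⟩ := card_pow_two h2
  obtain ⟨m, hm⟩ := card_subgroup_cases h2 (fixSet ψ {mf})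
  have hdvd := Subgroup.card_subgroup_dvd_card (fixSet ψ {mf})
  have hne := fix_ne_card hinj mf_ne
  rw [hn] at h1 hdvd hne hle ⊢
  rw [hm] at h1 hdvd hne ⊢
  have hn4 : n ≤ 4 := by
    by_contra hlt
    have := Nat.pow_le_pow_right (show 2 > 0 by norm_num) (show 5 ≤ n by omega)
    omega
  have hmn : m ≤ n := (Nat.pow_dvd_pow_iff_le_right (by norm_num)).1 hdvd
  interval_cases n <;> interval_cases m <;> simp_all

end Faithful

/-- A faithful module of order eight is natural after an automorphism of the group. -/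
theorem exists_natural (ψ : Q3 →* MulAut W) (hinj : Function.Injective ψ)
    (h2 : ∀ w : W, w * w = 1) (h8 : Nat.card W = 8) :
    ∃ (θ : Q3 ≃* Q3) (ι : Vec →* W), Natural (ψ.comp θ.toMonoidHom) ι ∧ Function.Surjective ι := by
  classical
  have hz : ∀ S : Subgroup W, Nat.card S < 8 → ∃ u, u ∉ S := fun S hS => by
    by_contra hall
    push Not at hall
    rw [(Subgroup.eq_top_iff' _).2 hall, Subgroup.card_top, h8] at hS
    omega
  have hord : ∀ u : W, Nat.card (Subgroup.zpowers u) ≤ 2 := fun u => by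
    rw [Nat.card_zpowers]
    exact Nat.le_of_dvd (by norm_num) (orderOf_dvd_of_pow_eq_one (by rw [pow_two, h2]))
  obtain ⟨u₀, hu₀⟩ := hz ⊥ (by rw [Subgroup.card_bot]; norm_num)
  obtain ⟨u₁, hu₁⟩ := hz (Subgroup.zpowers u₀) (by have := hord u₀; omega)
  have hsup : Nat.card ↥(Subgroup.zpowers u₀ ⊔ Subgroup.zpowers u₁) ≤ 4 := by
    have h1 := H19.card_sup_dvd (Subgroup.zpowers u₀) (Subgroup.zpowers u₁)
    have h2' : 0 < Nat.card (Subgroup.zpowers u₀) * Nat.card (Subgroup.zpowers u₁) :=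
      Nat.mul_pos Nat.card_pos Nat.card_pos
    have h3 := Nat.le_of_dvd h2' h1
    have := hord u₀
    have := hord u₁
    nlinarith
  obtain ⟨u₂, hu₂⟩ := hz _ (show Nat.card ↥(Subgroup.zpowers u₀ ⊔ Subgroup.zpowers u₁) < 8 by omega)
  let pw : W → ZMod 2 → W := fun u r => if r = 0 then 1 else u
  have hpw : ∀ u r s, pw u (r + s) = pw u r * pw u s := by
    intro u r s
    rcases (show ∀ r : ZMod 2, r = 0 ∨ r = 1 by decide) r with rfl | rfl <;>
      rcases (show ∀ r : ZMod 2, r = 0 ∨ r = 1 by decide) s with rfl | rfl <;>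
      simp [pw, h2, show (1 : ZMod 2) + 1 = 0 by decide]
  let ι : Vec →* W :=
    { toFun := fun v => pw u₀ (v.toAdd 0) * pw u₁ (v.toAdd 1) * pw u₂ (v.toAdd 2)
      map_one' := by simp [pw]
      map_mul' := fun v w => by
        simp only [toAdd_mul, Pi.add_apply, hpw]
        ac_rfl }
  have hι : Function.Injective ι := by
    rw [injective_iff_map_eq_one]
    intro v hv
    change pw u₀ (v.toAdd 0) * pw u₁ (v.toAdd 1) * pw u₂ (v.toAdd 2) = 1 at hv
    have h20 : v.toAdd 2 = 0 := by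
      by_contra hne
      simp only [pw, if_neg hne] at hv
      refine hu₂ ?_
      rw [eq_inv_of_mul_eq_one_right hv]
      refine inv_mem (mul_mem ?_ ?_)
      · exact Subgroup.mem_sup_left (by split <;> [exact one_mem _; exact Subgroup.mem_zpowers _])
      · exact Subgroup.mem_sup_right (by split <;> [exact one_mem _; exact Subgroup.mem_zpowers _])
    simp only [pw, if_pos h20, mul_one] at hv
    have h10 : v.toAdd 1 = 0 := by
      by_contra hne
      simp only [if_neg hne] at hv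
      refine hu₁ ?_
      rw [eq_inv_of_mul_eq_one_right hv]
      exact inv_mem (by split <;> [exact one_mem _; exact Subgroup.mem_zpowers _])
    simp only [if_pos h10, mul_one] at hv
    have h00 : v.toAdd 0 = 0 := by
      by_contra hne
      simp only [if_neg hne] at hv
      exact hu₀ (hv ▸ one_mem _)
    apply Multiplicative.toAdd.injective
    ext i
    fin_cases i <;> assumption
  have hbij : Function.Bijective ι := Function.Injective.bijective_of_nat_card_le hι
    (by rw [h8, Nat.card_eq_fintype_card]; decide)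
  let e : Vec ≃* W := MulEquiv.ofBijective ι hbij
  let χ : Q3 →* Q3 :=
    (MulEquiv.ofBijective nat3 ⟨nat3_injective, nat3_surjective⟩).symm.toMonoidHom.comp
      ((MulAut.congr e.symm).toMonoidHom.comp ψ)
  have hχ : Function.Injective χ := fun x y hxy =>
    hinj ((MulAut.congr e.symm).injective
      ((MulEquiv.ofBijective nat3 ⟨nat3_injective, nat3_surjective⟩).symm.injective hxy))
  have hχb : Function.Bijective χ := Function.Injective.bijective_of_nat_card_le hχ le_rfl
  refine ⟨(MulEquiv.ofBijective χ hχb).symm, ι, ⟨hι, fun g v => ?_⟩, hbij.2⟩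
  obtain ⟨g', rfl⟩ := hχb.2 g
  have h1 : nat3 (χ g') = MulAut.congr e.symm (ψ g') :=
    (MulEquiv.ofBijective nat3 ⟨nat3_injective, nat3_surjective⟩).apply_symm_apply _
  have h3 : (MulEquiv.ofBijective χ hχb).symm (χ g') = g' :=
    (MulEquiv.ofBijective χ hχb).symm_apply_apply g'
  show ψ ((MulEquiv.ofBijective χ hχb).symm (χ g')) (ι v) = ι (nat3 (χ g') v)
  rw [h3, h1]
  show ψ g' (e v) = e (e.symm (ψ g' (e v)))
  rw [MulEquiv.apply_symm_apply]

/-- The restricted action on an invariant subgroup. -/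
def restrictAct (ψ : Q3 →* MulAut W) (U : Subgroup W) (hU : ∀ g, ∀ u ∈ U, ψ g u ∈ U) :
    Q3 →* MulAut U where
  toFun g :=
    { toFun := fun u => ⟨ψ g u, hU g u u.2⟩
      invFun := fun u => ⟨ψ g⁻¹ u, hU g⁻¹ u u.2⟩
      left_inv := fun u => Subtype.ext (by
        show ψ g⁻¹ (ψ g u) = u
        rw [← act_mul, inv_mul_cancel, act_one])
      right_inv := fun u => Subtype.ext (by
        show ψ g (ψ g⁻¹ u) = u
        rw [← act_mul, mul_inv_cancel, act_one])
      map_mul' := fun u v => Subtype.ext (map_mul (ψ g) (u : W) v) }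
  map_one' := MulEquiv.ext fun u => Subtype.ext (act_one ψ u)
  map_mul' g h := MulEquiv.ext fun u => Subtype.ext (act_mul ψ g h u)

section Sixteen

variable {ψ : Q3 →* MulAut W} (hinj : Function.Injective ψ) (h2 : ∀ w : W, w * w = 1)
  (h16 : Nat.card W = 16)
include hinj h2 h16

theorem exists_fixed_seven : ∃ c, c ≠ 1 ∧ ∀ w, ψ mf w = w ↔ w = 1 ∨ w = c := by
  classical
  have hc := ((card_cases hinj h2 (le_of_eq h16)).resolve_left fun h => by omega).2
  obtain ⟨c, hc1⟩ : ∃ c : fixSet ψ {mf}, c ≠ 1 := by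
    haveI : Nontrivial (fixSet ψ {mf}) := Finite.one_lt_card_iff_nontrivial.1 (by omega)
    exact exists_ne 1
  refine ⟨c, fun h => hc1 (Subtype.ext h), fun w => ⟨fun hw => ?_, ?_⟩⟩
  · by_contra hne
    rw [not_or] at hne
    haveI := Fintype.ofFinite W
    let s : Finset W := {1, (c : W), w}
    have hs : s.card = 3 := by
      have hc' : (1 : W) ≠ c := fun h => hc1 (Subtype.ext h.symm)
      rw [Finset.card_insert_of_notMem, Finset.card_insert_of_notMem, Finset.card_singleton] <;>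
        simp [Ne.symm hne.1, Ne.symm hne.2, hc']
    have hsub : ∀ x ∈ s, x ∈ fixSet ψ {mf} := by
      intro x hx
      simp only [s, Finset.mem_insert, Finset.mem_singleton] at hx
      rcases hx with rfl | rfl | rfl
      · exact one_mem _
      · exact c.2
      · exact (mem_fixSet_singleton ψ).2 hw
    have := Nat.card_le_card_of_injective (fun x : s => (⟨x.1, hsub x.1 x.2⟩ : fixSet ψ {mf}))
      (fun a b e => Subtype.ext (congrArg Subtype.val e :))
    rw [Nat.card_eq_fintype_card, Fintype.card_coe, hs, hc] at this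
    omega
  · rintro (rfl | rfl)
    · exact map_one _
    · exact (mem_fixSet_singleton ψ).1 c.2

/-- An invariant subgroup of order eight, or a fixed vector with all others in one orbit. -/
theorem sixteen_cases : (∃ U : Subgroup W, Nat.card U = 8 ∧ ∀ g, ∀ u ∈ U, ψ g u ∈ U) ∨
    ∃ c, c ≠ 1 ∧ (∀ g, ψ g c = c) ∧
      ∀ x y, x ≠ 1 → x ≠ c → y ≠ 1 → y ≠ c → ∃ g, ψ g x = y := by
  classical
  haveI := Fintype.ofFinite W
  obtain ⟨c, hc1, hfix⟩ := exists_fixed_seven hinj h2 h16
  have hfc : ψ mf c = c := (hfix c).2 (Or.inr rfl)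
  let τ : W →* W :=
    { toFun := fun w => ψ mf w * w
      map_one' := by simp
      map_mul' := fun a b => by rw [map_mul, mul_mul_mul_comm] }
  set U := τ.range with hUdef
  have hU8 : Nat.card U = 8 := by
    have h1 := Subgroup.card_mul_index τ.ker
    rw [Subgroup.index_ker, h16] at h1
    have hk : τ.ker = fixSet ψ {mf} := by
      ext w
      rw [mem_fixSet_singleton]
      show ψ mf w * w = 1 ↔ _
      rw [mul_eq_one_iff_eq_inv, inv_eq_of_mul_eq_one_left (h2 w)]
    rw [hk, ((card_cases hinj h2 (le_of_eq h16)).resolve_left fun h => by omega).2] at h1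
    rw [hUdef]
    omega
  have hUf : ∀ u ∈ U, ψ mf u ∈ U := by
    rintro _ ⟨w, rfl⟩
    exact ⟨ψ mf w, (map_mul (ψ mf) (ψ mf w) w).symm⟩
  have hUfn : ∀ (n : ℕ), ∀ u ∈ U, ψ (mf ^ n) u ∈ U := by
    intro n
    induction n with
    | zero => intro u hu; rw [pow_zero, act_one]; exact hu
    | succ n ih => intro u hu; rw [pow_succ', act_mul]; exact hUf _ (ih u hu)
  haveI : Fact (Nat.Prime 7) := ⟨by norm_num⟩
  have hord : orderOf mf = 7 := orderOf_eq_prime mf_pow mf_ne
  -- the nonidentity fixed point is outside `U`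
  have hcU : c ∉ U := by
    intro hc
    have hP : IsPGroup 7 (Subgroup.zpowers mf) :=
      IsPGroup.of_card (n := 1) (by rw [Nat.card_zpowers, hord, pow_one])
    have hinv : ∀ g ∈ Subgroup.zpowers mf, ∀ u ∈ U, ψ g u ∈ U := by
      intro g hg
      obtain ⟨n, rfl⟩ := mem_powers_iff_mem_zpowers.2 hg
      exact hUfn n
    have h1 := card_modEq_fixSet ψ _ hP U hinv
    rw [hU8, Nat.ModEq] at h1
    have hle : Nat.card ↥(U ⊓ fixSet ψ (Subgroup.zpowers mf : Set Q3)) ≤ 2 := by
      refine (Nat.card_le_card_of_injective (fun x : ↥(U ⊓ fixSet ψ (Subgroup.zpowers mf : Set Q3)) =>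
        decide ((x : W) = 1)) ?_).trans (by simp)
      intro x y e
      have e' : ((x : W) = 1 ↔ (y : W) = 1) := by simpa using e
      have hx := (hfix x).1 ((Subgroup.mem_inf.1 x.2).2 mf (Subgroup.mem_zpowers mf))
      have hy := (hfix y).1 ((Subgroup.mem_inf.1 y.2).2 mf (Subgroup.mem_zpowers mf))
      apply Subtype.ext
      rcases hx with hx | hx
      · rw [hx, e'.1 hx]
      · rcases hy with hy | hy
        · rw [e'.2 hy, hy]
        · rw [hx, hy]
    have hcmem : c ∈ U ⊓ fixSet ψ (Subgroup.zpowers mf : Set Q3) :=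
      Subgroup.mem_inf.2 ⟨hc, fun g hg => by
        obtain ⟨n, rfl⟩ := mem_powers_iff_mem_zpowers.2 hg
        exact mem_stab ψ |>.1 (pow_mem (mem_stab ψ |>.2 hfc) n)⟩
    have hgt : 1 < Nat.card ↥(U ⊓ fixSet ψ (Subgroup.zpowers mf : Set Q3)) :=
      (Subgroup.one_lt_card_iff_ne_bot _).2 fun e => hc1 (Subgroup.mem_bot.1 (e ▸ hcmem))
    omega
  -- one orbit of `mf` on the nonidentity elements of `U`
  have hcyc : ∀ u ∈ U, u ≠ 1 → ∀ v ∈ U, v ≠ 1 → ∃ n : Fin 7, ψ (mf ^ n.1) u = v := by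
    intro u hu hu1
    let F : Fin 7 → {v : U // v ≠ 1} := fun n => ⟨⟨ψ (mf ^ n.1) u, hUfn _ _ hu⟩,
      fun h => hu1 ((ψ (mf ^ n.1)).map_eq_one_iff.1 (congrArg Subtype.val h :))⟩
    have hF : Function.Injective F := by
      intro m n e
      by_contra hne
      have e' : ψ (mf ^ m.1) u = ψ (mf ^ n.1) u := congrArg (fun x => ((x.1 : U) : W)) e
      have hk : (mf ^ m.1)⁻¹ * mf ^ n.1 ∈ stab ψ u := mem_stab ψ |>.2 (by
        rw [act_mul, ← e', ← act_mul, inv_mul_cancel, act_one])
      have hgen : Subgroup.zpowers ((mf ^ m.1)⁻¹ * mf ^ n.1) = Subgroup.zpowers mf := by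
        refine Subgroup.eq_of_le_of_card_ge (Subgroup.zpowers_le.2
          (mul_mem (inv_mem (pow_mem (Subgroup.mem_zpowers mf) _))
            (pow_mem (Subgroup.mem_zpowers mf) _))) ?_
        have hd := Subgroup.orderOf_dvd_natCard (Subgroup.zpowers mf)
          (mul_mem (inv_mem (pow_mem (Subgroup.mem_zpowers mf) m.1))
            (pow_mem (Subgroup.mem_zpowers mf) n.1))
        rw [Nat.card_zpowers, hord] at hd
        rw [Nat.card_zpowers, Nat.card_zpowers, hord]
        rcases (Nat.dvd_prime (by norm_num)).1 hd with h7 | h7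
        · exfalso
          rw [orderOf_eq_one_iff, inv_mul_eq_one] at h7
          have h8 := pow_inj_mod.1 h7
          rw [hord, Nat.mod_eq_of_lt m.2, Nat.mod_eq_of_lt n.2] at h8
          exact hne (Fin.ext h8)
        · omega
      have hmem : mf ∈ stab ψ u := (Subgroup.zpowers_le.2 hk) (hgen ▸ Subgroup.mem_zpowers mf)
      rcases (hfix u).1 (mem_stab ψ |>.1 hmem) with h | h
      · exact hu1 h
      · exact hcU (h ▸ hu)
    have hcard : Fintype.card {v : U // v ≠ 1} = Fintype.card (Fin 7) := by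
      rw [Fintype.card_subtype_compl, Fintype.card_subtype_eq, ← Nat.card_eq_fintype_card, hU8]
      simp
    have hb := (Fintype.bijective_iff_injective_and_card F).2 ⟨hF, hcard.symm⟩
    intro v hv hv1
    obtain ⟨n, hn⟩ := hb.2 ⟨⟨v, hv⟩, fun h => hv1 (congrArg Subtype.val h :)⟩
    exact ⟨n, congrArg (fun x => ((x.1 : U) : W)) hn⟩
  have hsplit : ∀ w, w ∉ U → c * w ∈ U := by
    have hi : U.index = 2 := by
      have h1 := Subgroup.card_mul_index U
      rw [hU8, h16] at h1
      omega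
    intro w hw
    exact (Subgroup.mul_mem_iff_of_index_two hi).2 (iff_of_false hcU hw)
  -- images of a single vector
  by_cases hinvU : ∀ g, ∀ u ∈ U, ψ g u ∈ U
  · exact Or.inl ⟨U, hU8, hinvU⟩
  have hcyc' : ∀ u ∈ U, u ≠ 1 → ∀ v ∈ U, v ≠ 1 → ∀ S : Set W, (∀ g, ∀ s ∈ S, ψ g s ∈ S) →
      (u ∈ S → v ∈ S) ∧ (c * u ∈ S → c * v ∈ S) := by
    intro u hu hu1 v hv hv1 S hS
    obtain ⟨n, hn⟩ := hcyc u hu hu1 v hv hv1
    refine ⟨fun h => hn ▸ hS _ _ h, fun h => ?_⟩
    have := hS (mf ^ n.1) _ h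
    rwa [map_mul, hn, mem_stab ψ |>.1 (pow_mem (mem_stab ψ |>.2 hfc) n.1)] at this
  obtain ⟨u₁, hu₁, hu₁1⟩ := (Subgroup.bot_or_exists_ne_one U).resolve_left fun e => by
    rw [e, Subgroup.card_bot] at hU8
    omega
  -- an invariant set containing one of the two seven-sets but not the other
  have key : ∀ S : Set W, (∀ g, ∀ s ∈ S, ψ g s ∈ S) → c ∉ S → (1 : W) ∉ S →
      ¬ (u₁ ∈ S ∧ c * u₁ ∈ S) → ¬ (u₁ ∈ S ∨ c * u₁ ∈ S) := by
    intro S hS hcS h1S hboth hor
    refine hinvU fun g u hu => ?_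
    rcases eq_or_ne u 1 with rfl | hu1
    · rw [map_one]; exact one_mem U
    rcases hor with h | h
    · have hgu := hS g u ((hcyc' u₁ hu₁ hu₁1 u hu hu1 S hS).1 h)
      by_contra hgU
      have hne : c * ψ g u ≠ 1 := fun e => hcS (by
        rw [eq_inv_of_mul_eq_one_left e, inv_eq_of_mul_eq_one_left (h2 _)]; exact hgu)
      refine hboth ⟨h, (hcyc' (c * ψ g u) (hsplit _ hgU) hne u₁ hu₁ hu₁1 S hS).2 ?_⟩
      rwa [← mul_assoc, h2 c, one_mul]
    · have hcS' : ∀ v ∈ U, v ≠ 1 → c * v ∈ S := fun v hv hv1 =>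
        (hcyc' u₁ hu₁ hu₁1 v hv hv1 S hS).2 h
      obtain ⟨v, hv, hv1, hvu⟩ : ∃ v ∈ U, v ≠ 1 ∧ v ≠ u := by
        by_contra hall
        push Not at hall
        have hle : Nat.card U ≤ 2 := by
          refine (Nat.card_le_card_of_injective (fun x : U => decide ((x : W) = 1)) ?_).trans (by simp)
          intro x y e
          have e' : ((x : W) = 1 ↔ (y : W) = 1) := by simpa using e
          apply Subtype.ext
          by_cases hx : (x : W) = 1
          · rw [hx, e'.1 hx]
          · rw [hall x x.2 hx, hall y y.2 fun hy => hx (e'.2 hy)]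
        omega
      have hvu1 : v * u ≠ 1 := fun e => hvu (by
        rw [eq_inv_of_mul_eq_one_left e, inv_eq_of_mul_eq_one_left (h2 u)])
      have hmem : ∀ z ∈ U, z ≠ 1 → c * ψ g (c * z) ∈ U := by
        intro z hz hz1
        have h3 := hS g _ (hcS' z hz hz1)
        refine hsplit _ fun h4 => hboth ⟨?_, h⟩
        exact (hcyc' _ h4 (fun e => h1S (e ▸ h3)) u₁ hu₁ hu₁1 S hS).1 h3
      have := mul_mem (hmem v hv hv1) (hmem (v * u) (mul_mem hv hu) hvu1)
      rwa [show c * ψ g (c * v) * (c * ψ g (c * (v * u))) = ψ g u by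
        rw [mul_mul_mul_comm, h2 c, one_mul, ← map_mul,
          show c * v * (c * (v * u)) = (c * c) * (v * v) * u by ac_rfl, h2, h2, one_mul, one_mul]]
        at this
  by_cases hcfix : ∀ g, ψ g c = c
  · right
    refine ⟨c, hc1, hcfix, fun x y hx hxc hy hyc => ?_⟩
    set S : Set W := {z | ∃ g, ψ g x = z} with hSdef
    have hS : ∀ g, ∀ s ∈ S, ψ g s ∈ S := by
      rintro g _ ⟨k, rfl⟩
      exact ⟨g * k, act_mul ψ g k x⟩
    have hxS : x ∈ S := ⟨1, act_one ψ x⟩
    have hboth : u₁ ∈ S ∧ c * u₁ ∈ S := by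
      by_contra hboth
      refine key S hS ?_ ?_ hboth ?_
      · rintro ⟨g, hg⟩
        exact hxc ((ψ g).injective (hg.trans (hcfix g).symm))
      · rintro ⟨g, hg⟩
        exact hx ((ψ g).map_eq_one_iff.1 hg)
      · by_cases hxU : x ∈ U
        · exact Or.inl ((hcyc' x hxU hx u₁ hu₁ hu₁1 S hS).1 hxS)
        · refine Or.inr ((hcyc' (c * x) (hsplit x hxU) ?_ u₁ hu₁ hu₁1 S hS).2 ?_)
          · intro e; exact hxc (by
              rw [eq_inv_of_mul_eq_one_right e, inv_eq_of_mul_eq_one_left (h2 c)])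
          · rwa [← mul_assoc, h2 c, one_mul]
    show y ∈ S
    by_cases hyU : y ∈ U
    · exact (hcyc' u₁ hu₁ hu₁1 y hyU hy S hS).1 hboth.1
    · have := (hcyc' u₁ hu₁ hu₁1 (c * y) (hsplit y hyU) (fun e => hyc (by
        rw [eq_inv_of_mul_eq_one_right e, inv_eq_of_mul_eq_one_left (h2 c)])) S hS).2 hboth.2
      rwa [← mul_assoc, h2 c, one_mul] at this
  · exfalso
    push Not at hcfix
    obtain ⟨g₀, hg₀⟩ := hcfix
    set S : Set W := {z | z ≠ 1 ∧ ¬ ∃ g, ψ g c = z} with hSdef
    have hS : ∀ g, ∀ s ∈ S, ψ g s ∈ S := by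
      rintro g s ⟨hs1, hs⟩
      refine ⟨fun e => hs1 ((ψ g).map_eq_one_iff.1 e), ?_⟩
      rintro ⟨k, hk⟩
      exact hs ⟨g⁻¹ * k, by rw [act_mul, hk, ← act_mul, inv_mul_cancel, act_one]⟩
    set O : Set W := {z | ∃ g, ψ g c = z} with hOdef
    have hO : ∀ g, ∀ s ∈ O, ψ g s ∈ O := by
      rintro g _ ⟨k, rfl⟩
      exact ⟨g * k, act_mul ψ g k c⟩
    have hnb : ¬ (u₁ ∈ S ∨ c * u₁ ∈ S) := by
      refine key S hS (fun h => h.2 ⟨1, act_one ψ c⟩) (fun h => h.1 rfl) ?_
      rintro ⟨h, h'⟩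
      -- then the orbit of `c` is a singleton
      refine hg₀ ?_
      have hz := hO g₀ c ⟨1, act_one ψ c⟩
      have hz1 : ψ g₀ c ≠ 1 := fun e => hc1 ((ψ g₀).map_eq_one_iff.1 e)
      by_cases hzU : ψ g₀ c ∈ U
      · exact absurd hz ((hcyc' u₁ hu₁ hu₁1 _ hzU hz1 S hS).1 h).2
      · by_contra hne
        have h3 := (hcyc' u₁ hu₁ hu₁1 (c * ψ g₀ c) (hsplit _ hzU) (fun e => hne (by
          rw [eq_inv_of_mul_eq_one_right e, inv_eq_of_mul_eq_one_left (h2 c)])) S hS).2 h'
        rw [← mul_assoc, h2 c, one_mul] at h3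
        exact h3.2 hz
    -- otherwise the orbit has fifteen elements
    have hall : ∀ z, z ≠ 1 → z ∈ O := by
      intro z hz
      by_contra hzO
      have hzS : z ∈ S := ⟨hz, hzO⟩
      refine hnb ?_
      by_cases hzU : z ∈ U
      · exact Or.inl ((hcyc' z hzU hz u₁ hu₁ hu₁1 S hS).1 hzS)
      · refine Or.inr ((hcyc' (c * z) (hsplit z hzU) ?_ u₁ hu₁ hu₁1 S hS).2 ?_)
        · intro e
          refine hzO ⟨1, ?_⟩
          rw [act_one, eq_inv_of_mul_eq_one_right e, inv_eq_of_mul_eq_one_left (h2 c)]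
        · rwa [← mul_assoc, h2 c, one_mul]
    let _ : MulAction Q3 {z : W // z ≠ 1} :=
      { smul := fun g z => ⟨ψ g z, fun e => z.2 ((ψ g).map_eq_one_iff.1 e)⟩
        one_smul := fun z => Subtype.ext (act_one ψ z)
        mul_smul := fun g h z => Subtype.ext (act_mul ψ g h z) }
    have horb : MulAction.orbit Q3 (⟨c, hc1⟩ : {z : W // z ≠ 1}) = Set.univ := by
      refine Set.eq_univ_of_forall fun z => ?_
      obtain ⟨g, hg⟩ := hall z z.2
      exact ⟨g, Subtype.ext hg⟩
    have h15 := Nat.card_congr (MulAction.orbitProdStabilizerEquivGroup Q3 (⟨c, hc1⟩ : {z : W // z ≠ 1}))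
    rw [Nat.card_prod, horb, Nat.card_congr (Equiv.Set.univ _), Nat.card_eq_fintype_card,
      Fintype.card_subtype_compl, Fintype.card_subtype_eq, ← Nat.card_eq_fintype_card, h16,
      card_Q3] at h15
    omega

/-- An involution with a fixed point outside an invariant subgroup of order eight gives a fixed
point of the whole group there. -/
theorem fixed_outside (U : Subgroup W) (hU8 : Nat.card U = 8) (hU : ∀ g, ∀ u ∈ U, ψ g u ∈ U)
    {g : Q3} (hg : g * g = 1) (hg1 : g ≠ 1) {x : W} (hxU : x ∉ U) (hgx : ψ g x = x) :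
    ∃ c, c ∉ U ∧ ∀ k, ψ k c = c := by
  classical
  haveI := Fintype.ofFinite W
  haveI : Fact (Nat.Prime 7) := ⟨by norm_num⟩
  obtain ⟨c, hc1, hfix⟩ := exists_fixed_seven hinj h2 h16
  have hinvU : ∀ k z, z ∉ U → ψ k z ∉ U := fun k z hz h => hz (by
    have := hU k⁻¹ _ h
    rwa [← act_mul, inv_mul_cancel, act_one] at this)
  let _ : MulAction Q3 {z : W // z ∉ U} :=
    { smul := fun k z => ⟨ψ k z, hinvU k z z.2⟩
      one_smul := fun z => Subtype.ext (act_one ψ z)
      mul_smul := fun k h z => Subtype.ext (act_mul ψ k h z) }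
  have hcard : Nat.card {z : W // z ∉ U} = 8 := by
    rw [Nat.card_eq_fintype_card, Fintype.card_subtype_compl, ← Nat.card_eq_fintype_card,
      ← Nat.card_eq_fintype_card, h16]
    show 16 - Nat.card U = 8
    omega
  set p : {z : W // z ∉ U} := ⟨x, hxU⟩ with hp
  have hO := Nat.card_congr (MulAction.orbitProdStabilizerEquivGroup Q3 p)
  rw [Nat.card_prod, card_Q3] at hO
  have hO8 : Nat.card (MulAction.orbit Q3 p) ≤ 8 :=
    hcard ▸ Nat.card_le_card_of_injective _ Subtype.val_injective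
  have h2dvd : 2 ∣ Nat.card (MulAction.stabilizer Q3 p) := by
    have := Subgroup.orderOf_dvd_natCard (MulAction.stabilizer Q3 p)
      (show g ∈ MulAction.stabilizer Q3 p from Subtype.ext hgx)
    rwa [orderOf_eq_prime (hp := ⟨Nat.prime_two⟩) (by rw [pow_two, hg]) hg1] at this
  have hPO : IsPGroup 7 (Subgroup.zpowers mf) :=
    IsPGroup.of_card (n := 1) (by rw [Nat.card_zpowers, orderOf_eq_prime mf_pow mf_ne, pow_one])
  -- points fixed by the element of order seven
  have hfix7 : ∀ z : {z : W // z ∉ U}, ψ mf z.1 = z.1 → z.1 = c := fun z hz =>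
    ((hfix z.1).1 hz).resolve_left fun e => z.2 (e ▸ one_mem U)
  have hsub : ∀ z ∈ MulAction.orbit Q3 p, ∀ k : Q3, k • z ∈ MulAction.orbit Q3 p :=
    fun z hz k => MulAction.mem_orbit_of_mem_orbit k hz
  let _ : MulAction (Subgroup.zpowers mf) (MulAction.orbit Q3 p) := inferInstance
  have hmod := hPO.card_modEq_card_fixedPoints (MulAction.orbit Q3 p)
  have hle1 : Nat.card (MulAction.fixedPoints (Subgroup.zpowers mf) (MulAction.orbit Q3 p)) ≤ 1 := by
    refine Finite.card_le_one_iff_subsingleton.2 ⟨fun a b => Subtype.ext (Subtype.ext (Subtype.ext ?_))⟩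
    have ha := congrArg (fun z : MulAction.orbit Q3 p => (z.1.1 : W)) (a.2 ⟨mf, Subgroup.mem_zpowers mf⟩)
    have hb := congrArg (fun z : MulAction.orbit Q3 p => (z.1.1 : W)) (b.2 ⟨mf, Subgroup.mem_zpowers mf⟩)
    rw [hfix7 _ ha, hfix7 _ hb]
  rw [Nat.ModEq] at hmod
  haveI : Nonempty (MulAction.orbit Q3 p) := ⟨⟨p, MulAction.mem_orbit_self p⟩⟩
  have hpos : 0 < Nat.card (MulAction.orbit Q3 p) := Nat.card_pos
  have hcases : Nat.card (MulAction.orbit Q3 p) = 1 ∨ Nat.card (MulAction.orbit Q3 p) = 7 := by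
    obtain ⟨k, hk⟩ := h2dvd
    rw [hk] at hO
    interval_cases Nat.card (MulAction.orbit Q3 p) <;> omega
  rcases hcases with h | h
  · refine ⟨x, hxU, fun k => ?_⟩
    haveI := Finite.card_le_one_iff_subsingleton.1 h.le
    exact congrArg (fun z : MulAction.orbit Q3 p => (z.1.1 : W))
      (Subsingleton.elim (⟨k • p, MulAction.mem_orbit p k⟩ : MulAction.orbit Q3 p)
        ⟨p, MulAction.mem_orbit_self p⟩)
  · -- the remaining point is invariant
    have hc' : c ∉ U := by
      intro hc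
      have hmU : ∀ k ∈ Subgroup.zpowers mf, ∀ u ∈ U, ψ k u ∈ U := fun k _ => hU k
      have h1 := card_modEq_fixSet ψ _ hPO U hmU
      rw [hU8, Nat.ModEq] at h1
      have hgt : 1 < Nat.card ↥(U ⊓ fixSet ψ (Subgroup.zpowers mf : Set Q3)) := by
        refine (Subgroup.one_lt_card_iff_ne_bot _).2 fun e => hc1 (Subgroup.mem_bot.1 (e ▸
          Subgroup.mem_inf.2 ⟨hc, fun k hk => ?_⟩))
        obtain ⟨n, rfl⟩ := mem_powers_iff_mem_zpowers.2 hk
        exact mem_stab ψ |>.1 (pow_mem (mem_stab ψ |>.2 ((hfix c).2 (Or.inr rfl))) n)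
      have hle : Nat.card ↥(U ⊓ fixSet ψ (Subgroup.zpowers mf : Set Q3)) ≤ 2 := by
        refine (Nat.card_le_card_of_injective
          (fun z : ↥(U ⊓ fixSet ψ (Subgroup.zpowers mf : Set Q3)) => decide ((z : W) = 1)) ?_).trans (by simp)
        intro a b e
        have e' : ((a : W) = 1 ↔ (b : W) = 1) := by simpa using e
        apply Subtype.ext
        rcases (hfix a).1 ((Subgroup.mem_inf.1 a.2).2 mf (Subgroup.mem_zpowers mf)) with ha | ha
        · rw [ha, e'.1 ha]
        · rcases (hfix b).1 ((Subgroup.mem_inf.1 b.2).2 mf (Subgroup.mem_zpowers mf)) with hb | hb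
          · rw [e'.2 hb, hb]
          · rw [ha, hb]
      omega
    have hcO : ∀ k : Q3, k • (⟨c, hc'⟩ : {z : W // z ∉ U}) ∉ MulAction.orbit Q3 p := by
      intro k hk
      have hcin : (⟨c, hc'⟩ : {z : W // z ∉ U}) ∈ MulAction.orbit Q3 p := by
        have := hsub _ hk k⁻¹
        rwa [inv_smul_smul] at this
      have hne : Nonempty (MulAction.fixedPoints (Subgroup.zpowers mf) (MulAction.orbit Q3 p)) :=
        ⟨⟨⟨⟨c, hc'⟩, hcin⟩, fun ⟨m, hm⟩ => by
          obtain ⟨n, rfl⟩ := mem_powers_iff_mem_zpowers.2 hm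
          apply Subtype.ext
          apply Subtype.ext
          show ψ (mf ^ n) c = c
          exact mem_stab ψ |>.1 (pow_mem (mem_stab ψ |>.2 ((hfix c).2 (Or.inr rfl))) n)⟩⟩
      have : 0 < Nat.card (MulAction.fixedPoints (Subgroup.zpowers mf) (MulAction.orbit Q3 p)) :=
        Nat.card_pos
      omega
    refine ⟨c, hc', fun k => ?_⟩
    by_contra hk
    set s := (MulAction.orbit Q3 p).toFinset with hs
    have hs7 : s.card = 7 := by rw [hs, Set.toFinset_card, ← Nat.card_eq_fintype_card, h]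
    have hnot : (⟨c, hc'⟩ : {z : W // z ∉ U}) ∉ s := by
      rw [hs, Set.mem_toFinset]
      have := hcO 1
      rwa [one_smul] at this
    have hnot2 : k • (⟨c, hc'⟩ : {z : W // z ∉ U}) ∉
        insert (⟨c, hc'⟩ : {z : W // z ∉ U}) s := by
      rw [Finset.mem_insert, not_or, hs, Set.mem_toFinset]
      exact ⟨fun e => hk (congrArg Subtype.val e :), hcO k⟩
    have hle := Finset.card_le_univ (insert (k • (⟨c, hc'⟩ : {z : W // z ∉ U}))
      (insert (⟨c, hc'⟩ : {z : W // z ∉ U}) s))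
    rw [Finset.card_insert_of_notMem hnot2, Finset.card_insert_of_notMem hnot, hs7,
      ← Nat.card_eq_fintype_card, hcard] at hle
    omega

end Sixteen

end Cfsg.Agent.H54.RadFour.Three
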