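import Cfsg.Agent.H54.RadFour.ThreeTwoModule

/-!
# Equivariant quadratic maps between small modules of the group of order 168
-/

set_option autoImplicit false
set_option linter.style.haveILetI false

namespace Cfsg.Agent.H54.RadFour

section General

variable {Q V W : Type*} [Group Q] [CommGroup V] [CommGroup W]
  {φ : Q →* MulAut V} {ψ : Q →* MulAut W} {q : V → W}

/-- Restricting the source and the target of a quadratic map. -/
theorem Quad.comap (h : Quad φ ψ q) {V' W' : Type*} [CommGroup V'] [CommGroup W']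
    {φ' : Q →* MulAut V'} {ψ' : Q →* MulAut W'} {q' : V' → W'} (j : V' →* V) (e : W' →* W)
    (hj : Function.Injective j) (he : Function.Injective e)
    (hjφ : ∀ g v, j (φ' g v) = φ g (j v)) (heψ : ∀ g w, e (ψ' g w) = ψ g (e w))
    (hq : ∀ v, e (q' v) = q (j v)) : Quad φ' ψ' q' := by
  refine ⟨fun v => hj ?_, fun w => he ?_, fun g v => he ?_, fun x y z => he ?_⟩
  · rw [map_mul, map_one, h.v2]
  · rw [map_mul, map_one, h.w2]
  · rw [hq, hjφ, h.equiv, heψ, hq]
  · simp only [map_mul, hq]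
    exact h.quad _ _ _

theorem mem_zpowers_two {G : Type*} [Group G] {c x : G} (hc : c * c = 1) :
    x ∈ Subgroup.zpowers c ↔ x = 1 ∨ x = c := by
  constructor
  · rintro ⟨i, rfl⟩
    rcases Int.even_or_odd i with ⟨k, hk⟩ | ⟨k, hk⟩
    · left
      show c ^ i = 1
      rw [hk, zpow_add, ← (Commute.refl c).mul_zpow, hc, one_zpow]
    · right
      show c ^ i = c
      rw [hk, zpow_add, zpow_mul, zpow_two, hc, one_zpow, one_mul, zpow_one]
  · rintro (rfl | rfl)
    · exact one_mem _
    · exact Subgroup.mem_zpowers _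

theorem card_zpowers_le_two {G : Type*} [Group G] {c : G} (hc : c * c = 1) :
    Nat.card (Subgroup.zpowers c) ≤ 2 := by
  rw [Nat.card_zpowers]
  exact Nat.le_of_dvd (by norm_num) (orderOf_dvd_of_pow_eq_one (by rw [pow_two, hc]))

/-- Three independent elements modulo a small subgroup. -/
theorem exists_three [Finite V] (h2 : ∀ v : V, v * v = 1) (K : Subgroup V)
    (hK : 4 * Nat.card K < Nat.card V) :
    ∃ x y z, x ∉ K ∧ y ∉ K ∧ z ∉ K ∧ x * y ∉ K ∧ y * z ∉ K ∧ x * z ∉ K ∧ x * y * z ∉ K := by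
  have hout : ∀ L : Subgroup V, Nat.card L < Nat.card V → ∃ u, u ∉ L := by
    intro L hL
    by_contra hall
    push Not at hall
    rw [(Subgroup.eq_top_iff' _).2 hall, Subgroup.card_top] at hL
    omega
  have hsup : ∀ (L : Subgroup V) (u : V), Nat.card ↥(L ⊔ Subgroup.zpowers u) ≤ 2 * Nat.card L := by
    intro L u
    have h1 := H19.card_sup_dvd L (Subgroup.zpowers u)
    have h3 := Nat.le_of_dvd (Nat.mul_pos Nat.card_pos Nat.card_pos) h1
    have := card_zpowers_le_two (h2 u)
    nlinarith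
  obtain ⟨x, hx⟩ := hout K (by omega)
  have k1 := hsup K x
  obtain ⟨y, hy⟩ := hout (K ⊔ Subgroup.zpowers x) (by omega)
  have k2 := hsup (K ⊔ Subgroup.zpowers x) y
  obtain ⟨z, hz⟩ := hout (K ⊔ Subgroup.zpowers x ⊔ Subgroup.zpowers y) (by omega)
  have hxm : x ∈ K ⊔ Subgroup.zpowers x := Subgroup.mem_sup_right (Subgroup.mem_zpowers x)
  have hym : y ∈ K ⊔ Subgroup.zpowers x ⊔ Subgroup.zpowers y :=
    Subgroup.mem_sup_right (Subgroup.mem_zpowers y)
  have hxm' : x ∈ K ⊔ Subgroup.zpowers x ⊔ Subgroup.zpowers y := Subgroup.mem_sup_left hxm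
  refine ⟨x, y, z, hx, fun h => hy (Subgroup.mem_sup_left h),
    fun h => hz (Subgroup.mem_sup_left (Subgroup.mem_sup_left h)), fun h => hy ?_, fun h => hz ?_,
    fun h => hz ?_, fun h => hz ?_⟩
  · exact (Subgroup.mul_mem_cancel_left _ hxm).1 (Subgroup.mem_sup_left h)
  · exact (Subgroup.mul_mem_cancel_left _ hym).1 (Subgroup.mem_sup_left (Subgroup.mem_sup_left h))
  · exact (Subgroup.mul_mem_cancel_left _ hxm').1 (Subgroup.mem_sup_left (Subgroup.mem_sup_left h))
  · exact (Subgroup.mul_mem_cancel_left _ (mul_mem hxm' hym)).1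
      (Subgroup.mem_sup_left (Subgroup.mem_sup_left h))

/-- A quadratic map constant outside a small subgroup has trivial value there. -/
theorem Quad.const_trivial [Finite V] (h : Quad φ ψ q) (K : Subgroup V)
    (hK : 4 * Nat.card K < Nat.card V) {B : W} (hB : ∀ x, x ∉ K → q x = B) : B = 1 := by
  obtain ⟨x, y, z, hx, hy, hz, hxy, hyz, hxz, hxyz⟩ := exists_three h.v2 K hK
  have h1 := h.quad x y z
  rw [hB _ hx, hB _ hy, hB _ hz, hB _ hxy, hB _ hyz, hB _ hxz, hB _ hxyz] at h1
  exact mul_eq_right.1 h1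

/-- With trivial action on the target and one orbit outside a fixed point the map is trivial. -/
theorem Quad.q_eq_one_of_trivial [Finite V] (h : Quad φ ψ q) (htriv : ∀ g w, ψ g w = w) (c : V)
    (hcard : 4 * Nat.card (Subgroup.zpowers c) < Nat.card V)
    (htr : ∀ x y, x ∉ Subgroup.zpowers c → y ∉ Subgroup.zpowers c → ∃ g, φ g x = y) (v : V) :
    q v = 1 := by
  obtain ⟨x, y, z, hx, hy, -, hxy, -, -, -⟩ := exists_three h.v2 _ hcard
  have hconst : ∀ u, u ∉ Subgroup.zpowers c → q u = q x := by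
    intro u hu
    obtain ⟨g, rfl⟩ := htr x u hx hu
    rw [h.equiv, htriv]
  have hone : ∀ u, u ∉ Subgroup.zpowers c → q u = 1 := fun u hu =>
    (hconst u hu).trans (h.const_trivial _ hcard hconst)
  have hcm := Subgroup.mem_zpowers c
  have hout : ∀ {u}, u ∉ Subgroup.zpowers c → u * c ∉ Subgroup.zpowers c := fun hu e =>
    hu ((Subgroup.mul_mem_cancel_right _ hcm).1 e)
  have hqc : q c = 1 := by
    have h1 := h.polar_mul_right x y c
    unfold polar at h1
    rw [← mul_assoc x y c, hone _ hx, hone _ hy, hone _ hxy, hone _ (hout hx), hone _ (hout hy),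
      hone _ (hout hxy)] at h1
    simpa using h1.symm
  by_cases hv : v ∈ Subgroup.zpowers c
  · rcases (mem_zpowers_two (h.v2 c)).1 hv with rfl | rfl
    · exact h.q_one
    · exact hqc
  · exact hone v hv

/-- An invariant homomorphism on a module with one nontrivial orbit is trivial. -/
theorem hom_trivial [Finite V] (f : V →* W) (h2 : ∀ v : V, v * v = 1) (hcard : 4 ≤ Nat.card V)
    (htr : ∀ x y : V, x ≠ 1 → y ≠ 1 → ∃ g, φ g x = y) (hinv : ∀ g v, f (φ g v) = f v) (v : V) :
    f v = 1 := by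
  rcases eq_or_ne v 1 with rfl | hv
  · exact map_one f
  obtain ⟨y, hy⟩ : ∃ y, y ∉ Subgroup.zpowers v := by
    by_contra hall
    push Not at hall
    have := card_zpowers_le_two (h2 v)
    rw [(Subgroup.eq_top_iff' _).2 hall, Subgroup.card_top] at this
    omega
  have hconst : ∀ u, u ≠ 1 → f u = f v := by
    intro u hu
    obtain ⟨g, rfl⟩ := htr v u hv hu
    exact hinv g v
  have hy1 : y ≠ 1 := fun e => hy (by rw [e]; exact one_mem _)
  have hvy : v * y ≠ 1 := fun e => hy (by
    rw [eq_inv_of_mul_eq_one_right e]; exact inv_mem (Subgroup.mem_zpowers v))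
  have h1 := map_mul f v y
  rw [hconst _ hvy, hconst _ hy1] at h1
  exact (left_eq_mul.1 h1)

end General

namespace Three

/-- All transvections. -/
def transvections : List Q3 :=
  (List.range 7).flatMap fun n => [ma, mb, ma * mb].map fun t => mf ^ n * t * (mf ^ n)⁻¹

theorem fix_mt : ∀ v : Vec, nat3 mt v = v → v = 1 ∨ v = E 0 := by decide +kernel

theorem fix_mf : ∀ v : Vec, nat3 mf v = v → v = 1 := by decide +kernel

theorem pair_fix_aux : ∀ a b t : Vec, a = 1 ∨ b = 1 ∨ a = b ∨
    t = 1 ∨ t = a ∨ t = b ∨ t = a * b ∨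
      (transvections.any fun g =>
        decide (nat3 g a = a) && decide (nat3 g b = b) && decide (nat3 g t ≠ t)) = true := by
  decide +kernel

theorem pair_fix (a b t : Vec) (ha : a ≠ 1) (hb : b ≠ 1) (hab : a ≠ b)
    (hfix : ∀ g ∈ transvections, nat3 g a = a → nat3 g b = b → nat3 g t = t) :
      t = 1 ∨ t = a ∨ t = b ∨ t = a * b := by
  rcases pair_fix_aux a b t with e | e | e | e | e | e | e | e
  · exact absurd e ha
  · exact absurd e hb
  · exact absurd e hab
  · exact Or.inl e
  · exact Or.inr (Or.inl e)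
  · exact Or.inr (Or.inr (Or.inl e))
  · exact Or.inr (Or.inr (Or.inr e))
  · obtain ⟨g, hg, hg'⟩ := List.any_eq_true.1 e
    simp only [Bool.and_eq_true, decide_eq_true_eq] at hg'
    exact absurd (hfix g hg hg'.1.1 hg'.1.2) hg'.2

theorem nat3_trans (a b : Vec) (ha : a ≠ 1) (hb : b ≠ 1) : ∃ g, nat3 g a = b := by
  obtain ⟨m, hm⟩ := mf_cover a ha
  obtain ⟨n, hn⟩ := mf_cover b hb
  refine ⟨mf ^ n.1 * (mf ^ m.1)⁻¹, ?_⟩
  rw [← hm, ← act_mul, inv_mul_cancel_right, hn]

theorem card_Vec : Nat.card Vec = 8 := by rw [Nat.card_eq_fintype_card]; decide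

theorem vec_two : ∀ v : Vec, v * v = 1 := by decide

/-- An invariant homomorphism on the natural module is trivial. -/
theorem hom_trivial_vec {W : Type*} [CommGroup W] (f : Vec →* W)
    (hinv : ∀ g v, f (nat3 g v) = f v) (v : Vec) : f v = 1 :=
  hom_trivial f vec_two (by rw [card_Vec]; norm_num) nat3_trans hinv v

/-- An equivariant endomorphism of the natural module is zero or the identity. -/
theorem commutant (μ : Vec →* Vec) (hμ : ∀ g v, μ (nat3 g v) = nat3 g (μ v)) :
    (∀ v, μ v = 1) ∨ ∀ v, μ v = v := by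
  have h0 : nat3 mt (μ (E 0)) = μ (E 0) := by
    rw [← hμ, show nat3 mt (E 0) = E 0 by decide +kernel]
  rcases fix_mt _ h0 with e | e
  · left
    intro v
    rcases eq_or_ne v 1 with rfl | hv
    · exact map_one μ
    obtain ⟨g, rfl⟩ := nat3_trans (E 0) v (E_ne 0) hv
    rw [hμ, e, map_one]
  · right
    intro v
    rcases eq_or_ne v 1 with rfl | hv
    · exact map_one μ
    obtain ⟨g, rfl⟩ := nat3_trans (E 0) v (E_ne 0) hv
    rw [hμ, e]

/-- A module of order eight with nontrivial action has one nontrivial orbit. -/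
theorem transitive_eight {W : Type*} [CommGroup W] [Finite W] (ψ : Q3 →* MulAut W)
    (hinj : Function.Injective ψ) (h2 : ∀ w : W, w * w = 1) (h8 : Nat.card W = 8) (x y : W)
    (hx : x ≠ 1) (hy : y ≠ 1) : ∃ g, ψ g x = y := by
  obtain ⟨θ, ι, hn, hs⟩ := exists_natural ψ hinj h2 h8
  obtain ⟨a, rfl⟩ := hs x
  obtain ⟨b, rfl⟩ := hs y
  obtain ⟨g, rfl⟩ := nat3_trans a b (fun e => hx (by rw [e, map_one])) (fun e => hy (by rw [e, map_one]))
  exact ⟨θ g, hn.equiv g a⟩

/-- An equivariant quadratic map onto the natural module, with one orbit outside a fixed point,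
is a homomorphism with that point as kernel. -/
theorem natural_iso {V : Type*} [CommGroup V] [Finite V] {φ : Q3 →* MulAut V} {q : V → Vec}
    (h : Quad φ nat3 q) (c : V) (hcf : ∀ g, φ g c = c)
    (hcard : Nat.card V = 8 * Nat.card (Subgroup.zpowers c))
    (htr : ∀ x y, x ∉ Subgroup.zpowers c → y ∉ Subgroup.zpowers c → ∃ g, φ g x = y)
    (hne : ∃ v, q v ≠ 1) :
    (∀ x y, q (x * y) = q x * q y) ∧ Function.Surjective q ∧
      ∀ x, q x = 1 ↔ x ∈ Subgroup.zpowers c := by
  classical
  set K := Subgroup.zpowers c with hKdef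
  have hcm : c ∈ K := Subgroup.mem_zpowers c
  have hK2 : ∀ {k}, k ∈ K → k = 1 ∨ k = c := fun hk => (mem_zpowers_two (h.v2 c)).1 hk
  have hqc : q c = 1 := fix_mf _ (by rw [← h.equiv, hcf])
  have hqK : ∀ k ∈ K, q k = 1 := fun k hk => by
    rcases hK2 hk with rfl | rfl
    exacts [h.q_one, hqc]
  have hKφ : ∀ g, ∀ k ∈ K, φ g k = k := fun g k hk => by
    rcases hK2 hk with rfl | rfl
    exacts [map_one _, hcf g]
  have hout : ∀ x, x ∉ K → q x ≠ 1 := by
    intro x hx e
    obtain ⟨v, hv⟩ := hne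
    refine hv ?_
    by_cases hvK : v ∈ K
    · exact hqK v hvK
    · obtain ⟨g, rfl⟩ := htr x v hx hvK
      rw [h.equiv, e, map_one]
  -- the fixed point lies in the radical
  have hμ : ∀ x, polar q x c = 1 := by
    by_contra hμ
    push Not at hμ
    obtain ⟨x₀, hx₀⟩ := hμ
    have hμK : ∀ k ∈ K, polar q k c = 1 := fun k hk => by
      rcases hK2 hk with rfl | rfl
      · rw [h.polar_comm]; exact h.polar_one c
      · exact h.polar_self _
    have hμg : ∀ g x, polar q (φ g x) c = nat3 g (polar q x c) := fun g x => by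
      conv_lhs => rw [← hcf g]
      exact h.polar_equiv g x c
    have hx₀K : x₀ ∉ K := fun e => hx₀ (hμK _ e)
    obtain ⟨g, hg⟩ := nat3_trans (polar q x₀ c) (E 0) hx₀ (E_ne 0)
    set x := φ g x₀ with hx
    have hμx : polar q x c = E 0 := by rw [hx, hμg, hg]
    have hxK : x ∉ K := fun e => E_ne 0 (hμx.symm.trans (hμK _ e))
    have hmtx : x * φ mt x ∈ K := by
      by_contra hn
      obtain ⟨k, hk⟩ := htr _ x₀ hn hx₀K
      refine hx₀ ?_
      rw [← hk, hμg, h.polar_mul_left, hμx, hμg, hμx,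
        show nat3 mt (E 0) = E 0 by decide +kernel, vec_two, map_one]
    have hfix : φ mt x = x := by
      have h1 : φ mt x = x * (x * φ mt x) := by rw [← mul_assoc, h.v2, one_mul]
      rcases hK2 hmtx with e | e
      · rw [h1, e, mul_one]
      · exfalso
        rw [e] at h1
        have h3 : φ (mt ^ 3) x = x := by rw [mt_pow, act_one]
        rw [pow_succ, pow_two, act_mul, act_mul, h1, map_mul, hcf, h1, mul_assoc x c c, h.v2,
          mul_one, h1] at h3
        have hc1 : c = 1 := mul_eq_left.1 h3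
        exact hx₀ (by rw [hc1]; exact h.polar_one x₀)
    have hqx : q x = E 0 := (fix_mt _ (by rw [← h.equiv, hfix])).resolve_left (hout x hxK)
    refine hout (x * c) (fun e => hxK ((Subgroup.mul_mem_cancel_right _ hcm).1 e)) ?_
    rw [h.q_mul, hqc, hμx, hqx, mul_one, vec_two]
  have hqmul : ∀ x, ∀ k ∈ K, q (x * k) = q x := by
    intro x k hk
    rcases hK2 hk with rfl | rfl
    · rw [mul_one]
    · rw [h.q_mul, hqc, hμ, mul_one, mul_one]
  -- preimages
  have hsec : ∀ a : Vec, ∃ v, q v = a := by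
    intro a
    rcases eq_or_ne a 1 with rfl | ha
    · exact ⟨1, h.q_one⟩
    obtain ⟨x, hx⟩ := hne
    obtain ⟨g, hg⟩ := nat3_trans (q x) a hx ha
    exact ⟨φ g x, by rw [h.equiv, hg]⟩
  choose sec hsec using hsec
  let f : Vec × K → V := fun p => sec p.1 * p.2
  have hf : Function.Injective f := by
    rintro ⟨a, k⟩ ⟨b, l⟩ e
    have e1 := congrArg q e
    simp only [f] at e1 e
    rw [hqmul _ _ k.2, hqmul _ _ l.2, hsec, hsec] at e1
    subst e1
    exact Prod.ext rfl (Subtype.ext (mul_left_cancel e))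
  have hbij : Function.Bijective f := Function.Injective.bijective_of_nat_card_le hf
    (by rw [Nat.card_prod, card_Vec, hcard])
  have hfib : ∀ x, ∃ k ∈ K, x = sec (q x) * k := by
    intro x
    obtain ⟨⟨a, k⟩, rfl⟩ := hbij.2 x
    exact ⟨k, k.2, by simp only [f]; rw [hqmul _ _ k.2, hsec]⟩
  have hsame : ∀ x y, q x = q y → x * y ∈ K := by
    intro x y e
    obtain ⟨k, hk, hxk⟩ := hfib x
    obtain ⟨l, hl, hyl⟩ := hfib y
    rw [hxk, hyl, e, mul_mul_mul_comm, h.v2, one_mul]
    exact mul_mem hk hl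
  have hker : ∀ x, q x = 1 ↔ x ∈ K := fun x =>
    ⟨fun e => by simpa using hsame x 1 (e.trans h.q_one.symm), hqK x⟩
  refine ⟨fun x y => ?_, fun a => ⟨sec a, hsec a⟩, hker⟩
  by_cases hxK : x ∈ K
  · rw [mul_comm, hqmul _ _ hxK, hqK _ hxK, one_mul]
  by_cases hyK : y ∈ K
  · rw [hqmul _ _ hyK, hqK _ hyK, mul_one]
  by_cases hxy : x * y ∈ K
  · rw [hqK _ hxy, show q x = q y from ?_, vec_two]
    have := hqmul x _ hxy
    rwa [← mul_assoc, h.v2, one_mul, eq_comm] at this
  have hne' : q x ≠ q y := fun e => hxy (hsame x y e)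
  have hfix : ∀ g ∈ transvections, nat3 g (q x) = q x → nat3 g (q y) = q y →
      nat3 g (q (x * y)) = q (x * y) := by
    intro g _ hgx hgy
    rw [← h.equiv] at hgx hgy
    have h1 := mul_mem (hsame _ _ hgx) (hsame _ _ hgy)
    rw [← h.equiv, map_mul]
    conv_rhs => rw [← hqmul (x * y) _ h1]
    congr 1
    calc φ g x * φ g y = φ g x * φ g y * (x * x) * (y * y) := by rw [h.v2, h.v2, mul_one, mul_one]
      _ = x * y * (φ g x * x * (φ g y * y)) := by ac_rfl
  rcases pair_fix _ _ _ (hout x hxK) (hout y hyK) hne' hfix with e | e | e | e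
  · exact absurd e (hout _ hxy)
  · refine absurd ?_ hyK
    have := hsame _ _ e
    rwa [mul_comm x y, mul_assoc, h.v2, mul_one] at this
  · refine absurd ?_ hxK
    have := hsame _ _ e
    rwa [mul_assoc, h.v2, mul_one] at this
  · exact e

end Three

end Cfsg.Agent.H54.RadFour
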