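import Cfsg.Agent.H54.RadFour.ThreeTwoFirst
import Cfsg.Agent.H54.RadFour.Homocyclic

/-!
# A second layer of the radical: the lower factor of order eight
-/

set_option autoImplicit false
set_option linter.style.haveILetI false

namespace Cfsg.Agent.H54.RadFour.Three

variable {Y : Type*} [Group Y] [Finite Y] {π : Y →* Q3} {N : Subgroup Y}

/-- The Frattini subgroup has a normal subgroup of index two with abelian factor group of the
kernel. -/
structure Layer (π : Y →* Q3) (N : Subgroup Y) : Prop where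
  sit : Sit π
  normal : N.Normal
  le : N ≤ Phi π
  idx : Nat.card (Phi π) = 2 * Nat.card N
  comm : ∀ r ∈ π.ker, ∀ s ∈ π.ker, r * s * r⁻¹ * s⁻¹ ∈ N
  card : Nat.card π.ker = 32 * Nat.card N

theorem Layer.card_V (L : Layer π N) : Nat.card (VQ π) = 16 := by
  have h1 := L.sit.card_ker_eq
  rw [L.card, L.idx] at h1
  have := Nat.card_pos (α := N)
  nlinarith

theorem Layer.index_two (L : Layer π N) : (N.subgroupOf (Phi π)).index = 2 := by
  have h1 := Subgroup.card_mul_index (N.subgroupOf (Phi π))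
  rw [Nat.card_congr (Subgroup.subgroupOfEquivOfLe L.le).toEquiv, L.idx, mul_comm 2] at h1
  exact Nat.eq_of_mul_eq_mul_left Nat.card_pos h1

theorem Layer.mul_mem_of_not_mem (L : Layer π N) {a b : Y} (ha : a ∈ Phi π) (hb : b ∈ Phi π)
    (hna : a ∉ N) (hnb : b ∉ N) : a * b ∈ N :=
  (Subgroup.mul_mem_iff_of_index_two L.index_two (a := ⟨a, ha⟩) (b := ⟨b, hb⟩)).2
    (iff_of_false hna hnb)

theorem Layer.sq_Phi (L : Layer π N) {w : Y} (hw : w ∈ Phi π) : w * w ∈ N := by
  by_cases h : w ∈ N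
  · exact mul_mem h h
  · exact L.mul_mem_of_not_mem hw hw h h

theorem Layer.exists_outside (L : Layer π N) : ∃ r ∈ π.ker, r * r ∉ N := by
  by_contra hall
  push Not at hall
  have h1 := Subgroup.card_le_of_le (L.sit.Phi_le N hall)
  rw [L.idx] at h1
  have := Nat.card_pos (α := N)
  omega

/-- The elements squaring into the lower factor form the preimage of an invariant subgroup. -/
theorem Layer.exists_U (L : Layer π N) : ∃ U : Subgroup (VQ π), Nat.card U = 8 ∧
    (∀ g, ∀ u ∈ U, L.sit.actV g u ∈ U) ∧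
      ∀ r : π.ker, (r : VQ π) ∈ U ↔ (r : Y) * r ∈ N := by
  haveI := L.normal
  have hprod : ∀ {r s : Y}, r ∈ π.ker → s ∈ π.ker →
      ∃ n ∈ N, r * s * (r * s) = r * r * (s * s) * n := fun {r s} hr hs => by
    refine ⟨(s * s)⁻¹ * (r⁻¹ * s * r * s⁻¹) * (s * s), ?_, by group⟩
    have := L.normal.conj_mem _ (L.comm _ (inv_mem hr) _ hs) (s * s)⁻¹
    rwa [inv_inv, inv_inv] at this
  let RU : Subgroup π.ker :=
    { carrier := {r | (r : Y) * r ∈ N}
      one_mem' := by simp
      mul_mem' := fun {a b} ha hb => by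
        obtain ⟨n, hn, e⟩ := hprod a.2 b.2
        show (a : Y) * b * (a * b) ∈ N
        rw [e]
        exact mul_mem (mul_mem ha hb) hn
      inv_mem' := fun {a} ha => by
        show (a : Y)⁻¹ * (a : Y)⁻¹ ∈ N
        rw [← mul_inv_rev]
        exact inv_mem ha }
  set U := RU.map (QuotientGroup.mk' (frattini π.ker)) with hUdef
  have hmem : ∀ r : π.ker, (r : VQ π) ∈ U ↔ (r : Y) * r ∈ N := by
    intro r
    refine ⟨?_, fun h => ⟨r, h, rfl⟩⟩
    rintro ⟨s, hs, e⟩
    have h1 := QuotientGroup.eq.1 e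
    rw [← coe_mem_Phi] at h1
    have h3 : s⁻¹ * r ∈ RU := L.sq_Phi h1
    have := mul_mem hs h3
    rwa [mul_inv_cancel_left] at this
  refine ⟨U, ?_, ?_, hmem⟩
  · obtain ⟨x, hx, hxN⟩ := L.exists_outside
    have hi : U.index = 2 := by
      rw [Subgroup.index_eq_two_iff]
      refine ⟨((⟨x, hx⟩ : π.ker) : VQ π), fun b => ?_⟩
      induction b using QuotientGroup.induction_on with
      | _ b =>
        rw [← QuotientGroup.mk_mul, hmem, hmem]
        obtain ⟨n, hn, e⟩ := hprod b.2 hx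
        rw [show ((b * ⟨x, hx⟩ : π.ker) : Y) = (b : Y) * x from rfl, e,
          Subgroup.mul_mem_cancel_right _ hn]
        by_cases hb : (b : Y) * b ∈ N
        · exact Or.inr ⟨hb, fun h => hxN ((Subgroup.mul_mem_cancel_left _ hb).1 h)⟩
        · exact Or.inl ⟨L.mul_mem_of_not_mem (L.sit.sq_mem b.2) (L.sit.sq_mem hx) hb hxN, hb⟩
    have h1 := Subgroup.card_mul_index U
    rw [hi, L.card_V] at h1
    show Nat.card U = 8
    linarith
  · intro g u hu
    obtain ⟨y, rfl⟩ := L.sit.surj g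
    induction u using QuotientGroup.induction_on with
    | _ r =>
      rw [L.sit.actV_apply, hmem, MulAut.conjNormal_apply,
        show y * (r : Y) * y⁻¹ * (y * r * y⁻¹) = y * (r * r) * y⁻¹ by group]
      exact L.normal.conj_mem _ ((hmem r).1 hu) y

/-- The lower factor is not the natural module. -/
theorem Layer.false_of_natural (L : Layer π N) (ι : Vec →* Y) (hι : Function.Injective ι)
    (hrange : ι.range = N) (heq : ∀ g v, g * ι v * g⁻¹ = ι (nat3 (π g) v)) : False := by
  classical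
  have h := L.sit
  haveI := L.normal
  haveI hPn := Phi_normal (π := π)
  have hN8 : Nat.card N = 8 := by
    rw [← hrange, ← Nat.card_congr (MonoidHom.ofInjective hι).toEquiv, card_Vec]
  have hcN : ∀ n ∈ N, ∀ r ∈ π.ker, n * r = r * n := by
    rw [← hrange]
    rintro _ ⟨v, rfl⟩ r hr
    have e := heq r v
    rw [MonoidHom.mem_ker.1 hr, act_one] at e
    exact (mul_inv_eq_iff_eq_mul.1 e).symm
  have h2N : ∀ n ∈ N, n * n = 1 := by
    rw [← hrange]
    rintro _ ⟨v, rfl⟩
    rw [← map_mul, vec_two, map_one]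
  have hcoset : ∀ {a b : Y}, a ∈ Phi π → b ∈ Phi π → a ∉ N → b ∉ N → ∃ n ∈ N, b = a * n := by
    intro a b ha hb hna hnb
    refine ⟨a⁻¹ * b, L.mul_mem_of_not_mem (inv_mem ha) hb (fun e => hna ?_) hnb,
      (mul_inv_cancel_left a b).symm⟩
    have := inv_mem e
    rwa [inv_inv] at this
  obtain ⟨r₀, hr₀, hr₀N⟩ := L.exists_outside
  obtain ⟨z, hzdef⟩ : ∃ z, z = r₀ * r₀ := ⟨_, rfl⟩
  have hz : z ∈ Phi π := hzdef ▸ h.sq_mem hr₀
  have hzN : z ∉ N := hzdef ▸ hr₀N
  have hzk : z ∈ π.ker := Phi_le_ker hz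
  have hform : ∀ w ∈ Phi π, w ∈ N ∨ ∃ n ∈ N, w = z * n := fun w hw => by
    by_cases hwN : w ∈ N
    · exact Or.inl hwN
    · exact Or.inr (hcoset hz hw hzN hwN)
  have hconjN : ∀ {g c : Y}, c ∉ N → g * c * g⁻¹ ∉ N := fun {g c} hc e => hc (by
    have := L.normal.conj_mem _ e g⁻¹
    convert this using 1
    group)
  -- the Frattini subgroup is elementary abelian
  have hz2 : z * z = 1 := by
    obtain ⟨v, hv⟩ := hrange.ge (L.sq_Phi hz)
    have hfix : ∀ g, g * ι v * g⁻¹ = ι v := by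
      intro g
      obtain ⟨n, hn, e⟩ := hcoset hz (hPn.conj_mem z hz g) hzN (hconjN hzN)
      rw [hv, show g * (z * z) * g⁻¹ = g * z * g⁻¹ * (g * z * g⁻¹) by group, e,
        show z * n * (z * n) = z * (n * z) * n by group, hcN n hn z hzk,
        show z * (z * n) * n = z * z * (n * n) by group, h2N n hn, mul_one]
    obtain ⟨y, hy⟩ := h.surj mf
    have h1 := hfix y
    rw [heq, hy] at h1
    rw [← hv, fix_mf v (hι h1), map_one]
  have hΦ2 : ∀ w ∈ Phi π, w * w = 1 := by
    intro w hw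
    rcases hform w hw with hn | ⟨n, hn, rfl⟩
    · exact h2N w hn
    · rw [show z * n * (z * n) = z * (n * z) * n by group, hcN n hn z hzk,
        show z * (z * n) * n = z * z * (n * n) by group, hz2, h2N n hn, one_mul]
  -- no fixed point outside the lower factor
  have hnofix : ∀ c ∈ Phi π, c ∉ N → ¬ ∀ g, g * c * g⁻¹ = c := by
    intro c hc hcN' hfix
    set C : Subgroup Y := Subgroup.zpowers c with hC
    haveI : C.Normal := ⟨by
      rintro _ ⟨i, rfl⟩ y
      exact ⟨i, by show c ^ i = y * c ^ i * y⁻¹; rw [← conj_zpow, hfix]⟩⟩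
    have hCle : C ≤ Phi π := Subgroup.zpowers_le.2 hc
    obtain ⟨hsit, -, hPhi⟩ := h.quotient C hCle
    refine Three.false_of_natural hsit ((QuotientGroup.mk' C).comp ι) ?_ ?_ ?_
    · rw [injective_iff_map_eq_one]
      intro v hv
      rcases (mem_zpowers_two (hΦ2 c hc)).1 ((QuotientGroup.eq_one_iff _).1 hv) with e | e
      · exact hι (e.trans (map_one ι).symm)
      · exact absurd (hrange ▸ ⟨v, e⟩) hcN'
    · rw [hPhi, MonoidHom.range_comp, hrange]
      refine le_antisymm (Subgroup.map_mono L.le) ?_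
      rintro _ ⟨w, hw, rfl⟩
      rcases hform w hw with hn | ⟨n, hn, rfl⟩
      · exact ⟨w, hn, rfl⟩
      · obtain ⟨m, hm, e⟩ := hcoset hz hc hzN hcN'
        refine ⟨m⁻¹ * n, mul_mem (inv_mem hm) hn, ?_⟩
        rw [show z * n = c * (m⁻¹ * n) by rw [e]; group, map_mul _ c,
          show QuotientGroup.mk' C c = 1 from
            (QuotientGroup.eq_one_iff _).2 (Subgroup.mem_zpowers c), one_mul]
    · intro y v
      obtain ⟨y, rfl⟩ := QuotientGroup.mk'_surjective C y
      show QuotientGroup.mk' C y * QuotientGroup.mk' C (ι v) * (QuotientGroup.mk' C y)⁻¹ =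
        QuotientGroup.mk' C (ι (nat3 (π y) v))
      rw [← map_inv, ← map_mul, ← map_mul, heq]
  obtain ⟨U, hU8, hU, hmemU⟩ := L.exists_U
  have hV := L.card_V
  letI := h.commV
  have hinjU := restrict_injective (actV_inj h) (v2_VQ h) hV U hU8 hU
  have hU2 : ∀ u : U, u * u = 1 := fun u => Subtype.ext (v2_VQ h _)
  have htrU := transitive_eight _ hinjU hU2 hU8
  let eN : Vec ≃* N := (MonoidHom.ofInjective hι).trans (MulEquiv.subgroupCongr hrange)
  have heN : ∀ v, (eN v : Y) = ι v := fun v => rfl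
  have hΦ16 : Nat.card (Phi π) = 16 := by rw [L.idx, hN8]
  -- the kernel centralises the Frattini subgroup
  have hzc : ∀ r ∈ π.ker, r * z = z * r := by
    by_contra hne
    push Not at hne
    obtain ⟨r₁, hr₁, hne₁⟩ := hne
    have hmem : ∀ r : π.ker, (r : Y) * z * (r : Y)⁻¹ * z⁻¹ ∈ N := fun r => L.comm r r.2 z hzk
    let d₀ : π.ker → Vec := fun r => eN.symm ⟨_, hmem r⟩
    have hd₀ : ∀ r, ι (d₀ r) = (r : Y) * z * (r : Y)⁻¹ * z⁻¹ := fun r => by
      rw [← heN, MulEquiv.apply_symm_apply]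
    let d : π.ker →* Vec := MonoidHom.mk' d₀ fun r s => hι (by
      rw [map_mul, hd₀, hd₀, hd₀]
      have e := hcN _ (hmem s) r r.2
      calc ((r * s : π.ker) : Y) * z * ((r * s : π.ker) : Y)⁻¹ * z⁻¹
          = (r : Y) * ((s : Y) * z * (s : Y)⁻¹ * z⁻¹) * (r : Y)⁻¹ *
              ((r : Y) * z * (r : Y)⁻¹ * z⁻¹) := by rw [Subgroup.coe_mul]; group
        _ = ((s : Y) * z * (s : Y)⁻¹ * z⁻¹) * ((r : Y) * z * (r : Y)⁻¹ * z⁻¹) := by
            rw [← e, mul_inv_cancel_right]
        _ = _ := (hcN _ (hmem s) _ (Phi_le_ker (L.le (hmem r)))))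
    have heqd : ∀ (g : Y) (r : π.ker), d (MulAut.conjNormal g r) = nat3 (π g) (d r) := by
      intro g r
      apply hι
      rw [← heq]
      show ι (d₀ _) = g * ι (d₀ r) * g⁻¹
      rw [hd₀, hd₀, MulAut.conjNormal_apply]
      obtain ⟨n, hn, e⟩ := hcoset hz (hPn.conj_mem z hz g) hzN (hconjN hzN)
      have hgr : g * r * g⁻¹ ∈ π.ker := (inferInstance : π.ker.Normal).conj_mem r r.2 g
      calc g * (r : Y) * g⁻¹ * z * (g * (r : Y) * g⁻¹)⁻¹ * z⁻¹
          = g * (r : Y) * g⁻¹ * z * (n * (g * (r : Y) * g⁻¹)⁻¹ * n⁻¹) * z⁻¹ := by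
            rw [hcN n hn _ (inv_mem hgr), mul_inv_cancel_right]
        _ = g * (r : Y) * g⁻¹ * (z * n) * (g * (r : Y) * g⁻¹)⁻¹ * (z * n)⁻¹ := by group
        _ = g * ((r : Y) * z * (r : Y)⁻¹ * z⁻¹) * g⁻¹ := by rw [← e]; group
    have hd1 : d ⟨r₁, hr₁⟩ ≠ 1 := fun e => hne₁ (by
      have h1 := hd₀ ⟨r₁, hr₁⟩
      rw [show d₀ ⟨r₁, hr₁⟩ = 1 from e, map_one, eq_comm, mul_inv_eq_one, mul_inv_eq_iff_eq_mul] at h1
      exact h1)
    have hsur : Function.Surjective d := by
      intro v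
      rcases eq_or_ne v 1 with rfl | hv
      · exact ⟨1, map_one d⟩
      obtain ⟨k, hk⟩ := nat3_trans _ v hd1 hv
      obtain ⟨g, rfl⟩ := h.surj k
      exact ⟨_, (heqd g _).trans hk⟩
    have hkc : ∀ {r : π.ker}, r ∈ d.ker ↔ (r : Y) * z = z * r := fun {r} => by
      rw [MonoidHom.mem_ker, ← hι.eq_iff, map_one]
      show ι (d₀ r) = 1 ↔ _
      rw [hd₀, mul_inv_eq_one, mul_inv_eq_iff_eq_mul]
    have h32 : Nat.card d.ker = 32 := by
      have h1 := Subgroup.card_mul_index d.ker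
      rw [Subgroup.index_ker, MonoidHom.range_eq_top.2 hsur, Subgroup.card_top, card_Vec, L.card,
        hN8] at h1
      omega
    have hF : frattini π.ker ≤ d.ker := fun r hr => hkc.2 (by
      rcases hform r (coe_mem_Phi.2 hr) with hn | ⟨n, hn, e⟩
      · exact hcN r hn z hzk
      · rw [e, mul_assoc, hcN n hn z hzk, ← mul_assoc])
    have hF16 : Nat.card (frattini π.ker) = 16 := by
      rw [← Subgroup.card_map_of_injective π.ker.subtype_injective, ← hΦ16]; rfl
    have hi2 : ((frattini π.ker).subgroupOf d.ker).index = 2 := by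
      have h1 := Subgroup.card_mul_index ((frattini π.ker).subgroupOf d.ker)
      rw [Nat.card_congr (Subgroup.subgroupOfEquivOfLe hF).toEquiv, h32, hF16] at h1
      omega
    obtain ⟨x, hxc, hxΦ⟩ : ∃ x ∈ d.ker, x ∉ frattini π.ker := by
      by_contra hall
      push Not at hall
      have := Subgroup.card_le_of_le hall
      rw [h32, hF16] at this
      omega
    have hconjx : ∀ g, MulAut.conjNormal g x ∈ d.ker := fun g => by
      rw [MonoidHom.mem_ker, heqd, MonoidHom.mem_ker.1 hxc, map_one]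
    have hxU : (x : VQ π) ∉ U := by
      intro hxU
      have hle : U.comap (QuotientGroup.mk' (frattini π.ker)) ≤ d.ker := by
        intro r hr
        by_cases hr1 : (r : VQ π) = 1
        · exact hF ((QuotientGroup.eq_one_iff r).1 hr1)
        obtain ⟨k, hk⟩ := htrU ⟨_, hxU⟩ ⟨(r : VQ π), hr⟩
          (fun e => hxΦ ((QuotientGroup.eq_one_iff x).1 (congrArg Subtype.val e :)))
          (fun e => hr1 (congrArg Subtype.val e :))
        obtain ⟨g, rfl⟩ := h.surj k
        have hk' : h.actV (π g) (x : VQ π) = (r : VQ π) := congrArg Subtype.val hk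
        rw [h.actV_apply, QuotientGroup.eq] at hk'
        have := mul_mem (hconjx g) (hF hk')
        rwa [mul_inv_cancel_left] at this
      have h1 := Subgroup.card_le_of_le hle
      rw [← Subgroup.card_map_of_injective π.ker.subtype_injective] at h1
      have h3 := card_preV U
      rw [preV] at h3
      rw [h3, hU8, hΦ16, h32] at h1
      omega
    refine hnofix ((x : Y) * x) (h.sq_mem x.2) (fun e => hxU ((hmemU x).2 e)) fun g => ?_
    have hmemd : (⟨x, hxc⟩ : d.ker)⁻¹ * ⟨_, hconjx g⟩ ∈ (frattini π.ker).subgroupOf d.ker := by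
      refine (Subgroup.mul_mem_iff_of_index_two hi2).2 (iff_of_false
        (fun e => hxΦ (inv_mem_iff.1 (Subgroup.mem_subgroupOf.1 e))) fun e => hxΦ ?_)
      have h1 : MulAut.conjNormal g⁻¹ (MulAut.conjNormal g x) ∈ frattini π.ker :=
        coe_mem_Phi.1 (by
          rw [MulAut.conjNormal_apply]
          exact hPn.conj_mem _ (coe_mem_Phi.2 (Subgroup.mem_subgroupOf.1 e)) g⁻¹)
      rwa [← MulAut.mul_apply, ← map_mul, inv_mul_cancel, map_one, MulAut.one_apply] at h1
    obtain ⟨w, hw, hgx⟩ : ∃ w ∈ Phi π, g * (x : Y) * g⁻¹ = x * w :=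
      ⟨(x : Y)⁻¹ * (g * x * g⁻¹), by
        have := coe_mem_Phi.2 (Subgroup.mem_subgroupOf.1 hmemd)
        rwa [Subgroup.coe_mul, Subgroup.coe_inv, Subgroup.coe_mul, Subgroup.coe_inv,
          MulAut.conjNormal_apply] at this, (mul_inv_cancel_left _ _).symm⟩
    have hxw : (x : Y) * w = w * x := by
      rcases hform w hw with hn | ⟨n, hn, rfl⟩
      · exact (hcN w hn x x.2).symm
      · rw [← mul_assoc, hkc.1 hxc, mul_assoc, ← hcN n hn x x.2, ← mul_assoc]
    calc g * ((x : Y) * x) * g⁻¹ = g * x * g⁻¹ * (g * x * g⁻¹) := by group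
      _ = (x : Y) * (w * x) * w := by rw [hgx]; group
      _ = (x : Y) * x * (w * w) := by rw [← hxw]; group
      _ = (x : Y) * x := by rw [hΦ2 w hw, mul_one]
  have hcen : ∀ w ∈ Phi π, ∀ r ∈ π.ker, w * r = r * w := by
    intro w hw r hr
    rcases hform w hw with hn | ⟨n, hn, rfl⟩
    · exact hcN w hn r hr
    · rw [mul_assoc, hcN n hn r hr, ← mul_assoc, ← hzc r hr, mul_assoc]
  letI := Sit.commW hcen
  have Q := h.qmap hcen hΦ2
  let q := h.sqMap hcen hΦ2
  have hqU : ∀ u ∈ U, ((q u : Phi π) : Y) ∈ N := by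
    intro u hu
    induction u using QuotientGroup.induction_on with
    | _ r => exact (hmemU r).1 hu
  have hqnU : ∀ u, u ∉ U → ((q u : Phi π) : Y) ∉ N := by
    intro u hu
    induction u using QuotientGroup.induction_on with
    | _ r => exact fun e => hu ((hmemU r).2 e)
  let eW : Vec →* Phi π := ι.codRestrict (Phi π) fun v => L.le (hrange ▸ ⟨v, rfl⟩)
  have heW : Function.Injective eW := fun v w e => hι (congrArg Subtype.val e)
  have heWφ : ∀ g v, eW (nat3 g v) = h.actW hcen g (eW v) := fun g v => by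
    obtain ⟨y, rfl⟩ := h.surj g
    apply Subtype.ext
    rw [h.actW_apply]
    exact (heq y v).symm
  have hback : ∀ p : Phi π, (p : Y) ∈ N → ∃ v, eW v = p := fun p hp => by
    obtain ⟨v, hv⟩ := hrange.ge hp
    exact ⟨v, Subtype.ext hv⟩
  choose qv hqv using fun u : U => hback (q u) (hqU u u.2)
  have QU : Quad (restrictAct h.actV U hU) nat3 qv :=
    Q.toQuad.comap U.subtype eW Subtype.val_injective heW (fun _ _ => rfl) heWφ hqv
  haveI := preV_normal h hU
  by_cases hneU : ∃ u : U, qv u ≠ 1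
  swap
  · push Not at hneU
    refine false_of_section h.rank (preV U) ⊥ ?_ ?_ bot_le ?_
    · exact le_top.trans (Subgroup.normalizer_eq_top_iff.2 inferInstance).ge
    · rintro _ ⟨r, hr, rfl⟩
      rw [Subgroup.mem_bot]
      have h1 := hqv ⟨(r : VQ π), hr⟩
      rw [hneU, map_one] at h1
      exact (congrArg Subtype.val h1).symm
    · rw [card_preV, hU8, hΦ16, Subgroup.card_bot]; norm_num
  obtain ⟨hhomU, hsurU, hkerU⟩ := natural_iso QU 1 (fun g => map_one _)
    (by rw [Nat.card_zpowers, orderOf_one, hU8])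
    (fun x y hx hy => htrU x y (out_two (one_mul 1) hx).1 (out_two (one_mul 1) hy).1) hneU
  have hone : ∀ u : U, qv u = 1 → u = 1 := fun u hu => by simpa using (hkerU u).1 hu
  let qU : U ≃* Vec := MulEquiv.ofBijective (MonoidHom.mk' qv hhomU)
    ⟨(injective_iff_map_eq_one _).2 hone, hsurU⟩
  let sU : Vec →* VQ π := U.subtype.comp qU.symm.toMonoidHom
  have hqs : ∀ a, q (sU a) = eW a := fun a => by
    show q ((qU.symm a : U) : VQ π) = eW a
    rw [← hqv, show qv (qU.symm a) = a from qU.apply_symm_apply a]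
  have hsU : ∀ a, sU a ∈ U := fun a => (qU.symm a).2
  have hsq' : ∀ u (hu : u ∈ U), sU (qv ⟨u, hu⟩) = u := fun u hu =>
    congrArg Subtype.val (qU.symm_apply_apply ⟨u, hu⟩)
  have hseq : ∀ g a, sU (nat3 g a) = h.actV g (sU a) := fun g a => by
    rw [← hsq' _ (hU g _ (hsU a))]
    congr 1
    refine heW ?_
    rw [hqv, heWφ, ← hqs]
    exact (Q.toQuad.equiv g (sU a)).symm
  have hUU : ∀ u ∈ U, ∀ v ∈ U, polar q u v = 1 := fun u hu v hv => by
    unfold polar
    rw [← hqv ⟨u * v, mul_mem hu hv⟩, ← hqv ⟨u, hu⟩, ← hqv ⟨v, hv⟩,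
      show (⟨u * v, mul_mem hu hv⟩ : U) = ⟨u, hu⟩ * ⟨v, hv⟩ from rfl, hhomU, map_mul, mul_assoc,
      Q.w2]
  have hi : Nat.card (VQ π) = 2 * Nat.card U := by omega
  have hi2 := index_two_of_card hi
  have hxU : ∀ x, x ∉ U → ∀ u ∈ U, polar q x u = 1 := by
    intro x₀ hx₀
    have hpN : ∀ a, ((polar q x₀ (sU a) : Phi π) : Y) ∈ N := fun a => by
      unfold polar
      rw [Subgroup.coe_mul, Subgroup.coe_mul]
      refine mul_mem (L.mul_mem_of_not_mem (SetLike.coe_mem _) (SetLike.coe_mem _) (hqnU _ ?_)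
        (hqnU _ hx₀)) (hqU _ (hsU a))
      exact fun e => hx₀ ((Subgroup.mul_mem_cancel_right _ (hsU a)).1 e)
    choose μ₀ hμ₀ using fun a => hback (polar q x₀ (sU a)) (hpN a)
    let μ : Vec →* Vec := MonoidHom.mk' μ₀ fun a b => heW (by
      rw [map_mul, hμ₀, hμ₀, hμ₀, map_mul]; exact Q.toQuad.polar_mul_right x₀ _ _)
    rcases commutant μ (fun g a => heW (by
      show eW (μ₀ _) = eW (nat3 g (μ₀ a))
      rw [heWφ, hμ₀, hμ₀, hseq]
      exact Q.toQuad.polar_coset hi hU hUU hx₀ (hsU a) g)) with e | e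
    · intro u hu
      rw [← hsq' u hu, ← hμ₀, show μ₀ (qv ⟨u, hu⟩) = 1 from e _, map_one]
    · exfalso
      have hc : ∀ y, y ∉ U → q y = q x₀ := by
        intro y hy
        have hmem : x₀ * y ∈ U :=
          (Subgroup.mul_mem_iff_of_index_two hi2).2 (iff_of_false hx₀ hy)
        have hqm : ∀ a b, q (a * b) = q a * q b * polar q a b := Q.toQuad.q_mul
        rw [show y = x₀ * (x₀ * y) by rw [← mul_assoc, Q.v2, one_mul], hqm,
          ← hsq' _ hmem, ← hμ₀, hqs, show μ₀ (qv ⟨_, hmem⟩) = qv ⟨_, hmem⟩ from e _, mul_assoc,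
          Q.w2, mul_one]
      refine hnofix _ (SetLike.coe_mem (q x₀)) (hqnU _ hx₀) fun g => ?_
      have hqe : ∀ k v, q (h.actV k v) = h.actW hcen k (q v) := Q.toQuad.equiv
      rw [← h.actW_apply hcen g (q x₀), ← hqe, hc]
      intro e'
      refine hx₀ ?_
      have := hU (π g)⁻¹ _ e'
      rwa [← act_mul, inv_mul_cancel, act_one] at this
  have hhom := Q.toQuad.q_mul_of_polar (Q.toQuad.polar_all hi hUU hxU)
  have hsur : Function.Surjective q := fun w => by
    have hw : w ∈ (MonoidHom.mk' q hhom).range := by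
      rw [Q.gen (MonoidHom.mk' q hhom).range fun v => ⟨v, rfl⟩]; exact Subgroup.mem_top w
    exact hw
  have hbij : Function.Bijective q :=
    (Nat.bijective_iff_surjective_and_card q).2 ⟨hsur, by rw [hV, hΦ16]⟩
  have hab : ∀ a ∈ π.ker, ∀ b ∈ π.ker, a * b = b * a := fun a ha b hb =>
    comm_of_polar h hcen hΦ2 (r := ⟨a, ha⟩) (s := ⟨b, hb⟩) (Q.toQuad.polar_all hi hUU hxU _ _)
  -- an involution fixes exactly four points
  have hinjW : Function.Injective (h.actW hcen) := by
    refine (trivial_or_injective _).resolve_left fun ht => ma_ne (nat3_injective ?_)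
    rw [map_one]
    exact MulEquiv.ext fun v => heW (by rw [heWφ, ht]; rfl)
  have hfixU : ∀ v, h.actV ma v = v → v ∈ U := by
    intro v hv
    by_contra hvU
    obtain ⟨c, hc, hcfix⟩ := fixed_outside hinjW Q.w2 hΦ16 (N.subgroupOf (Phi π))
      (by rw [Nat.card_congr (Subgroup.subgroupOfEquivOfLe L.le).toEquiv, hN8])
      (fun k u hu => by
        obtain ⟨y, rfl⟩ := h.surj k
        rw [Subgroup.mem_subgroupOf, h.actW_apply]
        exact L.normal.conj_mem _ hu y)
      ma_sq ma_ne (x := q v) (hqnU v hvU)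
      ((Q.toQuad.equiv ma v).symm.trans (congrArg q hv))
    exact hnofix c c.2 hc fun g => (h.actW_apply hcen g c).symm.trans
      (congrArg Subtype.val (hcfix _))
  have hfix4 : Nat.card (fixSet h.actV {ma}) = 4 := by
    have e1 : Nat.card {a : Vec // nat3 ma a = a} = 4 := by
      rw [Nat.card_eq_fintype_card]; decide +kernel
    rw [← e1]
    refine (Nat.card_congr (Equiv.ofBijective (fun a : {a : Vec // nat3 ma a = a} =>
      (⟨sU a.1, (mem_fixSet_singleton _).2 (by rw [← hseq, a.2])⟩ : fixSet h.actV {ma})) ?_)).symm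
    constructor
    · intro a b e
      have e' : sU a.1 = sU b.1 := congrArg (fun x : fixSet h.actV {ma} => (x : VQ π)) e
      exact Subtype.ext (heW (by rw [← hqs, ← hqs, e']))
    · rintro ⟨v, hv⟩
      have hv' := (mem_fixSet_singleton _).1 hv
      have hvU := hfixU v hv'
      refine ⟨⟨qv ⟨v, hvU⟩, heW ?_⟩, Subtype.ext (hsq' v hvU)⟩
      rw [heWφ, hqv]
      exact ((Q.toQuad.equiv ma v).symm.trans (congrArg q hv'))
  obtain ⟨g, hg⟩ := h.surj ma
  have hgker : g ∉ π.ker := fun hk => ma_ne (hg ▸ MonoidHom.mem_ker.1 hk)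
  refine false_of_homocyclic h.rank π.ker hab ?_ ?_ ?_ g hgker ?_ ?_ ?_
  · rw [L.card, hN8]
  · exact fun a ha => hΦ2 _ (h.sq_mem ha)
  · intro a ha ha2
    have h1 : q ((⟨a, ha⟩ : π.ker) : VQ π) = 1 := Subtype.ext ha2
    have hPhi : a ∈ Phi π := h.mk_eq_one.1 (hbij.1 (h1.trans Q.toQuad.q_one.symm))
    obtain ⟨v, hv⟩ := hbij.2 ⟨a, hPhi⟩
    induction v using QuotientGroup.induction_on with
    | _ v => exact ⟨v, v.2, congrArg Subtype.val hv⟩
  · rw [MonoidHom.mem_ker, map_mul, hg, ma_sq]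
  · exact fun a ha => (inferInstance : π.ker.Normal).conj_mem a ha g
  · let K : Subgroup π.ker := (fixSet h.actV {ma}).comap (QuotientGroup.mk' (frattini π.ker))
    have hmem : ∀ a : π.ker,
        (g * a * g⁻¹ * (a : Y)⁻¹) * (g * a * g⁻¹ * (a : Y)⁻¹) = 1 ↔ a ∈ K := by
      intro a
      have hgr : g * a * g⁻¹ * (a : Y)⁻¹ ∈ π.ker :=
        mul_mem ((inferInstance : π.ker.Normal).conj_mem _ a.2 g) (inv_mem a.2)
      have hiff : (g * a * g⁻¹ * (a : Y)⁻¹) ∈ Phi π ↔
          (g * a * g⁻¹ * (a : Y)⁻¹) * (g * a * g⁻¹ * (a : Y)⁻¹) = 1 := by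
        refine ⟨hΦ2 _, fun e => ?_⟩
        have h1 : q ((⟨_, hgr⟩ : π.ker) : VQ π) = 1 := Subtype.ext e
        exact h.mk_eq_one.1 (hbij.1 (h1.trans Q.toQuad.q_one.symm))
      rw [← hiff, Subgroup.mem_comap, mem_fixSet_singleton, ← hg, QuotientGroup.mk'_apply,
        h.actV_apply, eq_comm, QuotientGroup.eq, ← coe_mem_Phi, Subgroup.coe_mul, Subgroup.coe_inv,
        MulAut.conjNormal_apply]
      constructor
      · intro e
        have := hPn.conj_mem _ e (a : Y)⁻¹
        convert this using 1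
        group
      · intro e
        have := hPn.conj_mem _ e (a : Y)
        convert this using 1
        group
    rw [Nat.card_congr (Equiv.subtypeEquivRight hmem)]
    have h1 := Subgroup.card_mul_index K
    rw [Subgroup.index_comap_of_surjective _ (QuotientGroup.mk'_surjective _), L.card, hN8] at h1
    have h3 := Subgroup.card_mul_index (fixSet h.actV {ma})
    rw [hfix4, hV] at h3
    have h5 : (fixSet h.actV {ma}).index = 4 := by omega
    rw [h5] at h1
    show Nat.card K = 64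
    omega

end Cfsg.Agent.H54.RadFour.Three
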