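import Cfsg.Agent.H54.RadFour.ThreeTwoSecond

/-!
# A second layer of the radical: the lower factor of order two
-/

set_option autoImplicit false
set_option linter.style.haveILetI false

namespace Cfsg.Agent.H54.RadFour.Three

/-- The first coordinate line. -/
abbrev Ln (v : Vec) : Prop := v.toAdd 1 = 0 ∧ v.toAdd 2 = 0

/-- The plane of the first two coordinates. -/
abbrev Pl (v : Vec) : Prop := v.toAdd 2 = 0

set_option synthInstance.maxSize 4096 in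
set_option synthInstance.maxHeartbeats 200000 in
theorem line_facts :
    (∀ a b, Ln a → Ln b → Ln (a * b)) ∧ (∀ v, nat3 md v = v → Ln v) ∧
      (∀ v, Ln v → nat3 mh v = v) ∧ (∀ v, Ln v → nat3 md v * v = 1) ∧
      (∀ v, Ln v → nat3 ma v = v) ∧ (∀ v, Ln v → nat3 mb v = v) ∧
      (∀ v, Ln (nat3 ma v * v)) ∧ (∀ v, Ln (nat3 mb v * v)) ∧ (∀ v, Ln v → v = 1 ∨ v = E 0) := by
  decide +kernel

set_option synthInstance.maxSize 4096 in
set_option synthInstance.maxHeartbeats 200000 in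
theorem plane_facts :
    (∀ a b, Pl a → Pl b → Pl (a * b)) ∧ (∀ v, Ln v → Pl v) ∧ (∀ v, Pl (nat3 md v * v)) ∧
      (∀ v, Pl v → Pl (nat3 md v)) ∧ (∀ v, Pl v → Pl (nat3 Three.mk v)) ∧
      (∀ v, Pl v → Ln (nat3 md v * v)) ∧ (∀ v, Pl v → Ln (nat3 (ma * mb) v * v)) := by
  decide +kernel

theorem basis_words : ∀ v : Vec, ∃ a b c : Fin 2, v = E 0 ^ a.1 * E 1 ^ b.1 * E 2 ^ c.1 := by
  decide +kernel

variable {Y : Type*} [Group Y] [Finite Y] {π : Y →* Q3} {N : Subgroup Y}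

/-- Coordinates on the elements squaring into the lower factor. -/
structure Nu (π : Y →* Q3) (N R₁ : Subgroup Y) (ν : Y → Vec) : Prop where
  normal : R₁.Normal
  le : R₁ ≤ π.ker
  mem : ∀ r ∈ π.ker, r ∈ R₁ ↔ r * r ∈ N
  card : Nat.card R₁ = 8 * Nat.card (Phi π)
  map_mul : ∀ r ∈ R₁, ∀ s ∈ R₁, ν (r * s) = ν r * ν s
  surj : ∀ v, ∃ r ∈ R₁, ν r = v
  ker : ∀ r ∈ R₁, ν r = 1 ↔ r ∈ Phi π
  conj : ∀ g, ∀ r ∈ R₁, ν (g * r * g⁻¹) = nat3 (π g) (ν r)

/-- The lower factor cannot have order two. -/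
theorem Layer.false_of_nu (L : Layer π N) (hN2 : Nat.card N = 2) {R₁ : Subgroup Y} {ν : Y → Vec}
    (T : Nu π N R₁ ν) : False := by
  classical
  have h := L.sit
  haveI := L.normal
  haveI := T.normal
  haveI hPn := Phi_normal (π := π)
  have hkn : ∀ (g : Y) {r : Y}, r ∈ π.ker → g * r * g⁻¹ ∈ π.ker := fun g {r} hr =>
    (inferInstance : π.ker.Normal).conj_mem r hr g
  -- the group of order two
  have hN12 : ∀ a ∈ N, a ≠ 1 → ∀ b ∈ N, b ≠ 1 → a = b := by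
    intro a ha ha1 b hb hb1
    obtain ⟨w, -, hu⟩ := (Nat.card_eq_two_iff' (1 : N)).1 hN2
    have e1 := hu ⟨a, ha⟩ fun e => ha1 (congrArg Subtype.val e :)
    have e2 := hu ⟨b, hb⟩ fun e => hb1 (congrArg Subtype.val e :)
    exact congrArg Subtype.val (e1.trans e2.symm)
  have hcN : ∀ n ∈ N, ∀ g : Y, g * n * g⁻¹ = n := by
    intro n hn g
    rcases eq_or_ne n 1 with rfl | hn1
    · group
    · exact hN12 _ (L.normal.conj_mem n hn g) (fun e => hn1 (conj_eq_one_iff.1 e)) n hn hn1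
  have hcN' : ∀ n ∈ N, ∀ g : Y, g * n = n * g := fun n hn g =>
    mul_inv_eq_iff_eq_mul.1 (hcN n hn g)
  have h2N : ∀ n ∈ N, n * n = 1 := by
    intro n hn
    by_contra hne
    have hn1 : n ≠ 1 := fun e => hne (by rw [e, one_mul])
    exact hn1 (mul_eq_left.1 (hN12 _ (mul_mem hn hn) hne n hn hn1))
  letI : CommGroup N :=
    { (inferInstance : Group N) with mul_comm := fun a b => Subtype.ext (hcN' b b.2 a) }
  obtain ⟨x, hx, hxN⟩ := L.exists_outside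
  obtain ⟨z, hzdef⟩ : ∃ z, z = x * x := ⟨_, rfl⟩
  have hz : z ∈ Phi π := hzdef ▸ h.sq_mem hx
  have hzN : z ∉ N := hzdef ▸ hxN
  have hcoset : ∀ {a b : Y}, a ∈ Phi π → b ∈ Phi π → a ∉ N → b ∉ N → ∃ n ∈ N, b = a * n := by
    intro a b ha hb hna hnb
    refine ⟨a⁻¹ * b, L.mul_mem_of_not_mem (inv_mem ha) hb (fun e => hna ?_) hnb,
      (mul_inv_cancel_left a b).symm⟩
    have := inv_mem e
    rwa [inv_inv] at this
  have hform : ∀ w ∈ Phi π, w ∈ N ∨ ∃ n ∈ N, w = z * n := fun w hw => by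
    by_cases hwN : w ∈ N
    · exact Or.inl hwN
    · exact Or.inr (hcoset hz hw hzN hwN)
  have hout : ∀ {r s : Y}, r ∈ π.ker → s ∈ π.ker → r ∉ R₁ → s ∉ R₁ → r * s ∈ R₁ := by
    intro r s hr hs hnr hns
    rw [T.mem r hr] at hnr
    rw [T.mem s hs] at hns
    refine (T.mem _ (mul_mem hr hs)).2 ?_
    rw [show r * s * (r * s) =
      r * r * (s * s) * ((s * s)⁻¹ * (r⁻¹ * s * r * s⁻¹) * (s * s)) by group]
    refine mul_mem (L.mul_mem_of_not_mem (h.sq_mem hr) (h.sq_mem hs) hnr hns) ?_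
    have := L.normal.conj_mem _ (L.comm _ (inv_mem hr) _ hs) (s * s)⁻¹
    rwa [inv_inv, inv_inv] at this
  have hxR : x ∉ R₁ := fun e => hxN ((T.mem x hx).1 e)
  -- the Frattini subgroup is central
  have hzr : ∀ r ∈ π.ker, r * z = z * r := by
    have hout' : ∀ r ∈ π.ker, r ∉ R₁ → Commute r z := fun r hr hnr => by
      rw [T.mem r hr] at hnr
      obtain ⟨n, hn, e⟩ := hcoset (h.sq_mem hr) hz hnr hzN
      rw [e]
      exact ((Commute.refl r).mul_right (Commute.refl r)).mul_right (hcN' n hn r)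
    intro r hr
    by_cases hrR : r ∈ R₁
    · have h1 : x⁻¹ * r ∉ R₁ := fun e => hxR (by
        have := mul_mem hrR (inv_mem e)
        rwa [mul_inv_rev, inv_inv, mul_inv_cancel_left] at this)
      have := (hout' x hx hxR).mul_left (hout' _ (mul_mem (inv_mem hx) hr) h1)
      rw [mul_inv_cancel_left] at this
      exact this.eq
    · exact (hout' r hr hrR).eq
  have hcen : ∀ w ∈ Phi π, ∀ r ∈ π.ker, w * r = r * w := by
    intro w hw r hr
    rcases hform w hw with hn | ⟨n, hn, rfl⟩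
    · exact (hcN' w hn r).symm
    · rw [mul_assoc, ← hcN' n hn r, ← mul_assoc, ← hzr r hr, mul_assoc]
  have hΦY : ∀ w ∈ Phi π, ∀ g : Y, g * w * g⁻¹ = w := by
    letI := Sit.commW hcen
    have htriv := (trivial_or_injective (h.actW hcen)).resolve_right fun hinj => by
      have hinv : h.actW hcen (mt * mt) = 1 := by
        refine MulEquiv.ext fun w => Subtype.ext ?_
        obtain ⟨y, hy⟩ := h.surj mt
        rw [← hy, ← map_mul, h.actW_apply, MulAut.one_apply]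
        rcases hform w w.2 with hn | ⟨n, hn, e⟩
        · rw [hcN _ hn]
        · rw [e, show y * y * (z * n) * (y * y)⁻¹ = y * (y * z * y⁻¹) * (y * n * y⁻¹) * y⁻¹ by group,
            hcN n hn]
          obtain ⟨m, hm, e'⟩ := hcoset hz (hPn.conj_mem z hz y) hzN fun e'' => hzN (by
            have := L.normal.conj_mem _ e'' y⁻¹
            convert this using 1
            group)
          rw [e', show y * (z * m) * n * y⁻¹ = (y * z * y⁻¹) * (y * (m * n) * y⁻¹) by group,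
            hcN _ (mul_mem hm hn), e', show z * m * (m * n) = z * (m * m) * n by group, h2N m hm,
            mul_one]
      exact (show mt * mt ≠ 1 by decide) (hinj (hinv.trans (map_one _).symm))
    intro w hw g
    rw [← h.actW_apply hcen g ⟨w, hw⟩, htriv]
  -- commutators
  let κ : Y → Y → Y := fun r s => r * s * r⁻¹ * s⁻¹
  have hκN : ∀ {r s}, r ∈ π.ker → s ∈ π.ker → κ r s ∈ N := fun {r s} hr hs => L.comm r hr s hs
  have hκl : ∀ {r s t}, r ∈ π.ker → s ∈ π.ker → t ∈ π.ker → κ (r * s) t = κ s t * κ r t := by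
    intro r s t hr hs ht
    rw [show κ (r * s) t = r * κ s t * r⁻¹ * κ r t by simp only [κ]; group, hcN _ (hκN hs ht)]
  have hκr : ∀ {r s t}, r ∈ π.ker → s ∈ π.ker → t ∈ π.ker → κ r (s * t) = κ r s * κ r t := by
    intro r s t hr hs ht
    rw [show κ r (s * t) = κ r s * (s * κ r t * s⁻¹) by simp only [κ]; group, hcN _ (hκN hr ht)]
  have hκΦ : ∀ {r w}, r ∈ π.ker → w ∈ Phi π → κ r w = 1 ∧ κ w r = 1 := fun {r w} hr hw => by
    simp only [κ]
    rw [hcen w hw r hr]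
    constructor <;> group
    · rw [← hcen w hw r hr]; group
  have hκconj : ∀ g {r s}, r ∈ π.ker → s ∈ π.ker → κ (g * r * g⁻¹) (g * s * g⁻¹) = κ r s := by
    intro g r s hr hs
    rw [show κ (g * r * g⁻¹) (g * s * g⁻¹) = g * κ r s * g⁻¹ by simp only [κ]; group,
      hcN _ (hκN hr hs)]
  choose sec hsecR hsec using T.surj
  have hν1 : ν 1 = 1 := (T.ker 1 (one_mem _)).2 (one_mem _)
  have hνinv : ∀ r ∈ R₁, ν r⁻¹ = ν r := fun r hr => by
    have h1 := T.map_mul _ (inv_mem hr) r hr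
    rw [inv_mul_cancel, hν1] at h1
    rw [eq_inv_of_mul_eq_one_left h1.symm, inv_eq_of_mul_eq_one_left (vec_two _)]
  have hsame : ∀ {r s}, r ∈ R₁ → s ∈ R₁ → ν r = ν s → ∃ w ∈ Phi π, s = r * w := fun {r s} hr hs e =>
    ⟨r⁻¹ * s, (T.ker _ (mul_mem (inv_mem hr) hs)).1
      (by rw [T.map_mul _ (inv_mem hr) s hs, hνinv r hr, e, vec_two]),
      (mul_inv_cancel_left r s).symm⟩
  have hκν : ∀ {r s t}, r ∈ π.ker → s ∈ R₁ → t ∈ R₁ → ν s = ν t → κ r t = κ r s := by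
    intro r s t hr hs ht e
    obtain ⟨w, hw, rfl⟩ := hsame hs ht e
    rw [hκr hr (T.le hs) (Phi_le_ker hw), (hκΦ hr hw).1, mul_one]
  let F : ∀ r, r ∈ π.ker → Vec →* N := fun r hr =>
    MonoidHom.mk' (fun v => ⟨κ r (sec v), hκN hr (T.le (hsecR v))⟩) fun a b => Subtype.ext (by
      show κ r (sec (a * b)) = κ r (sec a) * κ r (sec b)
      rw [← hκr hr (T.le (hsecR a)) (T.le (hsecR b))]
      exact hκν hr (mul_mem (hsecR a) (hsecR b)) (hsecR _)
        (by rw [T.map_mul _ (hsecR a) _ (hsecR b), hsec, hsec, hsec]))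
  have hF : ∀ r (hr : r ∈ π.ker), ∀ s ∈ R₁, κ r s = (F r hr (ν s) : Y) := fun r hr s hs =>
    hκν hr (hsecR _) hs (hsec _)
  obtain ⟨r0, hr0, hνr0⟩ := T.surj (E 0)
  have hF0 : ∀ v, F r0 (T.le hr0) v = 1 := by
    set f := F r0 (T.le hr0) with hf
    obtain ⟨y, hy⟩ := h.surj mt
    have hinv : ∀ v, f (nat3 mt v) = f v := by
      intro v
      apply Subtype.ext
      have hys : y * sec v * y⁻¹ ∈ R₁ := T.normal.conj_mem _ (hsecR v) y
      have hyr : y * r0 * y⁻¹ ∈ R₁ := T.normal.conj_mem _ hr0 y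
      have hνy : ν (y * sec v * y⁻¹) = nat3 mt v := by rw [T.conj _ _ (hsecR v), hy, hsec]
      rw [← hνy, hf, ← hF r0 (T.le hr0) _ hys]
      show κ r0 (y * sec v * y⁻¹) = κ r0 (sec v)
      obtain ⟨w, hw, e⟩ := hsame hyr hr0 (by
        rw [T.conj _ _ hr0, hy, hνr0]; decide +kernel)
      conv_lhs => rw [e]
      rw [hκl (T.le hyr) (Phi_le_ker hw) (T.le hys), (hκΦ (T.le hys) hw).2, one_mul,
        hκconj y (T.le hr0) (T.le (hsecR v))]
    have e1 : f (E 1) = f (E 2) := by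
      rw [← hinv (E 1), show nat3 mt (E 1) = E 2 by decide +kernel]
    have e2 : f (E 2) = f (E 1) * f (E 2) := by
      conv_lhs => rw [← hinv (E 2), show nat3 mt (E 2) = E 1 * E 2 by decide +kernel, map_mul]
    have h1 : f (E 1) = 1 := right_eq_mul.1 e2
    have h0 : f (E 0) = 1 := by
      apply Subtype.ext
      rw [hf, ← hνr0, ← hF r0 (T.le hr0) r0 hr0]
      show r0 * r0 * r0⁻¹ * r0⁻¹ = 1
      group
    intro v
    obtain ⟨a, b, c, rfl⟩ := basis_words v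
    rw [map_mul, map_mul, map_pow, map_pow, map_pow, h0, h1, ← e1, h1, one_pow, one_pow, one_pow,
      one_mul, one_mul]
  have hR1 : ∀ r ∈ R₁, ∀ s ∈ R₁, κ r s = 1 := by
    intro r hr s hs
    rcases eq_or_ne (ν r) 1 with e | e
    · exact (hκΦ (T.le hs) ((T.ker r hr).1 e)).2
    obtain ⟨k, hk⟩ := nat3_trans (E 0) (ν r) (E_ne 0) e
    obtain ⟨g, rfl⟩ := h.surj k
    have hgr : g * r0 * g⁻¹ ∈ R₁ := T.normal.conj_mem _ hr0 g
    have hgs : g⁻¹ * s * g⁻¹⁻¹ ∈ R₁ := T.normal.conj_mem _ hs g⁻¹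
    obtain ⟨w, hw, e'⟩ := hsame hgr hr (by rw [T.conj _ _ hr0, hνr0, hk])
    rw [e', hκl (T.le hgr) (Phi_le_ker hw) (T.le hs), (hκΦ (T.le hs) hw).2, one_mul,
      show s = g * (g⁻¹ * s * g⁻¹⁻¹) * g⁻¹ by group, hκconj g (T.le hr0) (T.le hgs),
      hF r0 (T.le hr0) _ hgs, hF0, Subgroup.coe_one]
  have hRx : ∀ r ∈ π.ker, r ∉ R₁ → ∀ s ∈ R₁, κ r s = 1 := by
    intro r hr hrR s hs
    rw [hF r hr s hs, hom_trivial_vec (F r hr) (fun k v => ?_) _, Subgroup.coe_one]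
    obtain ⟨g, rfl⟩ := h.surj k
    apply Subtype.ext
    have hgs : g * sec v * g⁻¹ ∈ R₁ := T.normal.conj_mem _ (hsecR v) g
    rw [← show ν (g * sec v * g⁻¹) = nat3 (π g) v by rw [T.conj _ _ (hsecR v), hsec],
      ← hF r hr _ hgs]
    show κ r (g * sec v * g⁻¹) = κ r (sec v)
    set r' := g⁻¹ * r * g⁻¹⁻¹ with hr'
    have hr'k : r' ∈ π.ker := hkn _ hr
    have hr'R : r' ∉ R₁ := fun e => hrR (by
      have := T.normal.conj_mem _ e g
      convert this using 1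
      rw [hr']; group)
    have hu : r⁻¹ * r' ∈ R₁ := hout (inv_mem hr) hr'k (fun e => hrR (inv_mem_iff.1 e)) hr'R
    rw [show r = g * r' * g⁻¹ by rw [hr']; group, hκconj g hr'k (T.le (hsecR v)),
      show g * r' * g⁻¹ = r by rw [hr']; group]
    conv_lhs => rw [show r' = r * (r⁻¹ * r') by group]
    rw [hκl hr (T.le hu) (T.le (hsecR v)), hR1 _ hu _ (hsecR v), one_mul]
  have hab : ∀ a ∈ π.ker, ∀ b ∈ π.ker, a * b = b * a := by
    intro a ha b hb
    have hone : κ a b = 1 := by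
      by_cases haR : a ∈ R₁
      · by_cases hbR : b ∈ R₁
        · exact hR1 a haR b hbR
        · rw [show κ a b = (κ b a)⁻¹ by simp only [κ]; group, hRx b hb hbR a haR, inv_one]
      · by_cases hbR : b ∈ R₁
        · exact hRx a ha haR b hbR
        · have hu : a⁻¹ * b ∈ R₁ := hout (inv_mem ha) hb (fun e => haR (inv_mem_iff.1 e)) hbR
          rw [show b = a * (a⁻¹ * b) by group, hκr ha ha (T.le hu), hRx a ha haR _ hu, mul_one]
          simp only [κ]; group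
    simp only [κ] at hone
    exact mul_inv_eq_iff_eq_mul.1 (mul_inv_eq_one.1 hone)
  letI : CommGroup π.ker :=
    { (inferInstance : Group π.ker) with mul_comm := fun a b => Subtype.ext (hab a a.2 b b.2) }
  have hmulsq : ∀ {r s}, r ∈ π.ker → s ∈ π.ker → r * s * (r * s) = r * r * (s * s) := fun {r s} hr hs =>
    congrArg Subtype.val (mul_mul_mul_comm (⟨r, hr⟩ : π.ker) ⟨s, hs⟩ ⟨r, hr⟩ ⟨s, hs⟩)
  have hR1card : Nat.card R₁ = 32 := by rw [T.card, L.idx, hN2]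
  have hR1N : R₁ ≤ Subgroup.normalizer ((⊥ : Subgroup Y) : Set Y) :=
    le_top.trans (Subgroup.normalizer_eq_top_iff.2 inferInstance).ge
  -- the Frattini subgroup is cyclic
  have hzz : z * z ≠ 1 := by
    intro hz2
    have hΦ2 : ∀ w ∈ Phi π, w * w = 1 := fun w hw => by
      rcases hform w hw with hn | ⟨n, hn, rfl⟩
      · exact h2N w hn
      · rw [hmulsq (Phi_le_ker hz) (Phi_le_ker (L.le hn)), hz2, h2N n hn, one_mul]
    let f : Vec →* N := MonoidHom.mk'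
      (fun v => ⟨sec v * sec v, (T.mem _ (T.le (hsecR v))).1 (hsecR v)⟩) fun a b => Subtype.ext (by
        show sec (a * b) * sec (a * b) = sec a * sec a * (sec b * sec b)
        obtain ⟨w, hw, e⟩ := hsame (mul_mem (hsecR a) (hsecR b)) (hsecR (a * b))
          (by rw [T.map_mul _ (hsecR a) _ (hsecR b), hsec, hsec, hsec])
        rw [e, hmulsq (mul_mem (T.le (hsecR a)) (T.le (hsecR b))) (Phi_le_ker hw), hΦ2 w hw, mul_one,
          hmulsq (T.le (hsecR a)) (T.le (hsecR b))])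
    have hf : ∀ g v, f (nat3 g v) = f v := by
      intro k v
      obtain ⟨g, rfl⟩ := h.surj k
      apply Subtype.ext
      have hgs : g * sec v * g⁻¹ ∈ R₁ := T.normal.conj_mem _ (hsecR v) g
      obtain ⟨w, hw, e⟩ := hsame hgs (hsecR (nat3 (π g) v))
        (by rw [T.conj _ _ (hsecR v), hsec, hsec])
      show sec (nat3 (π g) v) * sec (nat3 (π g) v) = sec v * sec v
      rw [e, hmulsq (T.le hgs) (Phi_le_ker hw), hΦ2 w hw, mul_one,
        show g * sec v * g⁻¹ * (g * sec v * g⁻¹) = g * (sec v * sec v) * g⁻¹ by group,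
        hΦY _ (h.sq_mem (T.le (hsecR v)))]
    refine false_of_section h.rank R₁ ⊥ hR1N (fun r hr => ?_) bot_le ?_
    · obtain ⟨w, hw, e⟩ := hsame (hsecR (ν r)) hr (hsec _)
      rw [Subgroup.mem_bot, e, hmulsq (T.le (hsecR _)) (Phi_le_ker hw), hΦ2 w hw, mul_one]
      exact congrArg Subtype.val (hom_trivial_vec f hf _)
    · rw [Subgroup.card_bot, hR1card]; norm_num
  have hΦN : ∀ w ∈ Phi π, w * w = 1 → w ∈ N := by
    intro w hw hw2
    by_contra hwN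
    obtain ⟨n, hn, rfl⟩ := (hform w hw).resolve_left hwN
    rw [hmulsq (Phi_le_ker hz) (Phi_le_ker (L.le hn)), h2N n hn, mul_one] at hw2
    exact hzz hw2
  have hsq1 : ∀ {r}, r ∈ π.ker → r * r = 1 → r ∈ R₁ := fun {r} hr e =>
    (T.mem r hr).2 (e ▸ one_mem N)
  have hΦ4 : ∀ w ∈ Phi π, w * w * (w * w) = 1 := fun w hw => h2N _ (L.sq_Phi hw)
  have hbr : ∀ g {r}, r ∈ π.ker →
      g * r * g⁻¹ * r⁻¹ * (g * r * g⁻¹ * r⁻¹) = 1 := by
    intro g r hr
    rw [hmulsq (hkn g hr) (inv_mem hr), show g * r * g⁻¹ * (g * r * g⁻¹) = g * (r * r) * g⁻¹ by group,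
      hΦY _ (h.sq_mem hr)]
    group
  have hbrR : ∀ g {r}, r ∈ π.ker → g * r * g⁻¹ * r⁻¹ ∈ R₁ := fun g {r} hr =>
    hsq1 (mul_mem (hkn g hr) (inv_mem hr)) (hbr g hr)
  have hνc : ∀ g {r}, r ∈ R₁ → ν (g * r * g⁻¹ * r⁻¹) = nat3 (π g) (ν r) * ν r := fun g {r} hr => by
    rw [T.map_mul _ (T.normal.conj_mem _ hr g) _ (inv_mem hr), T.conj g r hr, hνinv r hr]
  obtain ⟨lmul, lmd, lmh, lmd1, lma, lmb, lca, lcb, lcases⟩ := line_facts
  obtain ⟨pmul, pln, pmd2, pmd, pmk, pmdl, pab⟩ := plane_facts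
  have lone : Ln (1 : Vec) := ⟨rfl, rfl⟩
  let N₀ : Subgroup Y :=
    { carrier := {r | r ∈ R₁ ∧ r * r = 1 ∧ Ln (ν r)}
      one_mem' := ⟨one_mem _, one_mul 1, hν1.symm ▸ lone⟩
      mul_mem' := fun {a b} ha hb => ⟨mul_mem ha.1 hb.1,
        by rw [hmulsq (T.le ha.1) (T.le hb.1), ha.2.1, hb.2.1, one_mul],
        T.map_mul a ha.1 b hb.1 ▸ lmul _ _ ha.2.2 hb.2.2⟩
      inv_mem' := fun {a} ha => ⟨inv_mem ha.1, by rw [← mul_inv_rev, ha.2.1, inv_one],
        (hνinv a ha.1).symm ▸ ha.2.2⟩ }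
  let P : Subgroup Y :=
    { carrier := {r | r ∈ R₁ ∧ Pl (ν r)}
      one_mem' := ⟨one_mem _, hν1.symm ▸ pln _ lone⟩
      mul_mem' := fun {a b} ha hb => ⟨mul_mem ha.1 hb.1,
        T.map_mul a ha.1 b hb.1 ▸ pmul _ _ ha.2 hb.2⟩
      inv_mem' := fun {a} ha => ⟨inv_mem ha.1, (hνinv a ha.1).symm ▸ ha.2⟩ }
  have hΦR1 : ∀ w ∈ Phi π, w ∈ R₁ := fun w hw => (T.mem w (Phi_le_ker hw)).2 (L.sq_Phi hw)
  have hΦP : ∀ w ∈ Phi π, w ∈ P := fun w hw =>
    ⟨hΦR1 w hw, ((T.ker w (hΦR1 w hw)).2 hw).symm ▸ pln _ lone⟩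
  have hN0of : ∀ r ∈ N, r ∈ N₀ := fun r hr => ⟨hΦR1 r (L.le hr), h2N r hr,
    ((T.ker r (hΦR1 r (L.le hr))).2 (L.le hr)).symm ▸ lone⟩
  -- lifts
  obtain ⟨D, hD⟩ := h.surj md
  obtain ⟨H, hH⟩ := h.surj mh
  obtain ⟨G, hG⟩ := h.surj Three.mk
  set A := D * D with hA
  have hπA : π A = ma := by rw [hA, map_mul, hD, md_sq]
  set B := H * A * H⁻¹ with hB
  have hπB : π B = mb := by rw [hB, map_mul, map_mul, map_inv, hH, hπA, mh_conj]
  set η := D * (B * D * B⁻¹) with hη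
  have hηk : η ∈ π.ker := by
    rw [MonoidHom.mem_ker, hη, map_mul, map_mul, map_mul, map_inv, hD, hπB]; decide
  set s := D * D * (D * D) with hs
  have hsk : s ∈ π.ker := by rw [MonoidHom.mem_ker, hs, map_mul, map_mul, hD, md_sq, ma_sq]
  have hnorm : s * (B * s * B⁻¹) = D * (D * (D * η * D⁻¹) * D⁻¹) * D⁻¹ *
      (D * (D * η * D⁻¹) * D⁻¹) * (D * η * D⁻¹) * η := by
    rw [hs, hη]
    simp only [mul_assoc, _root_.mul_inv_rev, inv_inv, inv_mul_cancel_left, mul_inv_cancel_left]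
  have k1 : D * η * D⁻¹ ∈ π.ker := hkn D hηk
  have k2 : D * (D * η * D⁻¹) * D⁻¹ ∈ π.ker := hkn D k1
  have k3 : D * (D * (D * η * D⁻¹) * D⁻¹) * D⁻¹ ∈ π.ker := hkn D k2
  have hBs : B * s * B⁻¹ * s = s * (B * s * B⁻¹) := hab _ (hkn B hsk) s hsk
  -- the fourth power lies in the preimage of the submodule
  have hsR : s ∈ R₁ := by
    refine (T.mem s hsk).2 (hΦN _ (h.sq_mem hsk) ?_)
    have e1 : ∀ (g : Y) {r : Y}, r ∈ π.ker → g * r * g⁻¹ * (g * r * g⁻¹) = r * r := fun g {r} hr => by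
      rw [show g * r * g⁻¹ * (g * r * g⁻¹) = g * (r * r) * g⁻¹ by group, hΦY _ (h.sq_mem hr)]
    have hN1 : s * (B * s * B⁻¹) * (s * (B * s * B⁻¹)) = 1 := by
      rw [hnorm, hmulsq (mul_mem (mul_mem k3 k2) k1) hηk, hmulsq (mul_mem k3 k2) k1, hmulsq k3 k2,
        e1 D k2, e1 D k1, e1 D hηk]
      have e4 := hΦ4 _ (h.sq_mem hηk)
      rw [show η * η * (η * η) * (η * η) * (η * η) = η * η * (η * η) * (η * η * (η * η)) by group,
        e4]
    rwa [hmulsq hsk (hkn B hsk), e1 B hsk] at hN1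
  have hsν : Ln (ν s) := lmd _ (by
    have h1 := T.conj D s hsR
    rw [hD, show D * s * D⁻¹ = s by rw [hs]; group] at h1
    exact h1.symm)
  -- the centraliser of the line
  have hfix2 : ∀ {r}, r ∈ R₁ → Ln (ν r) → A * r * A⁻¹ = r := by
    intro r hr hl
    set n := D * r * D⁻¹ * r⁻¹ with hn
    have hnR : n ∈ R₁ := hbrR D (T.le hr)
    have hnΦ : n ∈ Phi π := (T.ker n hnR).1 (by rw [hn, hνc D hr, hD, lmd1 _ hl])
    have hnN : n ∈ N := hΦN n hnΦ (hbr D (T.le hr))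
    calc A * r * A⁻¹ = D * (n * r) * D⁻¹ := by rw [hA, hn]; group
      _ = D * n * D⁻¹ * (n * r) := by rw [hn]; group
      _ = n * n * r := by rw [hΦY n hnΦ]; exact (mul_assoc _ _ _).symm
      _ = r := by rw [h2N n hnN, one_mul]
  have hfixB : ∀ {r}, r ∈ R₁ → Ln (ν r) → B * r * B⁻¹ = r := by
    intro r hr hl
    have h1 : H⁻¹ * r * H⁻¹⁻¹ ∈ R₁ := T.normal.conj_mem _ hr H⁻¹
    have h2' : Ln (ν (H⁻¹ * r * H⁻¹⁻¹)) := by
      rw [T.conj _ _ hr, map_inv, hH, show mh⁻¹ = mh by decide, lmh _ hl]; exact hl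
    calc B * r * B⁻¹ = H * (A * (H⁻¹ * r * H⁻¹⁻¹) * A⁻¹) * H⁻¹ := by rw [hB]; group
      _ = r := by rw [hfix2 h1 h2']; group
  have hB2 : B * B ∈ R₁ ∧ Ln (ν (B * B)) := by
    rw [show B * B = H * s * H⁻¹ by rw [hB, hA, hs]; group, T.conj _ _ hsR, hH, lmh _ hsν]
    exact ⟨T.normal.conj_mem _ hsR H, hsν⟩
  -- the twisting element lies over the plane
  have hηP : η ∈ P := by
    set y := G⁻¹ * (B * D) * G * A⁻¹ with hy
    have hyk : y ∈ π.ker := by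
      rw [MonoidHom.mem_ker, hy, map_mul, map_mul, map_mul, map_mul, map_inv, map_inv, hπA, hπB,
        hD, hG, ← mk_conj]
      group
    have hyA : y * A * (y * A) ∈ P := by
      rw [show y * A * (y * A) = y * (A * y * A⁻¹) * (A * A) by group,
        show y * (A * y * A⁻¹) = y * y * (y⁻¹ * (A * y * A⁻¹)) by group, hab _ (inv_mem hyk) _ (hkn A hyk)]
      refine mul_mem (mul_mem (hΦP _ (h.sq_mem hyk)) ?_) ⟨hsR, pln _ hsν⟩
      set u := D * y * D⁻¹ * y⁻¹ with hu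
      have huR : u ∈ R₁ := hbrR D hyk
      rw [show A * y * A⁻¹ * y⁻¹ = D * u * D⁻¹ * u by rw [hA, hu]; group]
      refine ⟨mul_mem (T.normal.conj_mem _ huR D) huR, ?_⟩
      rw [T.map_mul _ (T.normal.conj_mem _ huR D) _ huR, T.conj _ _ huR, hD]
      exact pmd2 _
    have hconjP : ∀ g, (∀ v, Pl v → Pl (nat3 (π g) v)) → ∀ {r}, r ∈ P → g * r * g⁻¹ ∈ P :=
      fun g hg {r} hr => ⟨T.normal.conj_mem _ hr.1 g, T.conj g r hr.1 ▸ hg _ hr.2⟩
    have hBD : B * D * (B * D) ∈ P := by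
      rw [show B * D * (B * D) = G * (y * A * (y * A)) * G⁻¹ by rw [hy]; group]
      exact hconjP G (hG ▸ pmk) hyA
    rw [show η = D * (B * D * (B * D)) * D⁻¹ * (B * B)⁻¹ by rw [hη]; group]
    exact mul_mem (hconjP D (hD ▸ pmd) hBD) (inv_mem ⟨hB2.1, pln _ hB2.2⟩)
  -- the fourth power is an involution
  have hs2 : s * s = 1 := by
    have h1 : D * (D * (D * η * D⁻¹) * D⁻¹) * D⁻¹ * (D * (D * η * D⁻¹) * D⁻¹) * (D * η * D⁻¹) * η
        = 1 := by
      set n1 := D * η * D⁻¹ * η⁻¹ with hn1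
      have hn1R : n1 ∈ R₁ := hbrR D hηk
      set n2 := D * n1 * D⁻¹ * n1⁻¹ with hn2
      have hn2R : n2 ∈ R₁ := hbrR D (T.le hn1R)
      have hn2Φ : n2 ∈ Phi π := (T.ker n2 hn2R).1 (by
        rw [hn2, hνc D hn1R, hD, lmd1 _ (by rw [hn1, hνc D hηP.1, hD]; exact pmdl _ hηP.2)])
      have hn2N : n2 ∈ N := hΦN n2 hn2Φ (hbr D (T.le hn1R))
      have hn11 : n1 * n1 = 1 := hbr D hηk
      have eA : D * η * D⁻¹ = n1 * η := by rw [hn1]; group
      have eB : D * (D * η * D⁻¹) * D⁻¹ = n2 * η := by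
        calc D * (D * η * D⁻¹) * D⁻¹ = n2 * n1 * (n1 * η) := by rw [hn2, hn1]; group
          _ = n2 * (n1 * n1) * η := by group
          _ = n2 * η := by rw [hn11, mul_one]
      have eC : D * (D * (D * η * D⁻¹) * D⁻¹) * D⁻¹ = n2 * (n1 * η) := by
        rw [eB, show D * (n2 * η) * D⁻¹ = D * n2 * D⁻¹ * (D * η * D⁻¹) by group, hΦY n2 hn2Φ, eA]
      rw [eC, eB, eA]
      have key : ∀ a b c : π.ker, a * (b * c) * (a * c) * (b * c) * c =
          a * a * (b * b) * (c * c * (c * c)) := fun a b c => by ac_rfl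
      have h5 := congrArg Subtype.val (key ⟨n2, Phi_le_ker hn2Φ⟩ ⟨n1, T.le hn1R⟩ ⟨η, hηk⟩)
      refine Eq.trans h5 ?_
      show n2 * n2 * (n1 * n1) * (η * η * (η * η)) = 1
      rw [h2N n2 hn2N, hn11, h2N _ ((T.mem η hηk).1 hηP.1), one_mul, one_mul]
    rw [← hnorm, hfixB hsR hsν] at h1
    exact h1
  have hA2 : A * A ∈ N₀ := ⟨hsR, hs2, hsν⟩
  have hN0fix : ∀ g, (∀ v, Ln v → nat3 (π g) v = v) → ∀ {r}, r ∈ N₀ → g * r * g⁻¹ ∈ N₀ :=
    fun g hg {r} hr => ⟨T.normal.conj_mem _ hr.1 g,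
      by rw [show g * r * g⁻¹ * (g * r * g⁻¹) = g * (r * r) * g⁻¹ by group, hr.2.1, mul_one,
        mul_inv_cancel],
      by rw [T.conj g r hr.1, hg _ hr.2.2]; exact hr.2.2⟩
  have hB2' : B * B ∈ N₀ := by
    rw [show B * B = H * (A * A) * H⁻¹ by rw [hB]; group]
    exact hN0fix H (hH ▸ lmh) hA2
  have hAB : A * B * (A * B) ∈ N₀ := by
    set ρ := D * η⁻¹ * D⁻¹ with hρ
    have hρP : ρ ∈ P := ⟨T.normal.conj_mem _ (inv_mem hηP.1) D, by
      rw [hρ, T.conj _ _ (inv_mem hηP.1), hD, hνinv η hηP.1]; exact pmd _ hηP.2⟩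
    have e : ρ * (A * B) = D * B * D⁻¹ := by rw [hρ, hη, hA]; group
    have hρk : ρ ∈ π.ker := T.le hρP.1
    have h1 : ρ * (A * B) * (ρ * (A * B)) ∈ N₀ := by
      rw [e, show D * B * D⁻¹ * (D * B * D⁻¹) = D * (B * B) * D⁻¹ by group]
      exact hN0fix D (fun v hv => by
        have h9 := lmd1 v hv
        rw [hD]
        exact (eq_inv_of_mul_eq_one_left h9).trans (inv_eq_of_mul_eq_one_left (vec_two v))) hB2'
    have hm : ρ * ρ * ((A * B) * ρ * (A * B)⁻¹ * ρ⁻¹) ∈ N₀ := by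
      refine mul_mem (hN0of _ ((T.mem ρ hρk).1 hρP.1)) ⟨hbrR _ hρk, hbr _ hρk, ?_⟩
      rw [hνc _ hρP.1, map_mul, hπA, hπB]
      exact pab _ hρP.2
    have := mul_mem (inv_mem hm) h1
    convert this using 1
    rw [show ρ * ρ * (A * B * ρ * (A * B)⁻¹ * ρ⁻¹) = ρ * (ρ * ((A * B * ρ * (A * B)⁻¹) * ρ⁻¹)) by
      group, hab _ (hkn _ hρk) _ (inv_mem hρk)]
    group
  -- the section
  obtain ⟨e0, he0, he0ν, he02⟩ : ∃ e0, e0 ∈ R₁ ∧ ν e0 = E 0 ∧ e0 * e0 = 1 := by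
    by_cases h0 : r0 * r0 = 1
    · exact ⟨r0, hr0, hνr0, h0⟩
    · refine ⟨r0 * z, mul_mem hr0 (hΦR1 z hz), ?_, ?_⟩
      · rw [T.map_mul _ hr0 _ (hΦR1 z hz), (T.ker z (hΦR1 z hz)).2 hz, mul_one, hνr0]
      · rw [hmulsq (T.le hr0) (Phi_le_ker hz), hN12 _ ((T.mem r0 (T.le hr0)).1 hr0) h0 _
          (L.sq_Phi hz) hzz]
        exact hΦ4 z hz
  have hN0card : Nat.card N₀ ≤ 4 := by
    let f : N × Fin 2 → N₀ := fun p => ⟨p.1 * e0 ^ p.2.1, mul_mem (hN0of _ p.1.2)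
      (pow_mem (show e0 ∈ N₀ from ⟨he0, he02, he0ν ▸ ⟨rfl, rfl⟩⟩) _)⟩
    refine (Nat.card_le_card_of_surjective f ?_).trans (by
      rw [Nat.card_prod, hN2, Nat.card_eq_fintype_card, Fintype.card_fin])
    rintro ⟨r, hr, hr2, hrl⟩
    rcases lcases _ hrl with e | e
    · exact ⟨(⟨r, hΦN r ((T.ker r hr).1 e) hr2⟩, 0), Subtype.ext (by simp [f])⟩
    · refine ⟨(⟨r * e0, hΦN _ ((T.ker _ (mul_mem hr he0)).1
        (by rw [T.map_mul r hr e0 he0, e, he0ν, vec_two]))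
        (by rw [hmulsq (T.le hr) (T.le he0), hr2, he02, one_mul])⟩, 1), Subtype.ext ?_⟩
      show r * e0 * e0 ^ 1 = r
      rw [pow_one, mul_assoc, he02, mul_one]
  have hnB : ∀ n ∈ N₀, B * n * B⁻¹ = n := fun n hn => hfixB hn.1 hn.2.2
  have hcomm := comm_mem_of_squares hnB hA2 hB2' hAB
  refine false_of_generators h.rank N₀ ((R₁ : Set Y) ∪ {A, B}) ?_ ?_ ?_ ?_ ?_
  · intro t ht
    refine Subgroup.centralizer_le_normalizer _ (Subgroup.mem_centralizer_iff.2 fun n hn => ?_)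
    rcases ht with ht | rfl | rfl
    · exact hab n (T.le (SetLike.mem_coe.1 hn).1) t (T.le ht)
    · exact (mul_inv_eq_iff_eq_mul.1 (hfix2 (SetLike.mem_coe.1 hn).1 (SetLike.mem_coe.1 hn).2.2)).symm
    · exact (mul_inv_eq_iff_eq_mul.1 (hnB n hn)).symm
  · rintro t (ht | rfl | rfl)
    · exact hN0of _ ((T.mem t (T.le ht)).1 ht)
    · exact hA2
    · exact hB2'
  · have hgR : ∀ g, (∀ v, Ln (nat3 (π g) v * v)) → ∀ r ∈ R₁,
        g * r * g⁻¹ * r⁻¹ ∈ N₀ ∧ r * g * r⁻¹ * g⁻¹ ∈ N₀ := by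
      intro g hg r hr
      have h1 : g * r * g⁻¹ * r⁻¹ ∈ N₀ := ⟨hbrR g (T.le hr), hbr g (T.le hr), hνc g hr ▸ hg _⟩
      exact ⟨h1, by
        rw [show r * g * r⁻¹ * g⁻¹ = (g * r * g⁻¹ * r⁻¹)⁻¹ by group]; exact inv_mem h1⟩
    rintro a (ha | rfl | rfl) b (hb | rfl | rfl)
    · rw [hab a (T.le ha) b (T.le hb), mul_inv_cancel_right, mul_inv_cancel]; exact one_mem _
    · exact (hgR A (hπA ▸ lca) a ha).2
    · exact (hgR B (hπB ▸ lcb) a ha).2
    · exact (hgR A (hπA ▸ lca) b hb).1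
    · rw [mul_inv_cancel_right, mul_inv_cancel]; exact one_mem _
    · exact hcomm.1
    · exact (hgR B (hπB ▸ lcb) b hb).1
    · exact hcomm.2
    · rw [mul_inv_cancel_right, mul_inv_cancel]; exact one_mem _
  · intro t ht
    exact Or.inl (SetLike.mem_coe.1 ht).1
  · have hcard := closure_card_ge π ((R₁ : Set Y) ∪ {A, B}) (fun r : R₁ => (r : Y))
      Subtype.val_injective (fun r => Subgroup.subset_closure (Or.inl r.2))
      (fun r => MonoidHom.mem_ker.1 (T.le r.2)) (a := A) (b := B) (Or.inr (Or.inl rfl))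
      (Or.inr (Or.inr rfl))
      (by
        rw [hπA, hπB]
        exact (show Function.Injective fun p : Fin 2 × Fin 2 => ma ^ p.1.1 * mb ^ p.2.1 by
          decide +kernel))
    rw [hR1card] at hcard
    omega

/-- There is no second layer with lower factor of order two. -/
theorem Layer.false_of_two (L : Layer π N) (hN2 : Nat.card N = 2) : False := by
  classical
  have h := L.sit
  obtain ⟨U, hU8, hU, hmemU⟩ := L.exists_U
  letI := h.commV
  have hU2 : ∀ u : U, u * u = 1 := fun u => Subtype.ext (v2_VQ h _)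
  obtain ⟨θ, ιU, hn, hs⟩ := exists_natural _
    (restrict_injective (actV_inj h) (v2_VQ h) L.card_V U hU8 hU) hU2 hU8
  let e : Vec ≃* U := MulEquiv.ofBijective ιU ⟨hn.inj, hs⟩
  set π' := θ.symm.toMonoidHom.comp π with hπ'
  have hk : π'.ker = π.ker := MonoidHom.ker_mulEquiv_comp π θ.symm
  have L' : Layer π' N := ⟨h.congr (θ.symm.surjective.comp h.surj) hk, L.normal,
    (Phi_congr hk).symm ▸ L.le, by rw [Phi_congr hk]; exact L.idx,
    by rw [hk]; exact L.comm, by rw [hk]; exact L.card⟩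
  let ν : Y → Vec := fun r => if hr : r ∈ π.ker then
    (if hu : ((⟨r, hr⟩ : π.ker) : VQ π) ∈ U then e.symm ⟨_, hu⟩ else 1) else 1
  have hν : ∀ (r : π.ker) (hu : (r : VQ π) ∈ U), ν r = e.symm ⟨_, hu⟩ := fun r hu => by
    simp only [ν, dif_pos r.2, Subtype.coe_eta, dif_pos hu]
  have hR : ∀ r ∈ preV U, ∃ r' : π.ker, (r' : Y) = r ∧ (r' : VQ π) ∈ U := by
    rintro _ ⟨r, hr, rfl⟩
    exact ⟨r, rfl, hr⟩
  refine L'.false_of_nu hN2 (R₁ := preV U) (ν := ν) ⟨preV_normal h hU, hk.symm ▸ preV_le, ?_, ?_,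
    ?_, ?_, ?_, ?_⟩
  · intro r hr
    rw [hk] at hr
    rw [show r = ((⟨r, hr⟩ : π.ker) : Y) from rfl, mem_preV, hmemU]
  · rw [card_preV, hU8, Phi_congr hk]
  · intro r hr s hs
    obtain ⟨r, rfl, hur⟩ := hR r hr
    obtain ⟨s, rfl, hus⟩ := hR s hs
    rw [← Subgroup.coe_mul, hν (r * s) (mul_mem hur hus), hν r hur, hν s hus, ← map_mul]
    rfl
  · intro v
    obtain ⟨r, hr⟩ := QuotientGroup.mk_surjective ((e v : U) : VQ π)
    have hu : (r : VQ π) ∈ U := hr ▸ (e v).2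
    refine ⟨r, mem_preV.2 hu, ?_⟩
    rw [hν r hu, show (⟨_, hu⟩ : U) = e v from Subtype.ext hr, MulEquiv.symm_apply_apply]
  · intro r hr
    obtain ⟨r, rfl, hur⟩ := hR r hr
    rw [hν r hur, MulEquiv.map_eq_one_iff, ← Subtype.coe_inj, Phi_congr hk]
    exact h.mk_eq_one
  · intro g r hr
    obtain ⟨r, rfl, hur⟩ := hR r hr
    have hu' : ((MulAut.conjNormal g r : π.ker) : VQ π) ∈ U := h.actV_apply g r ▸ hU _ _ hur
    rw [← MulAut.conjNormal_apply, hν _ hu', hν r hur, MulEquiv.symm_apply_eq]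
    show _ = ιU (nat3 (θ.symm (π g)) _)
    rw [← hn.equiv]
    apply Subtype.ext
    show _ = ((restrictAct h.actV U hU (θ (θ.symm (π g))) (e (e.symm ⟨_, hur⟩)) : U) : VQ π)
    rw [MulEquiv.apply_symm_apply, MulEquiv.apply_symm_apply]
    exact (h.actV_apply g r).symm

end Cfsg.Agent.H54.RadFour.Three
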