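import Cfsg.Agent.H54.RadFour.Sit
import Cfsg.Agent.H54.RadFour.ThreeTwoQuad

/-!
# Chief factors of the radical when the factor group has order 168
-/

set_option autoImplicit false
set_option linter.style.haveILetI false

namespace Cfsg.Agent.H54.RadFour

section General

variable {Y Q : Type*} [Group Y] [Group Q] {π : Y →* Q}

/-- The Frattini subgroup of the kernel depends only on the kernel. -/
theorem Phi_congr {Q' : Type*} [Group Q'] {π' : Y →* Q'} (hk : π'.ker = π.ker) : Phi π' = Phi π := by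
  have key : ∀ K L : Subgroup Y, K = L →
      (frattini K).map K.subtype = (frattini L).map L.subtype := by
    rintro K _ rfl
    rfl
  exact key _ _ hk

theorem Sit.congr (h : Sit π) {Q' : Type*} [Group Q'] {π' : Y →* Q'} (hs : Function.Surjective π')
    (hk : π'.ker = π.ker) : Sit π' := by
  refine ⟨hs, hk ▸ h.pgroup, fun g hg => ?_, h.rank⟩
  rw [hk] at hg ⊢
  rw [Phi_congr hk] at hg
  exact h.faithful g hg

/-- Sectional rank bounds pass to factor groups. -/
theorem sectional_quotient (h : Cfsg.SectionalPRankLE 2 4 Y) (N : Subgroup Y) [N.Normal] :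
    Cfsg.SectionalPRankLE 2 4 (Y ⧸ N) := by
  intro H M hM A hA hAp
  haveI := hM
  set mk := QuotientGroup.mk' N
  let r : ↥(H.comap mk) →* H := mk.subgroupComap H
  have hr : Function.Surjective r :=
    mk.subgroupComap_surjective_of_surjective H (QuotientGroup.mk'_surjective N)
  let ρ : ↥(H.comap mk) →* H ⧸ M := (QuotientGroup.mk' M).comp r
  let e : ↥(H.comap mk) ⧸ ρ.ker ≃* H ⧸ M :=
    QuotientGroup.quotientKerEquivOfSurjective ρ ((QuotientGroup.mk'_surjective M).comp hr)
  have h' := h (H.comap mk) ρ.ker (A.map e.symm.toMonoidHom) ?_ ?_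
  · rwa [Subgroup.card_map_of_injective e.symm.injective] at h'
  · exact Subgroup.map_isMulCommutative _ _
  · rintro _ ⟨a, ha, rfl⟩
    rw [← map_pow, hAp a ha, map_one]

/-- The preimage of a subgroup of the Frattini quotient. -/
def preV (U : Subgroup (VQ π)) : Subgroup Y :=
  (U.comap (QuotientGroup.mk' (frattini π.ker))).map π.ker.subtype

theorem mem_preV {U : Subgroup (VQ π)} {r : π.ker} : (r : Y) ∈ preV U ↔ (r : VQ π) ∈ U :=
  ⟨fun ⟨_, hs, e⟩ => Subtype.ext e ▸ hs, fun hr => ⟨r, hr, rfl⟩⟩

theorem preV_le {U : Subgroup (VQ π)} : preV U ≤ π.ker := Subgroup.map_subtype_le _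

variable [Finite Y]

theorem card_preV (U : Subgroup (VQ π)) : Nat.card (preV U) = Nat.card U * Nat.card (Phi π) := by
  rw [preV, Phi, Subgroup.card_map_of_injective π.ker.subtype_injective,
    Subgroup.card_map_of_injective π.ker.subtype_injective]
  have h1 := Subgroup.card_mul_index (U.comap (QuotientGroup.mk' (frattini π.ker)))
  rw [Subgroup.index_comap_of_surjective _ (QuotientGroup.mk'_surjective _),
    Subgroup.card_eq_card_quotient_mul_card_subgroup (frattini π.ker),
    ← Subgroup.card_mul_index U, mul_right_comm] at h1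
  exact Nat.eq_of_mul_eq_mul_right (Nat.pos_of_ne_zero Subgroup.index_ne_zero_of_finite) h1

theorem preV_normal (h : Sit π) {U : Subgroup (VQ π)} (hU : ∀ g, ∀ u ∈ U, h.actV g u ∈ U) :
    (preV U).Normal := by
  refine ⟨?_⟩
  rintro _ ⟨r, hr, rfl⟩ g
  exact ⟨MulAut.conjNormal g r, show ((MulAut.conjNormal g r : π.ker) : VQ π) ∈ U from
    h.actV_apply g r ▸ hU _ _ hr, MulAut.conjNormal_apply g r⟩

/-- A trivial polar map gives commuting elements. -/
theorem comm_of_polar (h : Sit π) (hcen : ∀ w ∈ Phi π, ∀ r ∈ π.ker, w * r = r * w)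
    (h2 : ∀ w ∈ Phi π, w * w = 1) {r s : π.ker}
    (e : @polar (VQ π) (Phi π) h.commV (Sit.commW hcen) (h.sqMap hcen h2) (r : VQ π) s = 1) :
    (r : Y) * s = s * r := by
  letI := h.commV
  letI := Sit.commW hcen
  have hq := (h.qmap hcen h2).toQuad.q_mul (r : VQ π) (s : VQ π)
  rw [e, mul_one] at hq
  have h1 := congrArg Subtype.val hq
  rw [← QuotientGroup.mk_mul, h.sqMap_mk] at h1
  have h2' : (r : Y) * s * (r * s) = r * r * (s * s) := h1
  have h3 : (s : Y) * r = r * s := by
    calc (s : Y) * r = (r : Y)⁻¹ * (r * s * (r * s)) * (s : Y)⁻¹ := by group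
      _ = (r : Y)⁻¹ * (r * r * (s * s)) * (s : Y)⁻¹ := by rw [h2']
      _ = r * s := by group
  exact h3.symm

end General

namespace Three

variable {Y : Type*} [Group Y] [Finite Y] {π : Y →* Q3}

theorem v2_VQ (h : Sit π) (v : VQ π) : v * v = 1 := by
  induction v using QuotientGroup.induction_on with
  | _ v => exact h.mk_mul_self v

theorem actV_inj (h : Sit π) :
    @Function.Injective Q3 (MulAut (VQ π)) h.actV := h.actV_injective

theorem card_VQ (h : Sit π) : Nat.card (VQ π) = 8 ∨ Nat.card (VQ π) = 16 := by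
  letI := h.commV
  exact (card_cases (actV_inj h) (v2_VQ h) h.card_VQ_le).imp And.left And.left

/-- The restriction to an invariant subgroup of order eight stays faithful. -/
theorem restrict_injective {W : Type*} [CommGroup W] [Finite W] {ψ : Q3 →* MulAut W}
    (hinj : Function.Injective ψ) (h2 : ∀ w : W, w * w = 1) (h16 : Nat.card W = 16)
    (U : Subgroup W) (hU8 : Nat.card U = 8) (hU : ∀ g, ∀ u ∈ U, ψ g u ∈ U) :
    Function.Injective (restrictAct ψ U hU) := by
  refine (trivial_or_injective _).resolve_left fun htriv => ?_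
  have hle : U ≤ fixSet ψ {mf} := fun u hu =>
    (mem_fixSet_singleton ψ).2 (congrArg Subtype.val (htriv mf ⟨u, hu⟩))
  have h1 := Subgroup.card_le_of_le hle
  have h3 := ((card_cases hinj h2 h16.le).resolve_left fun h => by omega).2
  omega

/-- A central elementary normal subgroup of order eight with nontrivial action, in natural
coordinates. -/
theorem exists_coordinates (h : Sit π) (N : Subgroup Y) [N.Normal]
    (hcN : ∀ w ∈ N, ∀ r ∈ π.ker, w * r = r * w) (h2N : ∀ w ∈ N, w * w = 1)
    (h8 : Nat.card N = 8) (hnt : ¬ ∀ g, ∀ w ∈ N, g * w * g⁻¹ = w) (hle : N ≤ π.ker) :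
    ∃ π' : Y →* Q3, Function.Surjective π' ∧ π'.ker = π.ker ∧ ∃ ι : Vec →* Y,
      Function.Injective ι ∧ ι.range = N ∧ ∀ g v, g * ι v * g⁻¹ = ι (nat3 (π' g) v) := by
  letI : CommGroup N :=
    { (inferInstance : Group N) with
      mul_comm := fun a b => Subtype.ext (hcN a a.2 b (hle b.2)) }
  have hinj : Function.Injective (h.actOn N hcN) :=
    (trivial_or_injective _).resolve_left fun htriv => hnt fun g w hw => by
      rw [← h.actOn_apply N hcN g ⟨w, hw⟩, htriv]
  obtain ⟨θ, ι, hn, hs⟩ := exists_natural _ hinj (fun w => Subtype.ext (h2N w w.2)) h8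
  refine ⟨θ.symm.toMonoidHom.comp π, θ.symm.surjective.comp h.surj,
    MonoidHom.ker_mulEquiv_comp π θ.symm, N.subtype.comp ι,
    Subtype.val_injective.comp hn.inj, ?_, fun g v => ?_⟩
  · rw [MonoidHom.range_comp, MonoidHom.range_eq_top.2 hs, ← MonoidHom.range_eq_map,
      Subgroup.range_subtype]
  · show g * (ι v : Y) * g⁻¹ = (ι (nat3 (θ.symm (π g)) v) : Y)
    rw [← hn.equiv, ← h.actOn_apply N hcN g (ι v)]
    show _ = ((h.actOn N hcN (θ (θ.symm (π g))) (ι v) : N) : Y)
    rw [MulEquiv.apply_symm_apply]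

/-- Chief factors inside the kernel have order two, or eight with nontrivial action. -/
theorem card_minimal (h : Sit π) (N : Subgroup Y) [N.Normal] (hle : N ≤ π.ker)
    (hmin : ∀ L : Subgroup Y, L.Normal → L ≤ N → L = ⊥ ∨ L = N) (hne : N ≠ ⊥) :
    Nat.card N = 2 ∨ (Nat.card N = 8 ∧ ¬ ∀ g, ∀ w ∈ N, g * w * g⁻¹ = w) := by
  classical
  obtain ⟨hcN, h2N⟩ := h.central_of_minimal' N hle hmin
  letI : CommGroup N :=
    { (inferInstance : Group N) with
      mul_comm := fun a b => Subtype.ext (hcN a a.2 b (hle b.2)) }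
  have h2 : ∀ w : N, w * w = 1 := fun w => Subtype.ext (h2N w w.2)
  have hsub : ∀ U : Subgroup N, (∀ g, ∀ u ∈ U, h.actOn N hcN g u ∈ U) → U = ⊥ ∨ U = ⊤ := by
    intro U hU
    have hn : (U.map N.subtype).Normal := ⟨by
      rintro _ ⟨u, hu, rfl⟩ g
      exact ⟨_, hU (π g) u hu, h.actOn_apply N hcN g u⟩⟩
    refine (hmin _ hn (Subgroup.map_subtype_le U)).imp
      (fun e => Subgroup.map_injective N.subtype_injective (by rw [e, Subgroup.map_bot]))
      (fun e => Subgroup.map_injective N.subtype_injective (by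
        rw [e, ← MonoidHom.range_eq_map, Subgroup.range_subtype]))
  have hone : 1 < Nat.card N := (Subgroup.one_lt_card_iff_ne_bot _).2 hne
  haveI : Nontrivial N := Finite.one_lt_card_iff_nontrivial.1 hone
  by_cases htriv : ∀ g, ∀ w ∈ N, g * w * g⁻¹ = w
  · left
    obtain ⟨w, hw⟩ := exists_ne (1 : N)
    have hfix : ∀ g, ∀ u ∈ Subgroup.zpowers w, h.actOn N hcN g u ∈ Subgroup.zpowers w := by
      intro g u hu
      obtain ⟨y, rfl⟩ := h.surj g
      rwa [show h.actOn N hcN (π y) u = u from
        Subtype.ext ((h.actOn_apply N hcN y u).trans (htriv y u u.2))]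
    rcases hsub _ hfix with e | e
    · exact absurd (Subgroup.zpowers_eq_bot.1 e) hw
    · have h1 := card_zpowers_le_two (h2 w)
      rw [e, Subgroup.card_top] at h1
      omega
  right
  refine ⟨?_, htriv⟩
  have hinj : Function.Injective (h.actOn N hcN) :=
    (trivial_or_injective _).resolve_left fun ht => htriv fun g w hw => by
      rw [← h.actOn_apply N hcN g ⟨w, hw⟩, ht]
  have hle16 : Nat.card N ≤ 16 := by
    by_contra hlt
    refine false_of_section h.rank N ⊥
      (le_top.trans (Subgroup.normalizer_eq_top_iff.2 inferInstance).ge)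
      (fun w hw => Subgroup.mem_bot.2 (h2N w hw)) bot_le ?_
    rw [Subgroup.card_bot]
    omega
  rcases card_cases hinj h2 hle16 with ⟨h8, -⟩ | ⟨h16, -⟩
  · exact h8
  exfalso
  rcases sixteen_cases hinj h2 h16 with ⟨U, hU8, hU⟩ | ⟨c, hc1, hcf, -⟩
  · rcases hsub U hU with e | e <;> rw [e] at hU8
    · rw [Subgroup.card_bot] at hU8; omega
    · rw [Subgroup.card_top] at hU8; omega
  · rcases hsub (Subgroup.zpowers c) (fun g u hu => by
      rcases (mem_zpowers_two (h2 c)).1 hu with rfl | rfl
      · rw [map_one]; exact one_mem _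
      · rw [hcf]; exact Subgroup.mem_zpowers _) with e | e
    · exact hc1 (Subgroup.zpowers_eq_bot.1 e)
    · have h1 := card_zpowers_le_two (h2 c)
      rw [e, Subgroup.card_top] at h1
      omega

end Three

end Cfsg.Agent.H54.RadFour
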